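import Cfsg.Agent.Classical.SympFormStd
import Mathlib.FieldTheory.Finite.Basic

/-!
Symplectic bases of a four-dimensional space adapted to an isometry with square `1` or `-1`: such isometries form
one conjugacy class each.
-/

set_option autoImplicit false
set_option maxHeartbeats 800000

namespace CfsgLib.Classical.PrimeDerangement.Sympl

open Matrix Cfsg CfsgLib.SympFormStd

variable {F : Type*} [Field F]

local notation "ι4" => (Fin 2 ⊕ Fin 2)

/-- The matrix with columns `a, b` and `c, d`. -/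
def colMat (a b c d : ι4 → F) : Matrix ι4 ι4 F :=
  Matrix.of fun r k => Sum.elim ![a, c] ![b, d] k r

/-- A pair of hyperbolic pairs gives a symplectic matrix. -/
theorem exists_colMat_mem {a b c d : ι4 → F} (hab : sympForm 2 F a b = -1) (hcd : sympForm 2 F c d = -1)
    (hac : sympForm 2 F a c = 0) (had : sympForm 2 F a d = 0) (hbc : sympForm 2 F b c = 0)
    (hbd : sympForm 2 F b d = 0) : ∃ P ∈ spGL 2 F, (P : Matrix ι4 ι4 F) = colMat a b c d := by
  have hf := isSymplecticForm 2 F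
  have hflip : ∀ {u v : ι4 → F} {r : F}, sympForm 2 F u v = r → sympForm 2 F v u = -r := fun h => by
    rw [hf.skew, h]
  have key : ∀ u v, sympForm 2 F (colMat a b c d *ᵥ u) (colMat a b c d *ᵥ v) = sympForm 2 F u v := by
    intro u v
    have e : ∀ w : ι4 → F, colMat a b c d *ᵥ w =
        (w (Sum.inl 0) • a + w (Sum.inl 1) • c) + (w (Sum.inr 0) • b + w (Sum.inr 1) • d) := by
      intro w
      funext r
      simp [colMat, Matrix.mulVec, dotProduct, Fintype.sum_sum_type, Fin.sum_univ_two, mul_comm]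
    rw [e, e]
    simp only [hf.bilinear.add_left, hf.bilinear.add_right, hf.bilinear.smul_left, hf.bilinear.smul_right,
      hf.alternating, hab, hcd, hac, had, hbc, hbd, hflip hab, hflip hcd, hflip hac, hflip had, hflip hbc,
      hflip hbd]
    rw [sympForm_eq_sum]
    simp [Fin.sum_univ_two]
    ring
  have hdet : (colMat a b c d).det ≠ 0 := by
    intro h
    obtain ⟨v, hv, hv0⟩ := Matrix.exists_mulVec_eq_zero_iff.2 h
    obtain ⟨-, w, hw⟩ := hf.nondegenerate v hv
    refine hw ?_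
    rw [← key v w, hv0]
    have := hf.bilinear.smul_left 0 0 (colMat a b c d *ᵥ w)
    simpa using this
  refine ⟨Matrix.GeneralLinearGroup.mk'' _ (isUnit_iff_ne_zero.2 hdet), ?_, rfl⟩
  exact mem_spGL.2 key

theorem mul_colMat (M : Matrix ι4 ι4 F) (a b c d : ι4 → F) :
    M * colMat a b c d = colMat (M *ᵥ a) (M *ᵥ b) (M *ᵥ c) (M *ᵥ d) := by
  ext r k
  rcases k with k | k <;> fin_cases k <;> simp [colMat, Matrix.mul_apply, Matrix.mulVec, dotProduct]

theorem colMat_mul_signs (a b c d : ι4 → F) :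
    colMat a b c d * Matrix.fromBlocks (Matrix.diagonal ![1, -1]) 0 0 (Matrix.diagonal ![1, -1]) =
      colMat a b (-c) (-d) := by
  ext r k
  rcases k with k | k <;> fin_cases k <;>
    simp [colMat, Matrix.mul_apply, Fintype.sum_sum_type, Matrix.fromBlocks]

theorem colMat_mul_rot (a b c d : ι4 → F) :
    colMat a b c d * Matrix.fromBlocks 0 (-1) 1 0 = colMat b (-a) d (-c) := by
  ext r k
  rcases k with k | k <;> fin_cases k <;>
    simp [colMat, Matrix.mul_apply, Fintype.sum_sum_type, Matrix.fromBlocks, Matrix.one_apply]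

section involution

variable {x : GL ι4 F} (hx : x ∈ spGL 2 F) (hx2 : (x : Matrix ι4 ι4 F) * x = 1) (h2 : (2 : F) ≠ 0)

include hx hx2 h2 in
theorem exists_hyp_pair_eigen {s : F} (hs : s = 1 ∨ s = -1) (hne : (x : Matrix ι4 ι4 F) ≠ (-s) • 1) :
    ∃ a b, sympForm 2 F a b = -1 ∧ (x : Matrix ι4 ι4 F) *ᵥ a = s • a ∧ (x : Matrix ι4 ι4 F) *ᵥ b = s • b := by
  have hf := isSymplecticForm 2 F
  have hss : s * s = 1 := by rcases hs with rfl | rfl <;> ring
  have hproj : ∀ v, (x : Matrix ι4 ι4 F) *ᵥ (v + s • ((x : Matrix ι4 ι4 F) *ᵥ v)) =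
      s • (v + s • ((x : Matrix ι4 ι4 F) *ᵥ v)) := fun v => by
    rw [Matrix.mulVec_add, Matrix.mulVec_smul, Matrix.mulVec_mulVec, hx2, Matrix.one_mulVec, smul_add, smul_smul,
      hss, one_smul, add_comm]
  obtain ⟨v, hv⟩ : ∃ v, v + s • ((x : Matrix ι4 ι4 F) *ᵥ v) ≠ 0 := by
    by_contra h
    push Not at h
    refine hne (Matrix.ext_of_mulVec_single fun k => ?_)
    have := congrArg (s • ·) (h (Pi.single k 1))
    simp only [smul_add, smul_smul, hss, one_smul, smul_zero] at this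
    rw [Matrix.smul_mulVec, Matrix.one_mulVec, neg_smul]
    exact eq_neg_of_add_eq_zero_right this
  set a := v + s • ((x : Matrix ι4 ι4 F) *ᵥ v) with ha
  have hxa := hproj v
  rw [← ha] at hxa
  obtain ⟨-, w, hw⟩ := hf.nondegenerate a hv
  set b := w + s • ((x : Matrix ι4 ι4 F) *ᵥ w) with hb
  have hxb := hproj w
  rw [← hb] at hxb
  have hsx : s * sympForm 2 F a ((x : Matrix ι4 ι4 F) *ᵥ w) = sympForm 2 F a w := by
    have := mem_spGL.1 hx a w
    rw [hxa, hf.bilinear.smul_left] at this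
    linear_combination this
  have hab : sympForm 2 F a b = 2 * sympForm 2 F a w := by
    rw [hb, hf.bilinear.add_right, hf.bilinear.smul_right, hsx]; ring
  have hne' : sympForm 2 F a b ≠ 0 := by rw [hab]; exact mul_ne_zero h2 hw
  refine ⟨a, (-(sympForm 2 F a b)⁻¹) • b, ?_, hxa, ?_⟩
  · rw [hf.bilinear.smul_right, neg_mul, inv_mul_cancel₀ hne']
  · rw [Matrix.mulVec_smul, hxb, smul_comm]

include hx hx2 h2 in
theorem involution_form (hne1 : (x : Matrix ι4 ι4 F) ≠ 1) (hne2 : (x : Matrix ι4 ι4 F) ≠ -1) :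
    ∃ P ∈ spGL 2 F, (x : Matrix ι4 ι4 F) * (P : Matrix ι4 ι4 F) =
      (P : Matrix ι4 ι4 F) * Matrix.fromBlocks (Matrix.diagonal ![1, -1]) 0 0 (Matrix.diagonal ![1, -1]) := by
  have hf := isSymplecticForm 2 F
  obtain ⟨a, b, hab, hxa, hxb⟩ := exists_hyp_pair_eigen hx hx2 h2 (s := 1) (Or.inl rfl)
    (by rw [neg_one_smul]; exact hne2)
  obtain ⟨c, d, hcd, hxc, hxd⟩ := exists_hyp_pair_eigen hx hx2 h2 (s := -1) (Or.inr rfl)
    (by rw [neg_neg, one_smul]; exact hne1)
  have hz : ∀ {u v : ι4 → F}, (x : Matrix ι4 ι4 F) *ᵥ u = (1 : F) • u →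
      (x : Matrix ι4 ι4 F) *ᵥ v = (-1 : F) • v → sympForm 2 F u v = 0 := by
    intro u v hu hv
    have h := mem_spGL.1 hx u v
    rw [hu, hv, hf.bilinear.smul_left, hf.bilinear.smul_right] at h
    exact (mul_eq_zero.1 (show (2 : F) * sympForm 2 F u v = 0 by linear_combination -h)).resolve_left h2
  obtain ⟨P, hP, e⟩ := exists_colMat_mem hab hcd (hz hxa hxc) (hz hxa hxd) (hz hxb hxc) (hz hxb hxd)
  refine ⟨P, hP, ?_⟩
  rw [e, mul_colMat, colMat_mul_signs, hxa, hxb, hxc, hxd, one_smul, one_smul, neg_one_smul, neg_one_smul]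

end involution

section antiInvolution

variable [Finite F] {x : GL ι4 F} (hx : x ∈ spGL 2 F) (hx2 : (x : Matrix ι4 ι4 F) * x = -1) (h2 : (2 : F) ≠ 0)

include hx hx2 in
theorem symp_move (v w : ι4 → F) :
    sympForm 2 F ((x : Matrix ι4 ι4 F) *ᵥ v) w = -sympForm 2 F v ((x : Matrix ι4 ι4 F) *ᵥ w) := by
  have h := mem_spGL.1 hx v ((x : Matrix ι4 ι4 F) *ᵥ w)
  rw [Matrix.mulVec_mulVec, hx2, Matrix.neg_mulVec, Matrix.one_mulVec] at h
  have hf := isSymplecticForm 2 F
  rw [← neg_one_smul F w, hf.bilinear.smul_right] at h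
  linear_combination -h

include hx hx2 in
/-- Normalisation of a vector with `f(a, x a) ≠ 0`. -/
theorem exists_norm_neg_one {a : ι4 → F} (ha : sympForm 2 F a ((x : Matrix ι4 ι4 F) *ᵥ a) ≠ 0) :
    ∃ s t : F, sympForm 2 F (s • a + t • ((x : Matrix ι4 ι4 F) *ᵥ a))
      ((x : Matrix ι4 ι4 F) *ᵥ (s • a + t • ((x : Matrix ι4 ι4 F) *ᵥ a))) = -1 := by
  cases nonempty_fintype F
  have hf := isSymplecticForm 2 F
  obtain ⟨s, t, hst⟩ : ∃ s t : F, s ^ 2 + t ^ 2 = -(sympForm 2 F a ((x : Matrix ι4 ι4 F) *ᵥ a))⁻¹ := by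
    by_cases h : Fintype.card F % 2 = 1
    · obtain ⟨u, w, huw⟩ := FiniteField.exists_root_sum_quadratic (f := (Polynomial.X ^ 2 : Polynomial F))
        (g := Polynomial.X ^ 2 - Polynomial.C (-(sympForm 2 F a ((x : Matrix ι4 ι4 F) *ᵥ a))⁻¹))
        (Polynomial.degree_X_pow 2) (Polynomial.degree_X_pow_sub_C two_pos _) h
      simp only [Polynomial.eval_pow, Polynomial.eval_X, Polynomial.eval_sub, Polynomial.eval_C] at huw
      exact ⟨u, w, by linear_combination huw⟩
    · have h2' : ringChar F = 2 := (FiniteField.even_card_iff_char_two).2 (Nat.mod_two_ne_one.1 h)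
      obtain ⟨u, hu⟩ := FiniteField.isSquare_of_char_two h2' (-(sympForm 2 F a ((x : Matrix ι4 ι4 F) *ᵥ a))⁻¹)
      exact ⟨u, 0, by rw [hu]; ring⟩
  refine ⟨s, t, ?_⟩
  rw [Matrix.mulVec_add, Matrix.mulVec_smul, Matrix.mulVec_smul, Matrix.mulVec_mulVec, hx2, Matrix.neg_mulVec,
    Matrix.one_mulVec]
  have e1 : sympForm 2 F ((x : Matrix ι4 ι4 F) *ᵥ a) (-a) = sympForm 2 F a ((x : Matrix ι4 ι4 F) *ᵥ a) := by
    rw [← neg_one_smul F a, hf.bilinear.smul_right, hf.skew]; ring
  simp only [hf.bilinear.add_left, hf.bilinear.add_right, hf.bilinear.smul_left, hf.bilinear.smul_right,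
    hf.alternating, e1]
  rw [show sympForm 2 F a (-a) = 0 by rw [← neg_one_smul F a, hf.bilinear.smul_right, hf.alternating, mul_zero]]
  have hinv : sympForm 2 F a ((x : Matrix ι4 ι4 F) *ᵥ a) * (sympForm 2 F a ((x : Matrix ι4 ι4 F) *ᵥ a))⁻¹ = 1 :=
    mul_inv_cancel₀ ha
  linear_combination sympForm 2 F a ((x : Matrix ι4 ι4 F) *ᵥ a) * hst - hinv

include hx hx2 h2 in
theorem anti_involution_form :
    ∃ P ∈ spGL 2 F, (x : Matrix ι4 ι4 F) * (P : Matrix ι4 ι4 F) = (P : Matrix ι4 ι4 F) * Matrix.fromBlocks 0 (-1) 1 0 := by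
  cases nonempty_fintype F
  have hf := isSymplecticForm 2 F
  set X := (x : Matrix ι4 ι4 F) with hX
  have hXX : ∀ v : ι4 → F, X *ᵥ (X *ᵥ v) = -v := fun v => by
    rw [Matrix.mulVec_mulVec, hx2, Matrix.neg_mulVec, Matrix.one_mulVec]
  -- some vector is not isotropic for `f(v, x v)`
  have polar : ∀ (W : Set (ι4 → F)), (∀ v ∈ W, ∀ w ∈ W, v + w ∈ W) →
      (∀ v ∈ W, sympForm 2 F v (X *ᵥ v) = 0) → ∀ v ∈ W, ∀ w ∈ W, sympForm 2 F v (X *ᵥ w) = 0 := by
    intro W hadd hzero v hv w hw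
    have h := hzero _ (hadd v hv w hw)
    rw [Matrix.mulVec_add, hf.bilinear.add_left, hf.bilinear.add_right, hf.bilinear.add_right, hzero v hv,
      hzero w hw] at h
    have e : sympForm 2 F w (X *ᵥ v) = sympForm 2 F v (X *ᵥ w) := by
      rw [hf.skew, symp_move hx hx2, neg_neg]
    rw [e] at h
    exact (mul_eq_zero.1 (show (2 : F) * sympForm 2 F v (X *ᵥ w) = 0 by linear_combination h)).resolve_left h2
  obtain ⟨a₀, ha₀⟩ : ∃ a, sympForm 2 F a (X *ᵥ a) ≠ 0 := by
    by_contra h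
    push Not at h
    have hall := polar Set.univ (fun _ _ _ _ => Set.mem_univ _) (fun v _ => h v)
    obtain ⟨-, w, hw⟩ := hf.nondegenerate (Pi.single (Sum.inl 0) 1) (by simp)
    refine hw ?_
    have := hall _ (Set.mem_univ (Pi.single (Sum.inl 0) (1 : F))) (-(X *ᵥ w)) (Set.mem_univ _)
    rwa [Matrix.mulVec_neg, hXX, neg_neg] at this
  obtain ⟨s, t, ha⟩ := exists_norm_neg_one hx hx2 ha₀
  set a := s • a₀ + t • (X *ᵥ a₀) with hadef
  rw [← hX] at ha
  -- projection onto the orthogonal of the first pair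
  set π : (ι4 → F) → (ι4 → F) := fun w =>
    w + sympForm 2 F w (X *ᵥ a) • a + (-(sympForm 2 F w a)) • (X *ᵥ a) with hπ
  have hflip : sympForm 2 F (X *ᵥ a) a = 1 := by rw [hf.skew, ha, neg_neg]
  have horth : ∀ w, sympForm 2 F (π w) a = 0 ∧ sympForm 2 F (π w) (X *ᵥ a) = 0 := by
    intro w
    simp only [hπ, hf.bilinear.add_left, hf.bilinear.smul_left, hf.alternating, hflip, ha]
    exact ⟨by ring, by ring⟩
  let W : Set (ι4 → F) := {v | sympForm 2 F v a = 0 ∧ sympForm 2 F v (X *ᵥ a) = 0}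
  obtain ⟨c₀, hc₀, hc₀q⟩ : ∃ c ∈ W, sympForm 2 F c (X *ᵥ c) ≠ 0 := by
    by_contra h
    push Not at h
    have hall := polar W (fun v hv w hw => ⟨by rw [hf.bilinear.add_left, hv.1, hw.1, add_zero],
      by rw [hf.bilinear.add_left, hv.2, hw.2, add_zero]⟩) h
    have hzero : ∀ w, π w = 0 := by
      intro w
      by_contra hne
      obtain ⟨-, z, hz⟩ := hf.nondegenerate _ hne
      refine hz ?_
      obtain ⟨o1, o2⟩ := horth w
      have hmem : -(X *ᵥ π z) ∈ W := by
        obtain ⟨q1, q2⟩ := horth z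
        constructor
        · rw [← neg_one_smul F (X *ᵥ π z), hf.bilinear.smul_left, symp_move hx hx2, q2]; ring
        · rw [← neg_one_smul F (X *ᵥ π z), hf.bilinear.smul_left, mem_spGL.1 hx, q1]; ring
      have h1 := hall (π w) (horth w) _ hmem
      rw [Matrix.mulVec_neg, hXX, neg_neg] at h1
      have h3 : sympForm 2 F (π w) (π z) = sympForm 2 F (π w) z := by
        show sympForm 2 F (π w) (z + sympForm 2 F z (X *ᵥ a) • a + (-(sympForm 2 F z a)) • (X *ᵥ a)) = _
        simp only [hf.bilinear.add_right, hf.bilinear.smul_right, o1, o2]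
        ring
      rw [← h3]; exact h1
    have hinj : Function.Injective fun w : ι4 → F => ((sympForm 2 F w (X *ᵥ a), sympForm 2 F w a) : F × F) := by
      intro v w e
      simp only [Prod.mk.injEq] at e
      have hv := hzero v
      have hw := hzero w
      simp only [hπ, e.1, e.2] at hv hw
      rw [add_assoc] at hv hw
      exact add_right_cancel (hv.trans hw.symm)
    have := Fintype.card_le_of_injective _ hinj
    rw [Fintype.card_fun, Fintype.card_prod, Fintype.card_sum, Fintype.card_fin] at this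
    have h1 : 1 < Fintype.card F := Fintype.one_lt_card
    have : Fintype.card F ^ 2 < Fintype.card F ^ (2 + 2) := Nat.pow_lt_pow_right h1 (by norm_num)
    rw [pow_two] at this
    omega
  obtain ⟨s', t', hc⟩ := exists_norm_neg_one hx hx2 hc₀q
  set c := s' • c₀ + t' • (X *ᵥ c₀) with hcdef
  rw [← hX] at hc
  have hcW : sympForm 2 F c a = 0 ∧ sympForm 2 F c (X *ᵥ a) = 0 := by
    constructor
    · rw [hcdef, hf.bilinear.add_left, hf.bilinear.smul_left, hf.bilinear.smul_left, hc₀.1, symp_move hx hx2,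
        hc₀.2]; ring
    · rw [hcdef, hf.bilinear.add_left, hf.bilinear.smul_left, hf.bilinear.smul_left, hc₀.2, mem_spGL.1 hx,
        hc₀.1]; ring
  obtain ⟨P, hP, e⟩ := exists_colMat_mem (a := a) (b := X *ᵥ a) (c := c) (d := X *ᵥ c) ha hc
    (by rw [hf.skew, hcW.1, neg_zero])
    (by rw [← neg_neg (sympForm 2 F a (X *ᵥ c)), ← symp_move hx hx2, hf.skew, hcW.2, neg_zero, neg_zero])
    (by rw [hf.skew, hcW.2, neg_zero])
    (by rw [mem_spGL.1 hx, hf.skew, hcW.1, neg_zero])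
  refine ⟨P, hP, ?_⟩
  rw [e, mul_colMat, colMat_mul_rot, hXX, hXX]

end antiInvolution

end CfsgLib.Classical.PrimeDerangement.Sympl
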