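import Cfsg.Agent.Classical.PrimeDerangement.Sympl.Group
import Mathlib.GroupTheory.Index
import Mathlib.Data.Set.Card
import Mathlib.LinearAlgebra.Matrix.Trace

/-!
Elements of odd prime order modulo scalars normalising a signed matrix group: the trace identity
`|R| tr h tr h⁻¹ = n² |C_R(h)|` and restrictions on the fixed subgroup.
-/

set_option autoImplicit false

namespace CfsgLib.Classical.PrimeDerangement.Sympl

open scoped Matrix

variable {ι : Type} [Fintype ι] [DecidableEq ι] {F : Type*} [Field F] {R : Subgroup (GL ι F)}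

/-- The elements of `R` fixed by conjugation with `h`. -/
def fix (R : Subgroup (GL ι F)) (h : GL ι F) : Subgroup (GL ι F) := R ⊓ Subgroup.centralizer {h}

theorem mem_fix {h g : GL ι F} : g ∈ fix R h ↔ g ∈ R ∧ h * g = g * h := by
  rw [fix, Subgroup.mem_inf, Subgroup.mem_centralizer_singleton_iff]
  exact and_congr_right fun _ => eq_comm

theorem trace_eq_zero (D : Data R) (h2 : (2 : F) ≠ 0) {g : GL ι F} (hg : g ∈ R)
    (hns : ∀ c : F, (g : Matrix ι ι F) ≠ c • 1) : Matrix.trace (g : Matrix ι ι F) = 0 := by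
  obtain ⟨y, hy, hne⟩ : ∃ y ∈ R, (g : Matrix ι ι F) * y ≠ (y : Matrix ι ι F) * g := by
    by_contra h
    push Not at h
    obtain ⟨c, hc⟩ := D.scalar _ h
    exact hns c hc
  have e := (D.sign g hg y hy).resolve_left hne
  have h1 := congrArg Matrix.trace (congrArg (· * ((y⁻¹ : GL ι F) : Matrix ι ι F)) e)
  simp only [neg_mul, Matrix.trace_neg] at h1
  rw [mul_assoc, ← Units.val_mul, mul_inv_cancel, Units.val_one, mul_one, Matrix.trace_units_conj] at h1
  have h3 : (2 : F) * Matrix.trace (g : Matrix ι ι F) = 0 := by linear_combination h1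
  exact (mul_eq_zero.1 h3).resolve_left h2

theorem sq_eq_of_scalar (D : Data R) [Nonempty ι] {g : GL ι F} {c : F} (hg : g ∈ R)
    (hc : (g : Matrix ι ι F) = c • 1) : c ^ 2 = 1 ∨ c ^ 2 = -1 := by
  rcases D.sq g hg with h | h <;> rw [hc, Matrix.smul_mul, one_mul, smul_smul] at h <;>
    have := congrFun (congrFun h (Classical.arbitrary ι)) (Classical.arbitrary ι) <;>
    simp only [Matrix.smul_apply, Matrix.neg_apply, Matrix.one_apply_eq, smul_eq_mul, mul_one] at this
  · exact Or.inl (by rw [pow_two]; exact this)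
  · exact Or.inr (by rw [pow_two]; exact this)

theorem twirl [Fintype R] (D : Data R) (X : Matrix ι ι F) :
    ∃ c : F, (∑ g : R, ((g : GL ι F) : Matrix ι ι F) * X * (((g : GL ι F)⁻¹ : GL ι F) : Matrix ι ι F)) = c • 1 ∧
      (Fintype.card ι : F) * c = (Fintype.card R : F) * Matrix.trace X := by
  obtain ⟨c, hc⟩ := D.scalar
    (∑ g : R, ((g : GL ι F) : Matrix ι ι F) * X * (((g : GL ι F)⁻¹ : GL ι F) : Matrix ι ι F)) (fun z hz => by
      rw [Finset.sum_mul, Finset.mul_sum]
      refine Fintype.sum_equiv (Equiv.mulLeft (⟨z, hz⟩⁻¹ : R)) _ _ fun g => ?_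
      simp only [Equiv.coe_mulLeft, Subgroup.coe_mul, Subgroup.coe_inv, _root_.mul_inv_rev, inv_inv,
        Units.val_mul, ← mul_assoc, ← Units.val_mul z, mul_inv_cancel, Units.val_one, one_mul])
  refine ⟨c, hc, ?_⟩
  have h := congrArg Matrix.trace hc
  simp only [Matrix.trace_sum, Matrix.trace_units_conj, Finset.sum_const, Finset.card_univ, nsmul_eq_mul,
    Matrix.trace_smul, Matrix.trace_one, smul_eq_mul] at h
  rw [mul_comm]; exact h.symm

variable {h : GL ι F} {r : ℕ}

theorem conj_mem (hN : h ∈ Cfsg.Geo.subgroupNormalizer R) {g : GL ι F} (hg : g ∈ R) : h * g * h⁻¹ ∈ R :=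
  (Subgroup.mem_normalizer_iff.1 hN g).1 hg

theorem conj_pow_eq (hN : ∃ z : F, ((h ^ r : GL ι F) : Matrix ι ι F) = z • 1) (g : GL ι F) :
    h ^ r * g * (h ^ r)⁻¹ = g := by
  obtain ⟨z, hz⟩ := hN
  rw [mul_inv_eq_iff_eq_mul]
  exact Units.ext (by rw [Units.val_mul, Units.val_mul, hz, Matrix.smul_mul, one_mul, Matrix.mul_smul, mul_one])

/-- An element whose commutator with `h` is scalar is fixed by `h`. -/
theorem mem_fix_of_scalar [Nonempty ι] (D : Data R) (hr : Odd r)
    (hz : ∃ z : F, ((h ^ r : GL ι F) : Matrix ι ι F) = z • 1) (hN : h ∈ Cfsg.Geo.subgroupNormalizer R)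
    {g : GL ι F} (hg : g ∈ R) {c : F} (hc : ((h * g * h⁻¹ : GL ι F) : Matrix ι ι F) = c • (g : Matrix ι ι F)) :
    g ∈ fix R h := by
  have hG := g.isUnit
  have hgne : (g : Matrix ι ι F) ≠ 0 := g.ne_zero
  have hc2 : c ^ 2 = 1 := by
    have e : ((h * g * h⁻¹ : GL ι F) : Matrix ι ι F) * ((h * g * h⁻¹ : GL ι F) : Matrix ι ι F) =
        (g : Matrix ι ι F) * g := by
      rw [← Units.val_mul, show h * g * h⁻¹ * (h * g * h⁻¹) = h * (g * g) * h⁻¹ by group]
      rcases D.sq g hg with e | e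
      · rw [Units.val_mul, Units.val_mul, Units.val_mul, e, mul_one, ← Units.val_mul, mul_inv_cancel,
          Units.val_one]
      · rw [Units.val_mul, Units.val_mul, Units.val_mul, e, mul_neg, mul_one, neg_mul, ← Units.val_mul,
          mul_inv_cancel, Units.val_one]
    rw [hc, Matrix.smul_mul, Matrix.mul_smul, smul_smul, ← pow_two] at e
    have : (c ^ 2 - 1) • ((g : Matrix ι ι F) * g) = 0 := by rw [sub_smul, one_smul, e, sub_self]
    rcases smul_eq_zero.1 this with h0 | h0
    · exact sub_eq_zero.1 h0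
    · exact absurd h0 (g * g).ne_zero
  have hpow : ∀ m : ℕ, ((h ^ m * g * (h ^ m)⁻¹ : GL ι F) : Matrix ι ι F) = c ^ m • (g : Matrix ι ι F) := by
    intro m
    induction m with
    | zero => simp
    | succ m ih =>
      rw [show h ^ (m + 1) * g * (h ^ (m + 1))⁻¹ = h * (h ^ m * g * (h ^ m)⁻¹) * h⁻¹ by
        rw [pow_succ']; group]
      rw [Units.val_mul, Units.val_mul, ih, Matrix.mul_smul, Matrix.smul_mul, ← Units.val_mul, ← Units.val_mul,
        hc, smul_smul, ← pow_succ]
  have hcr := hpow r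
  rw [conj_pow_eq hz] at hcr
  have hcr' : c ^ r = 1 := by
    have : (c ^ r - 1) • (g : Matrix ι ι F) = 0 := by rw [sub_smul, one_smul, ← hcr, sub_self]
    exact sub_eq_zero.1 ((smul_eq_zero.1 this).resolve_right hgne)
  obtain ⟨m, rfl⟩ := hr
  rw [pow_succ, pow_mul, hc2, one_pow, one_mul] at hcr'
  subst hcr'
  rw [one_smul] at hc
  exact mem_fix.2 ⟨hg, by rw [← mul_inv_eq_iff_eq_mul]; exact Units.ext hc⟩

/-- The trace identity. -/
theorem trace_mul_trace [Nonempty ι] [Finite R] (D : Data R) (h2 : (2 : F) ≠ 0) (hr : Odd r)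
    (hz : ∃ z : F, ((h ^ r : GL ι F) : Matrix ι ι F) = z • 1) (hN : h ∈ Cfsg.Geo.subgroupNormalizer R) :
    (Nat.card R : F) * (Matrix.trace (h : Matrix ι ι F) * Matrix.trace ((h⁻¹ : GL ι F) : Matrix ι ι F)) =
      (Fintype.card ι : F) * (Fintype.card ι : F) * (Nat.card (fix R h) : F) := by
  classical
  haveI := Fintype.ofFinite R
  obtain ⟨c, hc, hct⟩ := twirl D ((h⁻¹ : GL ι F) : Matrix ι ι F)
  have e := congrArg Matrix.trace (congrArg (· * (h : Matrix ι ι F)) hc)
  simp only [Finset.sum_mul, Matrix.trace_sum, Matrix.smul_mul, one_mul, Matrix.trace_smul, smul_eq_mul] at e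
  have hterm : ∀ g : R, Matrix.trace (((g : GL ι F) : Matrix ι ι F) * ((h⁻¹ : GL ι F) : Matrix ι ι F) *
      (((g : GL ι F)⁻¹ : GL ι F) : Matrix ι ι F) * (h : Matrix ι ι F)) =
      if (g : GL ι F) ∈ fix R h then (Fintype.card ι : F) else 0 := by
    rintro ⟨g, hg⟩
    simp only [← Units.val_mul]
    split_ifs with hgf
    · rw [show g * h⁻¹ * g⁻¹ * h = h⁻¹ * (h * g) * (g * h)⁻¹ * h by group, (mem_fix.1 hgf).2,
        mul_inv_cancel_right, inv_mul_cancel, Units.val_one, Matrix.trace_one]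
    · refine trace_eq_zero D h2 ?_ fun a ha => hgf ?_
      · rw [show g * h⁻¹ * g⁻¹ * h = g * (h⁻¹ * g⁻¹ * h⁻¹⁻¹) by group]
        exact mul_mem hg (conj_mem (inv_mem hN) (inv_mem hg))
      · refine mem_fix_of_scalar D hr hz hN hg (c := a) ?_
        rw [show h * g * h⁻¹ = h * (g * h⁻¹ * g⁻¹ * h) * h⁻¹ * g by group, Units.val_mul, Units.val_mul,
          Units.val_mul, ha, Matrix.mul_smul, mul_one, Matrix.smul_mul, ← Units.val_mul, mul_inv_cancel,
          Units.val_one, Matrix.smul_mul, one_mul]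
  rw [Finset.sum_congr rfl fun g _ => hterm g, Finset.sum_ite, Finset.sum_const_zero, add_zero,
    Finset.sum_const, nsmul_eq_mul] at e
  have hcard : (Finset.univ.filter fun g : R => (g : GL ι F) ∈ fix R h).card = Nat.card (fix R h) := by
    rw [← Fintype.card_subtype, ← Nat.card_eq_fintype_card]
    exact Nat.card_congr ⟨fun g => ⟨g.1.1, g.2⟩, fun g => ⟨⟨g.1, (mem_fix.1 g.2).1⟩, g.2⟩, fun _ => rfl, fun _ => rfl⟩
  rw [hcard] at e
  rw [Nat.card_eq_fintype_card (α := R)]
  linear_combination (-(Matrix.trace (h : Matrix ι ι F))) * hct - (Fintype.card ι : F) * e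

/-- Counting fixed points. -/
theorem card_fix_modEq [Finite R] [Fact r.Prime] (hz : ∃ z : F, ((h ^ r : GL ι F) : Matrix ι ι F) = z • 1)
    (hN : h ∈ Cfsg.Geo.subgroupNormalizer R) (T : Subgroup (GL ι F)) (hT : T ≤ R)
    (hTh : ∀ g ∈ T, h * g * h⁻¹ ∈ T) : Nat.card T ≡ Nat.card ↥(fix R h ⊓ T) [MOD r] := by
  haveI : Finite T := Finite.of_injective _ (Subgroup.inclusion_injective hT)
  let f : T → T := fun g => ⟨h * g.1 * h⁻¹, hTh g.1 g.2⟩
  have hinj : Function.Injective f := fun a b e => Subtype.ext (by simpa [f] using congrArg Subtype.val e)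
  let φ : Equiv.Perm T := Equiv.ofBijective f (Finite.injective_iff_bijective.1 hinj)
  have hφ : ∀ (m : ℕ) (g : T), ((φ ^ m) g).1 = h ^ m * g.1 * (h ^ m)⁻¹ := by
    intro m
    induction m with
    | zero => simp
    | succ m ih => intro g; rw [pow_succ', Equiv.Perm.mul_apply]
                   show h * ((φ ^ m) g).1 * h⁻¹ = _
                   rw [ih, pow_succ']; group
  have hφr : φ ^ r = 1 := Equiv.ext fun g => Subtype.ext (by rw [hφ, conj_pow_eq hz]; rfl)
  have hP : IsPGroup r (Subgroup.zpowers φ) := by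
    intro a
    refine ⟨1, Subtype.ext ?_⟩
    obtain ⟨k, hk⟩ := Subgroup.mem_zpowers_iff.1 a.2
    rw [Subgroup.coe_pow, ← hk, pow_one, ← zpow_natCast, ← zpow_mul, mul_comm, zpow_mul, zpow_natCast, hφr,
      one_zpow, Subgroup.coe_one]
  have h1 := hP.card_modEq_card_fixedPoints T
  refine h1.trans (congrArg (· % r) ?_)
  refine Nat.card_congr ⟨fun g => ⟨g.1.1, mem_fix.2 ⟨hT g.1.2, ?_⟩, g.1.2⟩,
    fun g => ⟨⟨g.1, g.2.2⟩, ?_⟩, fun _ => rfl, fun _ => rfl⟩
  · have e := congrArg Subtype.val (g.2 ⟨φ, Subgroup.mem_zpowers φ⟩)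
    exact mul_inv_eq_iff_eq_mul.1 e
  · intro a
    obtain ⟨k, hk⟩ := Subgroup.mem_zpowers_iff.1 a.2
    show a.1 _ = _
    rw [← hk]
    refine Function.IsFixedPt.perm_zpow (Subtype.ext ?_) k
    exact mul_inv_eq_iff_eq_mul.2 (mem_fix.1 g.2.1).2

theorem scalar_mem_fix {g : GL ι F} (hg : g ∈ R) {c : F} (hc : (g : Matrix ι ι F) = c • 1) : g ∈ fix R h :=
  mem_fix.2 ⟨hg, Units.ext (by rw [Units.val_mul, Units.val_mul, hc, Matrix.mul_smul, mul_one, Matrix.smul_mul, one_mul])⟩

theorem scalar_of_fix_eq (D : Data R) (h0 : fix R h = R) : ∃ c : F, (h : Matrix ι ι F) = c • 1 :=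
  D.scalar _ fun g hg => by
    rw [← h0] at hg
    rw [← Units.val_mul, (mem_fix.1 hg).2, Units.val_mul]

/-- The fixed subgroup is not twice the size of the scalars. -/
theorem card_fix_ne_two_mul [Nonempty ι] [Finite R] [Fact r.Prime] (D : Data R) (hr : r ≠ 2) {k : ℕ}
    (hk : Nat.card R = 2 ^ (k + 1))
    (hz : ∃ z : F, ((h ^ r : GL ι F) : Matrix ι ι F) = z • 1) (hN : h ∈ Cfsg.Geo.subgroupNormalizer R) :
    Nat.card (fix R h) ≠ 2 * Nat.card (Subgroup.center R) := by
  intro hcard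
  have hrp := (Fact.out : r.Prime)
  haveI : Finite (fix R h) := Finite.of_injective _ (Subgroup.inclusion_injective (inf_le_left : fix R h ≤ R))
  set Z := (Subgroup.center R).map R.subtype with hZ
  have hZc : Nat.card Z = Nat.card (Subgroup.center R) :=
    Nat.card_congr (Subgroup.equivMapOfInjective _ _ R.subtype_injective).symm.toEquiv
  have hZs : ∀ g ∈ Z, ∃ c : F, (g : Matrix ι ι F) = c • 1 := by
    rintro _ ⟨g, hg, rfl⟩
    exact D.scalar _ fun x hx => by
      have := congrArg (fun t : R => ((t : GL ι F) : Matrix ι ι F)) (Subgroup.mem_center_iff.1 hg ⟨x, hx⟩)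
      simpa using this.symm
  have hZle : Z ≤ fix R h := fun g hg => by
    obtain ⟨c, hc⟩ := hZs g hg
    exact scalar_mem_fix (Subgroup.map_subtype_le _ hg) hc
  haveI : Finite Z := Finite.of_injective _ (Subgroup.inclusion_injective hZle)
  obtain ⟨v, hv, hvZ⟩ : ∃ v ∈ fix R h, v ∉ Z := by
    by_contra hne
    push Not at hne
    have := Subgroup.card_le_of_le (hne : fix R h ≤ Z)
    rw [hcard, hZc] at this
    have : 0 < Nat.card (Subgroup.center R) := Nat.card_pos
    omega
  have hidx : Z.relIndex (fix R h) = 2 := by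
    have e := Subgroup.card_mul_index (Z.subgroupOf (fix R h))
    rw [Nat.card_congr (Subgroup.subgroupOfEquivOfLe hZle).toEquiv, hcard, hZc] at e
    have : 0 < Nat.card (Subgroup.center R) := Nat.card_pos
    exact Nat.eq_of_mul_eq_mul_left this (e.trans (mul_comm _ _))
  -- so the fixed subgroup lies in the centraliser of `v`
  set T := R ⊓ Subgroup.centralizer {v} with hT
  have hCT : fix R h ≤ T := by
    intro g hg
    refine ⟨(mem_fix.1 hg).1, Subgroup.mem_centralizer_singleton_iff.2 ?_⟩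
    have hsc : ∀ z ∈ Z, z * v = v * z := fun z hz => by
      obtain ⟨c, hc⟩ := hZs z hz
      exact Units.ext (by rw [Units.val_mul, Units.val_mul, hc, Matrix.mul_smul, mul_one, Matrix.smul_mul, one_mul])
    by_cases hgZ : g ∈ Z
    · exact hsc g hgZ
    · have hm : g * v ∈ Z := by
        have := Subgroup.mul_mem_iff_of_index_two (H := Z.subgroupOf (fix R h)) hidx (a := ⟨g, hg⟩) (b := ⟨v, hv⟩)
        simp only [Subgroup.mem_subgroupOf, Subgroup.coe_mul] at this
        exact this.2 (iff_of_false hgZ hvZ)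
      have := hsc _ hm
      rwa [mul_assoc g v v, ← mul_assoc v g v, ← mul_assoc g v v, mul_left_inj] at this
  have hTle : T ≤ R := inf_le_left
  have hTh : ∀ g ∈ T, h * g * h⁻¹ ∈ T := by
    intro g hg
    refine ⟨conj_mem hN hg.1, Subgroup.mem_centralizer_singleton_iff.2 ?_⟩
    have h1 := Subgroup.mem_centralizer_singleton_iff.1 hg.2
    have h2 : h * v * h⁻¹ = v := mul_inv_eq_iff_eq_mul.2 (mem_fix.1 hv).2
    calc h * g * h⁻¹ * v = h * g * h⁻¹ * (h * v * h⁻¹) := by rw [h2]
      _ = h * (g * v) * h⁻¹ := by group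
      _ = h * v * h⁻¹ * (h * g * h⁻¹) := by rw [h1]; group
      _ = v * (h * g * h⁻¹) := by rw [h2]
  have m1 := card_fix_modEq hz hN R le_rfl fun g hg => conj_mem hN hg
  rw [show fix R h ⊓ R = fix R h from inf_eq_left.2 inf_le_left] at m1
  have m2 := card_fix_modEq hz hN T hTle hTh
  rw [show fix R h ⊓ T = fix R h from inf_eq_left.2 hCT] at m2
  -- `T` has index two
  obtain ⟨y, hy, hyv⟩ : ∃ y ∈ R, y * v ≠ v * y := by
    by_contra hne
    push Not at hne
    refine hvZ ⟨⟨v, (mem_fix.1 hv).1⟩, Subgroup.mem_center_iff.2 fun g => Subtype.ext (hne g.1 g.2), rfl⟩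
  have hT2 : (T.subgroupOf R).index = 2 := by
    rw [Subgroup.index_eq_two_iff]
    refine ⟨⟨y, hy⟩, fun g => ?_⟩
    have hmem : ∀ t : R, t ∈ T.subgroupOf R ↔ (t.1 : Matrix ι ι F) * v = (v : Matrix ι ι F) * t.1 := fun t => by
      rw [Subgroup.mem_subgroupOf, hT, Subgroup.mem_inf, Subgroup.mem_centralizer_singleton_iff, ← Units.val_mul,
        ← Units.val_mul, Units.val_inj]
      exact and_iff_right t.2
    have hy' : (y : Matrix ι ι F) * v = -((v : Matrix ι ι F) * y) :=
      (D.sign y hy v (mem_fix.1 hv).1).resolve_left fun e => hyv (Units.ext e)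
    have hone : ∀ M : GL ι F, (M : Matrix ι ι F) = -(M : Matrix ι ι F) → y * v = v * y := fun M hM => by
      have h11 : (1 : Matrix ι ι F) = -1 := by
        rw [← M.mul_inv]
        conv_lhs => rw [hM, neg_mul]
      refine Units.ext ?_
      rw [Units.val_mul, Units.val_mul, hy', ← neg_one_mul, ← h11, one_mul]
    rw [hmem, hmem, Subgroup.coe_mul, Units.val_mul, mul_assoc, hy', mul_neg, ← mul_assoc]
    rcases D.sign g.1 g.2 v (mem_fix.1 hv).1 with e | e
    · refine Or.inr ⟨e, fun e' => hyv (hone (v * g.1 * y) ?_)⟩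
      rw [e, ← mul_assoc] at e'
      rw [Units.val_mul, Units.val_mul]
      exact e'.symm
    · refine Or.inl ⟨?_, fun e' => hyv (hone (v * g.1) ?_)⟩
      · rw [e, neg_mul, neg_neg, mul_assoc]
      · rw [Units.val_mul]
        exact e'.symm.trans e
  have hTcard : Nat.card T * 2 = 2 ^ (k + 1) := by
    rw [← hk, ← Subgroup.card_mul_index (T.subgroupOf R), hT2,
      Nat.card_congr (Subgroup.subgroupOfEquivOfLe hTle).toEquiv]
  have hTk : Nat.card T = 2 ^ k := by rw [pow_succ] at hTcard; omega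
  rw [hTk] at m2
  rw [hk, pow_succ] at m1
  have h2k : 2 ^ k * 2 ≡ 2 ^ k [MOD r] := m1.trans m2.symm
  rw [Nat.ModEq.comm, Nat.modEq_iff_dvd' (by omega), show 2 ^ k * 2 - 2 ^ k = 2 ^ k by omega] at h2k
  exact hr ((Nat.prime_dvd_prime_iff_eq hrp Nat.prime_two).1 (hrp.dvd_of_dvd_pow h2k))

/-- A transvection of characteristic 3 or at least 5 does not normalise `R`. -/
theorem transvection_not_mem [Nonempty ι] [Finite R] {p : ℕ} [CharP F p] (hp : p.Prime) (hp2 : p ≠ 2)
    (D : Data R) (hn : (Fintype.card ι : F) ≠ 0) (hsize : 6 * Nat.card (Subgroup.center R) < Nat.card R)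
    {u : Matrix ι ι F} (hh : (h : Matrix ι ι F) = 1 + u) (huu : u * u = 0)
    (hrank : ∀ X : Matrix ι ι F, ∃ l : F, u * X * u = l • u) (hns : ∀ c : F, (h : Matrix ι ι F) ≠ c • 1) :
    h ∉ Cfsg.Geo.subgroupNormalizer R := by
  intro hN
  haveI : Fact p.Prime := ⟨hp⟩
  have hpow : ∀ k : ℕ, ((h ^ k : GL ι F) : Matrix ι ι F) = 1 + (k : F) • u := by
    intro k
    induction k with
    | zero => simp
    | succ k ih =>
      rw [pow_succ, Units.val_mul, ih, hh, Nat.cast_succ, add_smul, one_smul]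
      simp only [add_mul, mul_add, mul_one, one_mul, Matrix.smul_mul, huu, smul_zero, add_zero]
      abel
  have hinv : ∀ k : ℕ, (((h ^ k)⁻¹ : GL ι F) : Matrix ι ι F) = 1 - (k : F) • u := by
    intro k
    refine Units.inv_eq_of_mul_eq_one_right ?_
    rw [hpow]
    simp only [add_mul, mul_sub, mul_one, one_mul, Matrix.smul_mul, Matrix.mul_smul, huu, smul_zero, sub_zero]
    abel
  have hG : ∀ (k : ℕ) (g : GL ι F), ((h ^ k * g * (h ^ k)⁻¹ : GL ι F) : Matrix ι ι F) =
      (g : Matrix ι ι F) + (k : F) • (u * g - (g : Matrix ι ι F) * u) - ((k : F) * k) • (u * g * u) := by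
    intro k g
    rw [Units.val_mul, Units.val_mul, hpow, hinv]
    simp only [add_mul, mul_sub, sub_mul, mul_one, one_mul, Matrix.smul_mul, Matrix.mul_smul, smul_smul, mul_assoc]
    module
  have hr : Odd p := hp.odd_of_ne_two hp2
  have h2 : (2 : F) ≠ 0 := by
    intro h
    exact hp2 ((Nat.prime_dvd_prime_iff_eq hp Nat.prime_two).1 ((CharP.cast_eq_zero_iff F p 2).1 (by exact_mod_cast h)))
  have hpk : ∀ k : ℕ, 0 < k → k < p → (k : F) ≠ 0 := fun k hk hk' he =>
    absurd (Nat.le_of_dvd hk ((CharP.cast_eq_zero_iff F p k).1 he)) (by omega)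
  have hzk : ∀ k : ℕ, ∃ z : F, (((h ^ k) ^ p : GL ι F) : Matrix ι ι F) = z • 1 := fun k =>
    ⟨1, by rw [← pow_mul, hpow, Nat.cast_mul, CharP.cast_eq_zero F p, mul_zero, zero_smul, add_zero, one_smul]⟩
  -- `h ^ k g h ^ -k g⁻¹` is scalar only for `g` fixed by `h`
  have htr : ∀ g ∈ R, g ∉ fix R h → ∀ k : ℕ, 0 < k → k < p →
      Matrix.trace (((h ^ k * g * (h ^ k)⁻¹ : GL ι F) : Matrix ι ι F) * ((g⁻¹ : GL ι F) : Matrix ι ι F)) = 0 := by
    intro g hg hgf k hk hk'
    rw [← Units.val_mul]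
    refine trace_eq_zero D h2 (mul_mem (conj_mem (pow_mem hN k) hg) (inv_mem hg)) fun c hc => hgf ?_
    have hm : g ∈ fix R (h ^ k) := mem_fix_of_scalar D hr (hzk k) (pow_mem hN k) hg (c := c) (by
      have : h ^ k * g * (h ^ k)⁻¹ = h ^ k * g * (h ^ k)⁻¹ * g⁻¹ * g := by group
      rw [this, Units.val_mul, hc, Matrix.smul_mul, one_mul])
    have e := congrArg (fun t : GL ι F => (t : Matrix ι ι F)) (mem_fix.1 hm).2
    simp only [Units.val_mul, hpow, add_mul, mul_add, one_mul, mul_one, Matrix.smul_mul, Matrix.mul_smul,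
      add_right_inj] at e
    refine mem_fix.2 ⟨hg, Units.ext ?_⟩
    rw [Units.val_mul, Units.val_mul, hh, add_mul, mul_add, one_mul, mul_one, smul_right_injective _ (hpk k hk hk') e]
  obtain ⟨g, hg, hgf⟩ : ∃ g ∈ R, g ∉ fix R h := by
    by_contra hne
    push Not at hne
    obtain ⟨c, hc⟩ := scalar_of_fix_eq D (le_antisymm inf_le_left hne)
    exact hns c hc
  have h0 : ∀ g : GL ι F, Matrix.trace ((g : Matrix ι ι F) * ((g⁻¹ : GL ι F) : Matrix ι ι F)) = (Fintype.card ι : F) :=
    fun g => by rw [← Units.val_mul, mul_inv_cancel, Units.val_one, Matrix.trace_one]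
  by_cases hp3 : p = 3
  · subst hp3
    have h3 : (3 : F) = 0 := by exact_mod_cast CharP.cast_eq_zero F 3
    have hsum : ∀ g : GL ι F, (g : Matrix ι ι F) + ((h ^ 1 * g * (h ^ 1)⁻¹ : GL ι F) : Matrix ι ι F) +
        ((h ^ 2 * g * (h ^ 2)⁻¹ : GL ι F) : Matrix ι ι F) = u * g * u := by
      intro g
      rw [hG, hG, Nat.cast_one, Nat.cast_ofNat]
      match_scalars <;> first | linear_combination (norm := ring1) (1 : F) * h3 | linear_combination (norm := ring1) (-1 : F) * h3 | linear_combination (norm := ring1) (2 : F) * h3 | linear_combination (norm := ring1) (-2 : F) * h3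
    obtain ⟨g', hg', hg'f, hg'k⟩ : ∃ g' ∈ R, g' ∉ fix R h ∧ ∀ k < 3, ∀ c : F,
        ((h ^ k * g * (h ^ k)⁻¹ * g'⁻¹ : GL ι F) : Matrix ι ι F) ≠ c • 1 := by
      by_contra hne
      push Not at hne
      set S : ℕ → Set R := fun k => (fun z : R => z * ⟨h ^ k * g * (h ^ k)⁻¹, conj_mem (pow_mem hN k) hg⟩) ''
        (Subgroup.center R : Set R) with hS
      have hcov : (Set.univ : Set R) ⊆ ((fix R h).subgroupOf R : Set R) ∪ (S 0 ∪ (S 1 ∪ S 2)) := by
        intro x _
        by_cases hx : x.1 ∈ fix R h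
        · exact Or.inl hx
        · obtain ⟨k, hk, c, hc⟩ := hne x.1 x.2 hx
          right
          have hmem : x ∈ S k := by
            refine ⟨x * ⟨h ^ k * g * (h ^ k)⁻¹, conj_mem (pow_mem hN k) hg⟩⁻¹, ?_, inv_mul_cancel_right _ _⟩
            refine Subgroup.mem_center_iff.2 fun y => Subtype.ext ?_
            have hcc : (x.1 * (h ^ k * g * (h ^ k)⁻¹)⁻¹) = (h ^ k * g * (h ^ k)⁻¹ * x.1⁻¹)⁻¹ := by group
            show y.1 * (x.1 * (h ^ k * g * (h ^ k)⁻¹)⁻¹) = x.1 * (h ^ k * g * (h ^ k)⁻¹)⁻¹ * y.1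
            rw [hcc]
            refine (Commute.inv_right ?_).eq
            exact Units.ext (by rw [Units.val_mul, Units.val_mul _ y.1, hc, Matrix.mul_smul, mul_one,
              Matrix.smul_mul, one_mul])
          interval_cases k
          · exact Or.inl hmem
          · exact Or.inr (Or.inl hmem)
          · exact Or.inr (Or.inr hmem)
      have hle := Set.ncard_le_ncard hcov
      have u1 := Set.ncard_union_le ((fix R h).subgroupOf R : Set R) (S 0 ∪ (S 1 ∪ S 2))
      have u2 := Set.ncard_union_le (S 0) (S 1 ∪ S 2)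
      have u3 := Set.ncard_union_le (S 1) (S 2)
      have u4 : ∀ k, (S k).ncard ≤ Nat.card (Subgroup.center R) := fun k =>
        le_trans (Set.ncard_image_le (Set.toFinite _)) (le_of_eq (Nat.card_coe_set_eq _).symm)
      have u5 : ((fix R h).subgroupOf R : Set R).ncard = Nat.card ((fix R h).subgroupOf R) :=
        (Nat.card_coe_set_eq _).symm
      have u6 : 2 * Nat.card ((fix R h).subgroupOf R) ≤ Nat.card R := by
        rw [← Subgroup.card_mul_index ((fix R h).subgroupOf R), mul_comm]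
        refine Nat.mul_le_mul_left _ ?_
        have : ((fix R h).subgroupOf R).index ≠ 1 := fun e =>
          hgf (Subgroup.subgroupOf_eq_top.1 (Subgroup.index_eq_one.1 e) hg)
        have := Subgroup.index_ne_zero_of_finite (H := (fix R h).subgroupOf R)
        omega
      have := u4 0
      have := u4 1
      have := u4 2
      rw [Set.ncard_univ] at hle
      omega
    obtain ⟨l, hl⟩ := hrank (g : Matrix ι ι F)
    obtain ⟨l', hl'⟩ := hrank (g' : Matrix ι ι F)
    have e1 := congrArg Matrix.trace (congrArg (· * ((g'⁻¹ : GL ι F) : Matrix ι ι F)) (hsum g'))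
    have e2 := congrArg Matrix.trace (congrArg (· * ((g'⁻¹ : GL ι F) : Matrix ι ι F)) (hsum g))
    have e3 := congrArg Matrix.trace (congrArg (· * ((g⁻¹ : GL ι F) : Matrix ι ι F)) (hsum g))
    simp only [add_mul, Matrix.trace_add, h0, htr g' hg' hg'f 1 one_pos (by norm_num),
      htr g' hg' hg'f 2 two_pos (by norm_num), htr g hg hgf 1 one_pos (by norm_num),
      htr g hg hgf 2 two_pos (by norm_num), hl, hl', Matrix.smul_mul, Matrix.trace_smul, smul_eq_mul,
      add_zero] at e1 e2 e3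
    have hz : ∀ k < 3, Matrix.trace (((h ^ k * g * (h ^ k)⁻¹ : GL ι F) : Matrix ι ι F) *
        ((g'⁻¹ : GL ι F) : Matrix ι ι F)) = 0 := fun k hk => by
      rw [← Units.val_mul]
      exact trace_eq_zero D h2 (mul_mem (conj_mem (pow_mem hN k) hg) (inv_mem hg')) (hg'k k hk)
    have z0 := hz 0 (by norm_num)
    simp only [pow_zero, one_mul, inv_one, mul_one] at z0
    rw [z0, hz 1 (by norm_num), hz 2 (by norm_num), add_zero, add_zero] at e2
    rcases mul_eq_zero.1 e2.symm with hl0 | hl0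
    · rw [hl0, zero_mul] at e3; exact hn e3
    · rw [hl0, mul_zero] at e1; exact hn e1
  · have hp5 : 5 ≤ p := by
      have := hp.two_le
      rcases Nat.lt_or_ge p 5 with h | h
      · interval_cases p <;> first | omega | exact absurd hp (by decide)
      · exact h
    have hsum : ((h ^ 3 * g * (h ^ 3)⁻¹ : GL ι F) : Matrix ι ι F) -
        (3 : F) • ((h ^ 2 * g * (h ^ 2)⁻¹ : GL ι F) : Matrix ι ι F) +
        (3 : F) • ((h ^ 1 * g * (h ^ 1)⁻¹ : GL ι F) : Matrix ι ι F) = g := by
      rw [hG, hG, hG, Nat.cast_one, Nat.cast_ofNat, Nat.cast_ofNat]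
      module
    have e := congrArg Matrix.trace (congrArg (· * ((g⁻¹ : GL ι F) : Matrix ι ι F)) hsum)
    simp only [add_mul, sub_mul, Matrix.smul_mul, Matrix.trace_add, Matrix.trace_sub, Matrix.trace_smul, h0,
      htr g hg hgf 1 one_pos (by omega), htr g hg hgf 2 two_pos (by omega),
      htr g hg hgf 3 (by norm_num) (by omega), smul_zero, sub_zero, add_zero] at e
    exact hn e.symm

end CfsgLib.Classical.PrimeDerangement.Sympl
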