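import Cfsg.Agent.Classical.PrimeDerangement.Sympl.Main

/-!
Which prime-order elements of a four-dimensional linear or unitary group all have conjugates normalising a
symplectic type group of order 64.
-/

set_option autoImplicit false
set_option maxHeartbeats 1600000

namespace CfsgLib.Classical.PrimeDerangement.Sympl

open Matrix CfsgLib.Classical.PrimeDerangement

variable {F : Type*} [Field F] [Fintype F] (S : Sys F) {R : Subgroup (GL (Fin 4) F)}

theorem Sys.natCast_ne (S : Sys F) {k : ℕ} (hk : k.Prime) (hp : S.p ≠ k) : (k : F) ≠ 0 := fun h => by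
  haveI := S.char
  exact hp ((Nat.prime_dvd_prime_iff_eq S.prime hk).1 ((CharP.cast_eq_zero_iff F S.p k).1 h))

theorem five_split : ∀ x : ZMod 5, x = 0 ∨ x = 2 ∨ x = 3 ∨ x = 1 ∨ x = 4 := by decide

/-- The criterion. -/
theorem criterion [Finite R] (hRG : R ≤ S.A.G) (D : Data R) (hR : Nat.card R = 64)
    (hZ : Nat.card (Subgroup.center R) = 4) (h4m : 4 ∣ S.m) (r : ℕ) [Fact r.Prime]
    (hΩ : r ∣ (Cfsg.Geo.subgroupNormalizer R).relIndex S.H) :
    (∀ x ∈ S.H, (∃ z : F, ((x ^ r : GL (Fin 4) F) : Matrix (Fin 4) (Fin 4) F) = z • (1 : Matrix (Fin 4) (Fin 4) F)) →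
      (∀ z : F, (x : Matrix (Fin 4) (Fin 4) F) ≠ z • (1 : Matrix (Fin 4) (Fin 4) F)) →
      ∃ g ∈ S.H, g⁻¹ * x * g ∈ Cfsg.Geo.subgroupNormalizer R) ↔
      (r = 2 ∨ (r = 3 ∧ ¬ 3 ∣ S.m ∧ S.p ≠ 3) ∨ (r = 5 ∧ orderOf (S.p : ZMod 5) = 4)) := by
  classical
  haveI := S.char
  haveI : Fact S.p.Prime := ⟨S.prime⟩
  have h2 := S.two_ne
  have h4F : (4 : F) ≠ 0 := by rw [show (4 : F) = 2 * 2 by norm_num]; exact mul_ne_zero h2 h2
  have hrp := (Fact.out : r.Prime)
  -- the scalars of the centre give a square root of `-1`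
  obtain ⟨i, hin, hi2, hiR⟩ : ∃ i : Fˣ, i ∈ S.A.norms ∧ (i : F) * i = -1 ∧ diagU (fun _ => i) ∈ R := by
    have hsc : ∀ g : Subgroup.center R, ∃ c : F, ((g.1 : GL (Fin 4) F) : Matrix (Fin 4) (Fin 4) F) = c • 1 := fun g =>
      D.scalar _ fun x hx => by
        have := congrArg (fun t : R => ((t : GL (Fin 4) F) : Matrix (Fin 4) (Fin 4) F))
          (Subgroup.mem_center_iff.1 g.2 ⟨x, hx⟩)
        simpa using this.symm
    choose c hc using hsc
    by_contra hne
    push Not at hne
    have hsq : ∀ g, c g = 1 ∨ c g = -1 := fun g => by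
      rcases sq_eq_of_scalar D g.1.2 (hc g) with h | h
      · exact sq_eq_one_iff.1 h
      exfalso
      have h0 : c g ≠ 0 := fun h0 => by rw [h0] at h; simp at h
      have hu : c g * c g = -1 := by rw [← pow_two]; exact h
      refine hne (Units.mk0 (c g) h0) ((S.norms_iff _).2 ?_) hu ?_
      · obtain ⟨d, hd⟩ := h4m
        refine Units.ext ?_
        rw [Units.val_pow_eq_pow_val, Units.val_mk0, hd, pow_mul, show c g ^ 4 = (c g ^ 2) ^ 2 by rw [← pow_mul], h,
          neg_one_sq, one_pow, Units.val_one]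
      · have : diagU (fun _ => Units.mk0 (c g) h0) = g.1.1 := Units.ext (by
          rw [hc g, coe_diagU, Matrix.smul_one_eq_diagonal]; rfl)
        rw [this]; exact g.1.2
    have hinj : Function.Injective fun g : Subgroup.center R => decide (c g = 1) := by
      intro a b hab
      refine Subtype.ext (Subtype.ext (Units.ext ?_))
      rw [hc a, hc b]
      congr 1
      have hne1 : (-1 : F) ≠ 1 := fun e => h2 (by linear_combination -e)
      rcases hsq a with ha | ha <;> rcases hsq b with hb | hb <;> simp [ha, hb, hne1] at hab ⊢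
    have := Nat.card_le_card_of_injective _ hinj
    rw [hZ, Nat.card_eq_fintype_card, Fintype.card_bool] at this
    omega
  obtain ⟨P, hP, hPR⟩ := exists_frame S hin hi2 D hRG (by omega) hiR
  have hi4 : (i : F) ^ 4 = 1 := by rw [show 4 = 2 * 2 from rfl, pow_mul, pow_two (i : F), hi2, neg_one_sq]
  constructor
  · intro hall
    by_contra hcon
    push Not at hcon
    obtain ⟨hr2, hr3, hr5⟩ := hcon
    have hrodd := hrp.odd_of_ne_two hr2
    -- a contradiction from any witness
    have fin : ∀ x ∈ S.H, (∃ z : F, ((x ^ r : GL (Fin 4) F) : Matrix (Fin 4) (Fin 4) F) = z • 1) →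
        (∀ c : F, (x : Matrix (Fin 4) (Fin 4) F) ≠ c • 1) →
        (∀ h : GL (Fin 4) F, h ∈ Cfsg.Geo.subgroupNormalizer R →
          (∃ z : F, ((h ^ r : GL (Fin 4) F) : Matrix (Fin 4) (Fin 4) F) = z • 1) →
          (∀ c : F, (h : Matrix (Fin 4) (Fin 4) F) ≠ c • 1) → ∀ g : GL (Fin 4) F, h = g⁻¹ * x * g → False) →
        False := fun x hx hz hns hbad => no_conj S hz hns hbad (hall x hx hz hns)
    have htr : ∀ (g x : GL (Fin 4) F), Matrix.trace ((g⁻¹ * x * g : GL (Fin 4) F) : Matrix (Fin 4) (Fin 4) F) =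
        Matrix.trace (x : Matrix (Fin 4) (Fin 4) F) := fun g x => by
      rw [Units.val_mul, Units.val_mul, Matrix.trace_mul_comm, ← mul_assoc, Units.mul_inv, one_mul]
    have htri : ∀ (g x : GL (Fin 4) F),
        Matrix.trace (((g⁻¹ * x * g)⁻¹ : GL (Fin 4) F) : Matrix (Fin 4) (Fin 4) F) =
        Matrix.trace ((x⁻¹ : GL (Fin 4) F) : Matrix (Fin 4) (Fin 4) F) := fun g x => by
      rw [show (g⁻¹ * x * g)⁻¹ = g⁻¹ * x⁻¹ * g by group, htr]
    have htransv : S.p = r → False := by
      intro hpr
      obtain ⟨t, ht, u, htu, huu, htd, hrank, htns⟩ := S.transv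
      have hpow : ∀ k : ℕ, ((t ^ k : GL (Fin 4) F) : Matrix (Fin 4) (Fin 4) F) = 1 + (k : F) • u := by
        intro k
        induction k with
        | zero => simp
        | succ k ih =>
          rw [pow_succ, Units.val_mul, ih, htu, Nat.cast_succ, add_smul, one_smul]
          simp only [add_mul, mul_add, mul_one, one_mul, Matrix.smul_mul, huu, smul_zero, add_zero]
          abel
      have hz : ∃ z : F, ((t ^ r : GL (Fin 4) F) : Matrix (Fin 4) (Fin 4) F) = z • 1 :=
        ⟨1, by rw [hpow, ← hpr, CharP.cast_eq_zero F S.p, zero_smul, add_zero, one_smul]⟩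
      refine fin t ((mem_H S).2 ⟨ht, htd⟩) hz htns fun h hN _ hns g hg => ?_
      refine transvection_not_mem (p := S.p) S.prime S.p_ne_two D (by simpa using h4F) (by rw [hZ, hR]; norm_num)
        (u := ((g⁻¹ : GL (Fin 4) F) : Matrix (Fin 4) (Fin 4) F) * u * (g : Matrix (Fin 4) (Fin 4) F))
        ?_ ?_ (fun X => ?_) hns hN
      · rw [hg, Units.val_mul, Units.val_mul, htu, mul_add, add_mul, mul_one, Units.inv_mul]
      · simp only [mul_assoc, Units.mul_inv_cancel_left]
        rw [← mul_assoc u u, huu, zero_mul, mul_zero]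
      · obtain ⟨l, hl⟩ := hrank ((g : Matrix (Fin 4) (Fin 4) F) * X * ((g⁻¹ : GL (Fin 4) F) : Matrix (Fin 4) (Fin 4) F))
        refine ⟨l, ?_⟩
        have : ((g⁻¹ : GL (Fin 4) F) : Matrix (Fin 4) (Fin 4) F) * u * (g : Matrix (Fin 4) (Fin 4) F) * X *
            (((g⁻¹ : GL (Fin 4) F) : Matrix (Fin 4) (Fin 4) F) * u * (g : Matrix (Fin 4) (Fin 4) F)) =
            ((g⁻¹ : GL (Fin 4) F) : Matrix (Fin 4) (Fin 4) F) *
              (u * ((g : Matrix (Fin 4) (Fin 4) F) * X * ((g⁻¹ : GL (Fin 4) F) : Matrix (Fin 4) (Fin 4) F)) * u) *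
              (g : Matrix (Fin 4) (Fin 4) F) := by simp only [mul_assoc]
        rw [this, hl, Matrix.mul_smul, Matrix.smul_mul]
    by_cases h3 : r = 3
    · subst h3
      by_cases hp3 : S.p = 3
      · exact htransv hp3
      have h3m : 3 ∣ S.m := by
        by_contra h
        exact hp3 (hr3 rfl h)
      have h3F : (3 : F) ≠ 0 := by exact_mod_cast S.natCast_ne Nat.prime_three hp3
      obtain ⟨ζ, hζ⟩ := exists_zeta F (r := 3) (by exact_mod_cast h3F)
      obtain ⟨d, hd⟩ := h3m
      obtain ⟨d', hd'⟩ := S.m_dvd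
      have hζ3 := (IsPrimitiveRoot.coe_units_iff.2 hζ).pow_eq_one
      obtain ⟨w, hw⟩ := exists_preimage_of_pow (F := F) (x := (ζ : AlgebraicClosure F))
        (by rw [hd', hd, mul_assoc, pow_mul, hζ3, one_pow])
      have hwp : IsPrimitiveRoot (w : F) 3 :=
        IsPrimitiveRoot.of_map_of_injective (f := algebraMap F (AlgebraicClosure F))
          (hw ▸ IsPrimitiveRoot.coe_units_iff.2 hζ) (algebraMap F (AlgebraicClosure F)).injective
      have hw3 : (w : F) ^ 3 = 1 := hwp.pow_eq_one
      have hw3' : w ^ 3 = 1 := Units.ext (by rw [Units.val_pow_eq_pow_val, hw3, Units.val_one])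
      have hwne : (w : F) ≠ 1 := hwp.ne_one (by norm_num)
      have hw2 : (w : F) ^ 2 + w + 1 = 0 :=
        (mul_eq_zero.1 (show ((w : F) - 1) * ((w : F) ^ 2 + w + 1) = 0 by linear_combination hw3)).resolve_left
          (sub_ne_zero.2 hwne)
      have hwn : w ∈ S.A.norms := (S.norms_iff w).2 (by rw [hd, pow_mul, hw3', one_pow])
      set x : GL (Fin 4) F := diagU ![w, w, w, 1] with hx
      have hxH : x ∈ S.H := by
        refine (mem_H S).2 ⟨S.A.diag_mem _ fun k => by fin_cases k <;> first | exact one_mem _ | exact hwn, ?_⟩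
        refine Units.ext ?_
        simp [hx, Fin.prod_univ_four]
        linear_combination hw3
      have hx3 : x ^ 3 = 1 := by
        refine Units.ext ?_
        rw [Units.val_pow_eq_pow_val, hx, coe_diagU, Matrix.diagonal_pow, Units.val_one, ← Matrix.diagonal_one]
        congr 1
        funext k
        fin_cases k <;> simp [hw3]
      refine fin x hxH ⟨1, by rw [hx3, Units.val_one, one_smul]⟩ (fun c hc => hwne ?_) fun h hN hz hns g hg => ?_
      · have e0 := congrFun (congrFun hc 0) 0
        have e3 := congrFun (congrFun hc 3) 3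
        simp [hx] at e0 e3
        rw [e0, ← e3]
      have ht := trace_mul_trace D h2 hrodd hz hN
      have e1 : Matrix.trace (x : Matrix (Fin 4) (Fin 4) F) = 3 * (w : F) + 1 := by
        simp [hx, Matrix.trace_diagonal, Fin.sum_univ_four]; ring
      have e2 : Matrix.trace ((x⁻¹ : GL (Fin 4) F) : Matrix (Fin 4) (Fin 4) F) = 3 * (w : F) ^ 2 + 1 := by
        have : x⁻¹ = diagU ![w ^ 2, w ^ 2, w ^ 2, 1] := by
          refine inv_eq_of_mul_eq_one_right (Units.ext ?_)
          rw [hx, diagU_mul, coe_diagU, Units.val_one, ← Matrix.diagonal_one]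
          congr 1
          funext k
          fin_cases k <;> simp [← pow_succ', hw3]
        rw [this]
        simp [Matrix.trace_diagonal, Fin.sum_univ_four]; ring
      rw [hg, htr, htri, e1, e2, hR, Fintype.card_fin, ← hg] at ht
      have h7 : (3 * (w : F) + 1) * (3 * (w : F) ^ 2 + 1) = 7 := by linear_combination 9 * hw3 + 3 * hw2 - 0 * hw2
      rw [h7] at ht
      rcases fix_cases D hR hZ hr2 hz hns hN with ⟨-, hc | hc⟩ | ⟨h, -⟩
      · rw [hc] at ht
        push_cast at ht
        exact mul_ne_zero (mul_ne_zero h4F h4F) (mul_ne_zero (mul_ne_zero h2 h3F) h4F) (by linear_combination ht)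
      · rw [hc] at ht
        push_cast at ht
        exact mul_ne_zero (mul_ne_zero h4F h4F) (mul_ne_zero h4F h3F) (by linear_combination ht)
      · omega
    by_cases h5 : r = 5
    · subst h5
      by_cases hp5 : S.p = 5
      · exact htransv hp5
      have h5F : (5 : F) ≠ 0 := by exact_mod_cast S.natCast_ne (by norm_num) hp5
      have hord := hr5 rfl
      have hpm : (S.p : ZMod 5) = 1 ∨ (S.p : ZMod 5) = 4 := by
        have hne : (S.p : ZMod 5) ≠ 0 := fun h => hp5
          ((Nat.prime_dvd_prime_iff_eq (by norm_num) S.prime).1 ((ZMod.natCast_eq_zero_iff _ _).1 h)).symm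
        rw [Ne, orderOf_eq_four_iff] at hord
        rcases five_split (S.p : ZMod 5) with h | h | h | h | h
        · exact absurd h hne
        · exact absurd (Or.inl h) hord
        · exact absurd (Or.inr h) hord
        · exact Or.inl h
        · exact Or.inr h
      haveI : Fact (Nat.Prime 5) := ⟨by norm_num⟩
      obtain ⟨ζ, hζ⟩ := exists_zeta F (r := 5) (by exact_mod_cast h5F)
      set z : AlgebraicClosure F := (ζ : AlgebraicClosure F) with hz
      have hz5 : z ^ 5 = 1 := (IsPrimitiveRoot.coe_units_iff.2 hζ).pow_eq_one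
      have hzp : (z + z ^ 4) ^ S.p = z + z ^ 4 := by
        haveI : CharP (AlgebraicClosure F) S.p :=
          charP_of_injective_algebraMap (algebraMap F _).injective S.p
        rw [add_pow_char]
        have hmod : ∀ m : ℕ, z ^ m = z ^ (m % 5) := fun m => pow_eq_pow_mod m hz5
        rcases hpm with h | h
        · have h' : S.p % 5 = 1 := by rw [← ZMod.val_natCast, h]; rfl
          rw [hmod S.p, h', pow_one, ← pow_mul, hmod (4 * S.p), show 4 * S.p % 5 = 4 by omega]
        · have h' : S.p % 5 = 4 := by rw [← ZMod.val_natCast, h]; rfl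
          rw [hmod S.p, h', ← pow_mul, hmod (4 * S.p), show 4 * S.p % 5 = 1 by omega, pow_one, add_comm]
      obtain ⟨s, hs⟩ := exists_preimage_of_frob (p := S.p) hzp
      have hsp : s ^ S.p = s := (algebraMap F (AlgebraicClosure F)).injective (by rw [map_pow, hs, hzp])
      have hs2 : s ^ 2 + s = 1 := by
        refine (algebraMap F (AlgebraicClosure F)).injective ?_
        rw [map_add, map_pow, hs, map_one]
        have hne : z ≠ 1 := (IsPrimitiveRoot.coe_units_iff.2 hζ).ne_one (by norm_num)
        have hsum : z ^ 4 + z ^ 3 + z ^ 2 + z + 1 = 0 :=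
          (mul_eq_zero.1 (show (z - 1) * (z ^ 4 + z ^ 3 + z ^ 2 + z + 1) = 0 by linear_combination hz5)).resolve_left
            (sub_ne_zero.2 hne)
        linear_combination hsum + (2 + z ^ 3) * hz5
      obtain ⟨x, hxG, hxd, hx5, e1, e2⟩ := S.block s hsp hs2
      have hxH : x ∈ S.H := (mem_H S).2 ⟨hxG, hxd⟩
      refine fin x hxH ⟨1, by rw [hx5, Units.val_one, one_smul]⟩ (fun c hc => ?_) fun h hN hz' hns g hg => ?_
      · -- a scalar with `c ^ 4 = c ^ 5 = 1` would be one
        have c4 : c ^ 4 = 1 := by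
          have := congrArg Units.val hxd
          rw [Matrix.GeneralLinearGroup.val_det_apply, hc, Matrix.det_smul, Matrix.det_one, mul_one, Fintype.card_fin,
            Units.val_one] at this
          exact this
        have c5 : c ^ 5 = 1 := by
          have := congrArg (fun t : GL (Fin 4) F => (t : Matrix (Fin 4) (Fin 4) F) 0 0) hx5
          simpa [Units.val_pow_eq_pow_val, hc, smul_pow] using this
        have c1 : c = 1 := by linear_combination c5 - c * c4
        rw [hc, c1] at e1
        simp at e1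
        have : s = 2 := by linear_combination -e1
        rw [this] at hs2
        exact h5F (by linear_combination hs2)
      have ht := trace_mul_trace D h2 hrodd hz' hN
      rw [hg, htr, htri, e1, e2, hR, Fintype.card_fin, ← hg] at ht
      rcases fix_cases D hR hZ hr2 hz' hns hN with ⟨h, -⟩ | ⟨-, hc⟩
      · omega
      rw [hc] at ht
      push_cast at ht
      have h' : (s + 1) * (s + 3) = 0 := by
        refine (mul_eq_zero.1 (show ((4 : F) * 4 * 4) * ((s + 1) * (s + 3)) = 0 by linear_combination ht)).resolve_left ?_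
        exact mul_ne_zero (mul_ne_zero h4F h4F) h4F
      rcases mul_eq_zero.1 h' with e | e
      · have : s = -1 := by linear_combination e
        rw [this] at hs2
        exact one_ne_zero (by linear_combination -hs2 : (1 : F) = 0)
      · have : s = -3 := by linear_combination e
        rw [this] at hs2
        exact h5F (by linear_combination hs2)
    · have h7 : 7 ≤ r := by
        have := hrp.two_le
        by_contra h
        interval_cases r <;> first | omega | exact absurd hrp (by norm_num)
      obtain ⟨⟨x, hxH⟩, hxo⟩ := exists_prime_orderOf_dvd_card' (G := S.H) r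
        (hΩ.trans (Subgroup.relIndex_dvd_card _ _))
      rw [Subgroup.orderOf_mk] at hxo
      have hxr : x ^ r = 1 := hxo ▸ pow_orderOf_eq_one x
      refine fin x hxH ⟨1, by rw [hxr, Units.val_one, one_smul]⟩ (fun c hc => ?_) fun h hN hz hns g hg => ?_
      · have c4 : c ^ 4 = 1 := by
          have := congrArg Units.val ((mem_H S).1 hxH).2
          rw [Matrix.GeneralLinearGroup.val_det_apply, hc, Matrix.det_smul, Matrix.det_one, mul_one, Fintype.card_fin,
            Units.val_one] at this
          exact this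
        have cr : c ^ r = 1 := by
          have := congrArg (fun t : GL (Fin 4) F => (t : Matrix (Fin 4) (Fin 4) F) 0 0) hxr
          simpa [Units.val_pow_eq_pow_val, hc, smul_pow] using this
        have : c ^ Nat.gcd 4 r = 1 := pow_gcd_eq_one.2 ⟨c4, cr⟩
        rw [show Nat.gcd 4 r = 1 from (Nat.Coprime.pow_left 2 ((Nat.coprime_primes Nat.prime_two hrp).2 (Ne.symm hr2)) :
          Nat.Coprime (2 ^ 2) r), pow_one] at this
        refine hrp.ne_one (hxo.symm.trans (orderOf_eq_one_iff.2 (Units.ext ?_)))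
        rw [hc, this, one_smul, Units.val_one]
      rcases fix_cases D hR hZ hr2 hz hns hN with ⟨h, -⟩ | ⟨h, -⟩ <;> omega
  · rintro (rfl | ⟨rfl, hm, hp3⟩ | ⟨rfl, hord⟩) x hx ⟨z, hz⟩ hns
    · exact two_case S hi2 hP hPR hin hx hz hns
    all_goals
      obtain ⟨hxG, hxd⟩ := (mem_H S).1 hx
      have hz4 : z ^ 4 = 1 := by
        have h1 := congrArg Units.val hxd
        rw [Matrix.GeneralLinearGroup.val_det_apply, Units.val_one] at h1
        have h2' := congrArg Matrix.det hz
        rw [Units.val_pow_eq_pow_val, Matrix.det_pow, h1, one_pow, Matrix.det_smul, Matrix.det_one, mul_one,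
          Fintype.card_fin] at h2'
        exact h2'.symm
      have hz0 : z ≠ 0 := fun h => by rw [h] at hz4; simp at hz4
      set u := Units.mk0 z hz0 with hu
      have hun : u ∈ S.A.norms := by
        obtain ⟨d, hd⟩ := h4m
        refine (S.norms_iff u).2 (Units.ext ?_)
        rw [Units.val_pow_eq_pow_val, hu, Units.val_mk0, hd, pow_mul, hz4, one_pow, Units.val_one]
      have hu4 : u ^ 4 = 1 := Units.ext (by rw [Units.val_pow_eq_pow_val, hu, Units.val_mk0, hz4, Units.val_one])
      have hcH : ∀ k : ℕ, diagU (fun _ : Fin 4 => u ^ k) ∈ S.H := fun k =>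
        (mem_H S).2 ⟨S.A.diag_mem _ fun _ => pow_mem hun k, Units.ext (by
          simp [Matrix.det_diagonal, ← pow_mul]
          rw [show k * 4 = 4 * k by ring, pow_mul, hu, Units.val_mk0, hz4, one_pow])⟩
      have hcN : ∀ k : ℕ, diagU (fun _ : Fin 4 => u ^ k) ∈ Cfsg.Geo.subgroupNormalizer R := fun k =>
        scalar_mem_normalizer (c := ((u ^ k : Fˣ) : F)) (by rw [coe_diagU, Matrix.smul_one_eq_diagonal])
      have back : ∀ k : ℕ, ∀ g : GL (Fin 4) F,
          g⁻¹ * (x * diagU fun _ => u ^ k) * g ∈ Cfsg.Geo.subgroupNormalizer R →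
          g⁻¹ * x * g ∈ Cfsg.Geo.subgroupNormalizer R := fun k g hg => by
        have hcg : g * diagU (fun _ : Fin 4 => u ^ k) = diagU (fun _ : Fin 4 => u ^ k) * g := by
          refine Units.ext (Matrix.ext fun a b => ?_)
          simp [Matrix.mul_diagonal, Matrix.diagonal_mul, mul_comm]
        have e : g⁻¹ * x * g = g⁻¹ * (x * diagU fun _ => u ^ k) * g * (diagU fun _ => u ^ k)⁻¹ := by
          calc g⁻¹ * x * g = g⁻¹ * x * (g * diagU fun _ => u ^ k) * (diagU fun _ => u ^ k)⁻¹ := by group
            _ = _ := by rw [hcg]; group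
        rw [e]
        exact mul_mem hg (inv_mem (hcN k))
    · have h1 : (x * diagU fun _ => u ^ 1) ^ 3 = 1 :=
        scale_root (k := 1) (c := u ^ 1) (by simp [hu]) hz (by simpa using hz4)
      obtain ⟨g, hg, hgN⟩ := three_case S hi2 hP hPR hin hm hp3 (mul_mem hx (hcH 1)) h1
      exact ⟨g, hg, back 1 g hgN⟩
    · have h1 : (x * diagU fun _ => u ^ 3) ^ 5 = 1 :=
        scale_root (k := 3) (c := u ^ 3) (by simp [hu]) hz
          (by rw [show 5 * 3 + 1 = 4 * 4 by norm_num, pow_mul, hz4, one_pow])
      obtain ⟨g, hg, hgN⟩ := five_case S hi2 hP hPR hin hord (mul_mem hx (hcH 3)) h1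
      exact ⟨g, hg, back 3 g hgN⟩

end CfsgLib.Classical.PrimeDerangement.Sympl
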