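import Cfsg.Agent.Classical.PrimeDerangement.Sympl.Sys
import Cfsg.Agent.Classical.PrimeDerangement.Sympl.Count

/-!
A symplectic type group of order 64 is conjugate in the ambient group to the Pauli group.
-/

set_option autoImplicit false

namespace CfsgLib.Classical.PrimeDerangement.Sympl

open Matrix CfsgLib.Classical.PrimeDerangement

variable {F : Type*} [Field F] [Fintype F] (S : Sys F)

theorem Sys.two_ne (S : Sys F) : (2 : F) ≠ 0 := fun h => by
  haveI := S.char
  exact S.p_ne_two ((Nat.prime_dvd_prime_iff_eq S.prime Nat.prime_two).1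
    ((CharP.cast_eq_zero_iff F S.p 2).1 (by exact_mod_cast h)))

theorem Sys.neg_one_mem {i : Fˣ} (hin : i ∈ S.A.norms) (hi2 : (i : F) * i = -1) : (-1 : Fˣ) ∈ S.A.norms := by
  have : i * i = -1 := Units.ext (by simpa using hi2)
  exact this ▸ mul_mem hin hin

theorem Sys.pow_p_eq {i : Fˣ} (hin : i ∈ S.A.norms) (hi2 : (i : F) * i = -1) :
    (i : F) ^ S.p = (S.e : F) * i := by
  have h := (S.norms_iff i).1 hin
  have e1 : i ^ S.p = i ^ S.e := by
    rw [← zpow_natCast, show (S.p : ℤ) = S.m + S.e by rw [S.hm]; ring, _root_.zpow_add, zpow_natCast, h, one_mul]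
  rw [← Units.val_pow_eq_pow_val, e1]
  rcases S.he with e | e <;> rw [e]
  · simp
  · have : (i : F) * -(i : F) = 1 := by rw [mul_neg, hi2, neg_neg]
    rw [_root_.zpow_neg_one, Units.val_inv_eq_inv_val, inv_eq_of_mul_eq_one_right this]
    simp

theorem kron_sc (c : Fˣ) : (kron (sc c, 1) : GL (Fin 4) F) = diagU fun _ => c := by
  refine Units.ext (Matrix.ext fun a b => ?_)
  fin_cases a <;> fin_cases b <;> simp [coe_kron, kronMat, sc, d2]

theorem kron_σz_one : (kron (σz, 1) : GL (Fin 4) F) = diagU ![1, 1, -1, -1] := by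
  refine Units.ext (Matrix.ext fun a b => ?_)
  fin_cases a <;> fin_cases b <;> simp [coe_kron, kronMat, σz, d2]

theorem kron_one_σz : (kron (1, σz) : GL (Fin 4) F) = diagU ![1, -1, 1, -1] := by
  refine Units.ext (Matrix.ext fun a b => ?_)
  fin_cases a <;> fin_cases b <;> simp [coe_kron, kronMat, σz, d2]

theorem kron_one_gS (i : Fˣ) : (kron (1, gS i) : GL (Fin 4) F) = diagU ![1, i, 1, i] := by
  refine Units.ext (Matrix.ext fun a b => ?_)
  fin_cases a <;> fin_cases b <;> simp [coe_kron, kronMat, gS, d2]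

theorem kron_σx_one :
    (kron (σx, 1) : GL (Fin 4) F) = permU (Equiv.swap (0 : Fin 4) 2 * Equiv.swap (1 : Fin 4) 3) := by
  refine Units.ext (Matrix.ext fun a b => ?_)
  fin_cases a <;> fin_cases b <;>
    simp [coe_kron, kronMat, σx, coe_permU, Equiv.swap_apply_def, Equiv.Perm.mul_def, Equiv.symm_trans_apply]

theorem kron_one_σx :
    (kron (1, σx) : GL (Fin 4) F) = permU (Equiv.swap (0 : Fin 4) 1 * Equiv.swap (2 : Fin 4) 3) := by
  refine Units.ext (Matrix.ext fun a b => ?_)
  fin_cases a <;> fin_cases b <;>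
    simp [coe_kron, kronMat, σx, coe_permU, Equiv.swap_apply_def, Equiv.Perm.mul_def, Equiv.symm_trans_apply]

variable {i : Fˣ} (hin : i ∈ S.A.norms) (hi2 : (i : F) * i = -1)

include hin hi2 in
theorem pauli_le : pauli i ≤ S.A.G := by
  refine (Subgroup.closure_le _).2 ?_
  have hn := S.neg_one_mem hin hi2
  rintro g (rfl | rfl | rfl | rfl | rfl)
  · rw [kron_sc]; exact S.A.diag_mem _ fun _ => hin
  · rw [kron_σx_one]; exact S.A.perm_mem _
  · rw [kron_σz_one]
    exact S.A.diag_mem _ fun k => by fin_cases k <;> first | exact one_mem _ | exact hn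
  · rw [kron_one_σx]; exact S.A.perm_mem _
  · rw [kron_one_σz]
    exact S.A.diag_mem _ fun k => by fin_cases k <;> first | exact one_mem _ | exact hn

include hin in
theorem gK_left_mem : kron (gK i hi2 S.two_ne, 1) ∈ S.A.G :=
  S.model_mem (i : F) _ (S.pow_p_eq hin hi2)
    ⟨![![-1, 0, 1, 0], ![0, -1, 0, 1], ![-1, 0, -1, 0], ![0, -1, 0, -1]],
      ![![1, 0, 1, 0], ![0, 1, 0, 1], ![1, 0, -1, 0], ![0, 1, 0, -1]], fun a b => by
      have e : ((kron (gK i hi2 S.two_ne, 1))⁻¹ : GL (Fin 4) F) = kron ((gK i hi2 S.two_ne)⁻¹, 1) := by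
        rw [← map_inv, Prod.inv_mk, inv_one]
      rw [e, coe_kron, coe_kron]
      have h2 := S.two_ne
      fin_cases a <;> fin_cases b <;> constructor <;> simp [kronMat, gK, h2] <;> ring⟩

include hin in
theorem gK_right_mem : kron (1, gK i hi2 S.two_ne) ∈ S.A.G := by
  have e : kron (1, gK i hi2 S.two_ne) = permU (Equiv.swap (1 : Fin 4) 2) * kron (gK i hi2 S.two_ne, 1) *
      permU (Equiv.swap (1 : Fin 4) 2) := by
    refine Units.ext (Matrix.ext fun a b => ?_)
    fin_cases a <;> fin_cases b <;>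
      simp [coe_kron, kronMat, gK, coe_permU, Matrix.mul_apply, Fin.sum_univ_four, Equiv.swap_apply_def,
        Matrix.vecMul, dotProduct]
  rw [e]
  exact mul_mem (mul_mem (S.A.perm_mem _) (gK_left_mem S hin hi2)) (S.A.perm_mem _)

include hin in
theorem gW_mem : gW hi2 S.two_ne ∈ S.A.G := by
  refine mul_mem (mul_mem (gK_left_mem S hin hi2) (S.A.perm_mem _)) ?_
  rw [kron_one_gS]
  exact S.A.diag_mem _ fun k => by fin_cases k <;> first | exact one_mem _ | exact hin

/-- Changing an element by one generator of an anticommuting pair so as to commute with both. -/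
theorem exists_commuting {G : Type*} [Group G] [HasDistribNeg G] {R : Subgroup G}
    (hsign : ∀ a ∈ R, ∀ b ∈ R, a * b = b * a ∨ a * b = -(b * a)) {x y : G} (hx : x ∈ R) (hy : y ∈ R)
    (hxy : x * y = -(y * x)) {g : G} (hg : g ∈ R) :
    ∃ w ∈ ({1, x, y, x * y} : Set G), g * w * x = x * (g * w) ∧ g * w * y = y * (g * w) := by
  have hyx : y * x = -(x * y) := by rw [hxy, neg_neg]
  rcases hsign g hg x hx with ex | ex <;> rcases hsign g hg y hy with ey | ey
  · exact ⟨1, by simp, by simp [ex], by simp [ey]⟩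
  · refine ⟨x, by simp, by rw [← mul_assoc x g x, ← ex], ?_⟩
    rw [mul_assoc, hxy, mul_neg, ← mul_assoc, ey, neg_mul, neg_neg, mul_assoc]
  · refine ⟨y, by simp, ?_, by rw [← mul_assoc y g y, ← ey]⟩
    rw [mul_assoc, hyx, mul_neg, ← mul_assoc, ex, neg_mul, neg_neg, mul_assoc]
  · refine ⟨x * y, by simp, ?_, ?_⟩
    · calc g * (x * y) * x = g * x * (y * x) := by simp only [mul_assoc]
        _ = x * (g * (x * y)) := by rw [ex, hyx, neg_mul, mul_neg, neg_neg]; simp only [mul_assoc]
    · calc g * (x * y) * y = g * (x * y) * y := rfl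
        _ = -(g * (y * x)) * y := by rw [hxy, mul_neg]
        _ = -(g * y * (x * y)) := by simp only [mul_assoc, neg_mul]
        _ = y * g * (x * y) := by rw [ey, neg_mul, neg_neg]
        _ = y * (g * (x * y)) := by simp only [mul_assoc]

/-- Only scalars commute with the four Pauli generators. -/
theorem scalar_of_commutes {M : Matrix (Fin 4) (Fin 4) F}
    (h : ∀ g ∈ ({kron (σx, 1), kron (σz, 1), kron (1, σx), kron (1, σz)} : Set (GL (Fin 4) F)),
      M * (g : Matrix (Fin 4) (Fin 4) F) = (g : Matrix (Fin 4) (Fin 4) F) * M) (h2 : (2 : F) ≠ 0) :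
    M = M 0 0 • 1 := by
  have hne : (1 : F) ≠ -1 := fun e => h2 (by linear_combination e)
  have zu := h (kron (σz, 1)) (by simp)
  have zv := h (kron (1, σz)) (by simp)
  have xu := h (kron (σx, 1)) (by simp)
  have xv := h (kron (1, σx)) (by simp)
  rw [kron_σz_one] at zu
  rw [kron_one_σz] at zv
  rw [kron_σx_one] at xu
  rw [kron_one_σx] at xv
  have hoff : ∀ a b, a ≠ b → M a b = 0 := by
    intro a b hab
    have e1 := congrFun (congrFun zu a) b
    have e2 := congrFun (congrFun zv a) b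
    rw [coe_diagU, Matrix.mul_diagonal, Matrix.diagonal_mul] at e1 e2
    have hm : ∀ x : F, x = -x → x = 0 := fun x hx =>
      (mul_eq_zero.1 (show (2 : F) * x = 0 by linear_combination hx)).resolve_left h2
    fin_cases a <;> fin_cases b <;> first
      | exact absurd rfl hab
      | (simp at e1 e2; first | exact hm _ e1 | exact hm _ e1.symm | exact hm _ e2 | exact hm _ e2.symm)
  have d1 := congrFun (congrFun xv 0) 1
  have d2' := congrFun (congrFun xu 0) 2
  have d3 := congrFun (congrFun xu 1) 3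
  simp [Matrix.mul_apply, Fin.sum_univ_four, coe_permU, Equiv.swap_apply_def, Equiv.Perm.mul_def,
    Equiv.symm_trans_apply] at d1 d2' d3
  ext a b
  rcases eq_or_ne a b with rfl | hab
  · fin_cases a <;> simp [Matrix.one_apply] <;>
      first | exact d1.symm | exact d2'.symm | exact (d1.trans d3).symm | exact d1 | exact d2' | exact d1.trans d3
  · rw [hoff a b hab, Matrix.smul_apply, Matrix.one_apply_ne hab, smul_zero]

include hin in
/-- The normal form. -/
theorem exists_frame {R : Subgroup (GL (Fin 4) F)} (hi : (i : F) * i = -1) (D : Data R) (hRG : R ≤ S.A.G)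
    (hR : 32 ≤ Nat.card R) (hiR : diagU (fun _ => i) ∈ R) :
    ∃ P ∈ S.A.G, (pauli i).map (MulAut.conj P).toMonoidHom = R := by
  classical
  haveI := S.char
  haveI : Finite R := inferInstance
  have h2 := S.two_ne
  set J : GL (Fin 4) F := diagU fun _ => i with hJ
  have hJc : ((J : GL (Fin 4) F) : Matrix (Fin 4) (Fin 4) F) = (i : F) • 1 := by
    rw [hJ, coe_diagU, Matrix.smul_one_eq_diagonal]
  have hsign : ∀ a ∈ R, ∀ b ∈ R, a * b = b * a ∨ a * b = -(b * a) := fun a ha b hb =>
    (D.sign a ha b hb).imp (fun e => Units.ext e) (fun e => Units.ext e)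
  have hsc : ∀ g : GL (Fin 4) F, J * g = g * J := fun g => Units.ext (by
    rw [Units.val_mul, Units.val_mul, hJc, Matrix.smul_mul, one_mul, Matrix.mul_smul, mul_one])
  -- scale to an involution
  have hinv : ∀ g ∈ R, ∃ g' ∈ R, g' * g' = 1 ∧ (g' = g ∨ g' = J * g) := by
    intro g hg
    rcases D.sq g hg with e | e
    · exact ⟨g, hg, Units.ext e, Or.inl rfl⟩
    · refine ⟨J * g, mul_mem hiR hg, Units.ext ?_, Or.inr rfl⟩
      rw [Units.val_mul, Units.val_mul, hJc, Matrix.smul_mul, one_mul, Matrix.smul_mul, Matrix.mul_smul,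
        smul_smul, hi, e, neg_one_smul, neg_neg, Units.val_one]
  have hanti : ∀ a b c : GL (Fin 4) F, (c = b ∨ c = J * b) → a * b = -(b * a) → a * c = -(c * a) := by
    rintro a b c (rfl | rfl) e
    · exact e
    · rw [← mul_assoc, ← hsc a, mul_assoc, e, mul_neg, mul_assoc]
  have hanti' : ∀ a b : GL (Fin 4) F, a * b = -(b * a) → b * a = -(a * b) := fun a b e => by rw [e, neg_neg]
  have hneg : ∀ M : GL (Fin 4) F, M ≠ -M := fun M e => by
    have h : (M : Matrix (Fin 4) (Fin 4) F) = -(M : Matrix (Fin 4) (Fin 4) F) := congrArg Units.val e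
    have : (2 : F) • (M : Matrix (Fin 4) (Fin 4) F) = 0 := by
      rw [two_smul]; nth_rw 2 [h]; rw [add_neg_cancel]
    exact M.ne_zero ((smul_eq_zero.1 this).resolve_left h2)
  have hnonsc : ∀ g ∈ R, (∀ c : F, (g : Matrix (Fin 4) (Fin 4) F) ≠ c • 1) → ∃ w ∈ R, g * w = -(w * g) := by
    intro g hg hns
    by_contra h
    push Not at h
    obtain ⟨c, hc⟩ := D.scalar (g : Matrix (Fin 4) (Fin 4) F) fun w hw =>
      congrArg (fun t : GL (Fin 4) F => (t : Matrix (Fin 4) (Fin 4) F)) ((hsign g hg w hw).resolve_right (h w hw))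
    exact hns c hc
  -- at most four scalars
  have hscard : ∀ g ∈ R, ∀ c : F, (g : Matrix (Fin 4) (Fin 4) F) = c • 1 →
      g ∈ ({1, J, -1, -J} : Finset (GL (Fin 4) F)) := by
    intro g hg c hc
    have hcv : c = 1 ∨ c = -1 ∨ c = i ∨ c = -(i : F) := by
      rcases sq_eq_of_scalar D hg hc with e | e
      · rcases sq_eq_one_iff.1 e with rfl | rfl <;> simp
      · have : (c - i) * (c + i) = 0 := by linear_combination e - hi
        rcases mul_eq_zero.1 this with e' | e'
        · exact Or.inr (Or.inr (Or.inl (sub_eq_zero.1 e')))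
        · exact Or.inr (Or.inr (Or.inr (eq_neg_of_add_eq_zero_left e')))
    simp only [Finset.mem_insert, Finset.mem_singleton]
    rcases hcv with rfl | rfl | rfl | rfl
    · exact Or.inl (Units.ext (by rw [hc, one_smul, Units.val_one]))
    · exact Or.inr (Or.inr (Or.inl (Units.ext (by rw [hc, Units.val_neg, Units.val_one, neg_one_smul]))))
    · exact Or.inr (Or.inl (Units.ext (by rw [hc, hJc])))
    · exact Or.inr (Or.inr (Or.inr (Units.ext (by rw [hc, Units.val_neg, hJc, neg_smul]))))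
  have hsmall : ∀ T : Finset (GL (Fin 4) F), T.card ≤ 4 →
      (∀ g ∈ R, ∃ w ∈ T, ∃ c : F, ((g * w : GL (Fin 4) F) : Matrix (Fin 4) (Fin 4) F) = c • 1) →
      (∀ w ∈ T, w ∈ R) → False := by
    intro T hT hcov hTR
    have hsub : (R : Set (GL (Fin 4) F)) ⊆
        ↑((({1, J, -1, -J} : Finset (GL (Fin 4) F)) ×ˢ T).image fun q => q.1 * q.2⁻¹) := by
      intro g hg
      obtain ⟨w, hw, c, hc⟩ := hcov g hg
      simp only [Finset.coe_image, Set.mem_image, Finset.mem_coe, Finset.mem_product, Prod.exists]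
      exact ⟨g * w, w, ⟨hscard _ (mul_mem hg (hTR w hw)) c hc, hw⟩, mul_inv_cancel_right g w⟩
    have h1 := Set.ncard_le_ncard hsub (Finset.finite_toSet _)
    rw [Set.ncard_coe_finset, ← Nat.card_coe_set_eq] at h1
    have h2' := (Finset.card_image_le (s := (({1, J, -1, -J} : Finset (GL (Fin 4) F)) ×ˢ T))
      (f := fun q => q.1 * q.2⁻¹))
    have h3 : ({1, J, -1, -J} : Finset (GL (Fin 4) F)).card ≤ 4 := Finset.card_le_four
    rw [Finset.card_product] at h2'
    have h4 : Nat.card R ≤ 16 := le_trans h1 (le_trans h2' (Nat.mul_le_mul h3 hT))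
    omega
  -- first pair
  obtain ⟨x₀, hx₀, hx₀ns⟩ : ∃ x ∈ R, ∀ c : F, (x : Matrix (Fin 4) (Fin 4) F) ≠ c • 1 := by
    by_contra h
    push Not at h
    exact hsmall {1} (by simp) (fun g hg => ⟨1, by simp, by rw [mul_one]; exact h g hg⟩) (by simp)
  obtain ⟨y₀, hy₀, hxy₀⟩ := hnonsc x₀ hx₀ hx₀ns
  obtain ⟨x, hx, hx1, hxx⟩ := hinv x₀ hx₀
  obtain ⟨y, hy, hy1, hyy⟩ := hinv y₀ hy₀
  have hxy : x * y = -(y * x) := hanti' _ _ (hanti _ _ _ hxx (hanti' _ _ (hanti _ _ _ hyy hxy₀)))
  have hwR : ∀ w ∈ ({1, x, y, x * y} : Set (GL (Fin 4) F)), w ∈ R := by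
    rintro w (rfl | rfl | rfl | rfl)
    · exact one_mem _
    · exact hx
    · exact hy
    · exact mul_mem hx hy
  -- second pair
  obtain ⟨u₀, hu₀, hux₀, huy₀, hu₀ns⟩ : ∃ u ∈ R, u * x = x * u ∧ u * y = y * u ∧
      ∀ c : F, (u : Matrix (Fin 4) (Fin 4) F) ≠ c • 1 := by
    by_contra h
    push Not at h
    refine hsmall {1, x, y, x * y} Finset.card_le_four (fun g hg => ?_)
      (fun w hw => hwR w (by simpa using hw))
    obtain ⟨w, hw, h1, h2⟩ := exists_commuting hsign hx hy hxy hg
    exact ⟨w, by simpa using hw, h _ (mul_mem hg (hwR w hw)) h1 h2⟩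
  obtain ⟨v₁, hv₁, huv₁⟩ := hnonsc u₀ hu₀ hu₀ns
  obtain ⟨w, hw, hvx₀, hvy₀⟩ := exists_commuting hsign hx hy hxy hv₁
  have huw : u₀ * w = w * u₀ := by
    rcases hw with rfl | rfl | rfl | rfl
    · simp
    · exact hux₀
    · exact huy₀
    · rw [← mul_assoc, hux₀, mul_assoc, huy₀, mul_assoc]
  have huv₀ : u₀ * (v₁ * w) = -(v₁ * w * u₀) := by
    rw [← mul_assoc, huv₁, neg_mul, mul_assoc, huw, mul_assoc]
  obtain ⟨u, hu, hu1, huu⟩ := hinv u₀ hu₀
  obtain ⟨v, hv, hv1, hvv⟩ := hinv (v₁ * w) (mul_mem hv₁ (hwR w hw))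
  have hcom : ∀ a b c : GL (Fin 4) F, (c = b ∨ c = J * b) → b * a = a * b → c * a = a * c := by
    rintro a b c (rfl | rfl) e
    · exact e
    · rw [mul_assoc, e, ← mul_assoc, hsc a, mul_assoc]
  have hux := hcom x u₀ u huu hux₀
  have huy := hcom y u₀ u huu huy₀
  have hvx := hcom x _ v hvv hvx₀
  have hvy := hcom y _ v hvv hvy₀
  have huv : u * v = -(v * u) := hanti' _ _ (hanti _ _ _ huu (hanti' _ _ (hanti _ _ _ hvv huv₀)))
  -- a common fixed vector of `x` and `u`
  have hM : (1 + (x : Matrix (Fin 4) (Fin 4) F)) * (1 + u) ≠ 0 := by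
    intro h0
    have h1 := congrArg (fun M => (y : Matrix (Fin 4) (Fin 4) F) * M * ((y⁻¹ : GL (Fin 4) F) : Matrix (Fin 4) (Fin 4) F)) h0
    have e1 : (y : Matrix (Fin 4) (Fin 4) F) * x = -((x : Matrix (Fin 4) (Fin 4) F) * y) := by
      rw [← Units.val_mul, hanti' _ _ hxy, Units.val_neg, Units.val_mul]
    have e2 : (y : Matrix (Fin 4) (Fin 4) F) * u = (u : Matrix (Fin 4) (Fin 4) F) * y := by
      rw [← Units.val_mul, ← huy, Units.val_mul]
    simp only [mul_zero, zero_mul] at h1
    rw [show (y : Matrix (Fin 4) (Fin 4) F) * ((1 + (x : Matrix (Fin 4) (Fin 4) F)) * (1 + u)) =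
        (1 - (x : Matrix (Fin 4) (Fin 4) F)) * (1 + u) * y by
      simp only [mul_add, add_mul, sub_mul, one_mul, mul_one, ← mul_assoc, e1, e2, neg_mul]
      rw [mul_assoc (x : Matrix (Fin 4) (Fin 4) F) y u, e2, ← mul_assoc]
      abel, mul_assoc, Units.mul_inv, mul_one] at h1
    have h3 : (2 : F) • ((1 : Matrix (Fin 4) (Fin 4) F) + u) = 0 := by
      have := congrArg₂ (· + ·) h0 h1
      simp only [add_zero] at this
      rw [← this, ← add_mul, show (1 : Matrix (Fin 4) (Fin 4) F) + x + (1 - x) = (2 : F) • 1 by module,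
        Matrix.smul_mul, one_mul]
    have hu' : ∀ c : F, (u : Matrix (Fin 4) (Fin 4) F) ≠ c • 1 := fun c hc => by
      refine hneg (u * v) ?_
      conv_rhs => rw [huv, neg_neg]
      refine Units.ext ?_
      rw [Units.val_mul, Units.val_mul, hc, Matrix.smul_mul, one_mul, Matrix.mul_smul, mul_one]
    exact hu' (-1) (by rw [neg_one_smul]; exact eq_neg_of_add_eq_zero_right ((smul_eq_zero.1 h3).resolve_left h2))
  obtain ⟨k, hk⟩ : ∃ k, ((1 + (x : Matrix (Fin 4) (Fin 4) F)) * (1 + u)).mulVec (Pi.single k 1) ≠ 0 := by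
    by_contra h
    push Not at h
    refine hM (Matrix.ext fun a b => ?_)
    simpa using congrFun (h b) a
  set v0 := ((1 + (x : Matrix (Fin 4) (Fin 4) F)) * (1 + u)).mulVec (Pi.single k 1) with hv0
  have hxv : (x : Matrix (Fin 4) (Fin 4) F).mulVec v0 = v0 := by
    rw [hv0, Matrix.mulVec_mulVec, ← mul_assoc, mul_add (x : Matrix (Fin 4) (Fin 4) F), mul_one, ← Units.val_mul,
      hx1, Units.val_one, add_comm (x : Matrix (Fin 4) (Fin 4) F)]
  have huv0 : (u : Matrix (Fin 4) (Fin 4) F).mulVec v0 = v0 := by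
    have e : (u : Matrix (Fin 4) (Fin 4) F) * x = (x : Matrix (Fin 4) (Fin 4) F) * u := by
      rw [← Units.val_mul, hux, Units.val_mul]
    rw [hv0, Matrix.mulVec_mulVec, ← mul_assoc,
      show (u : Matrix (Fin 4) (Fin 4) F) * (1 + x) = (1 + x) * u by rw [mul_add, add_mul, e, mul_one, one_mul],
      mul_assoc, mul_add (u : Matrix (Fin 4) (Fin 4) F), mul_one, ← Units.val_mul, hu1, Units.val_one,
      add_comm (u : Matrix (Fin 4) (Fin 4) F)]
  set X := (x : Matrix (Fin 4) (Fin 4) F)
  set Y := (y : Matrix (Fin 4) (Fin 4) F)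
  set U := (u : Matrix (Fin 4) (Fin 4) F)
  set V := (v : Matrix (Fin 4) (Fin 4) F)
  set f : Fin 4 → Fin 4 → F := ![v0, V.mulVec v0, Y.mulVec v0, Y.mulVec (V.mulVec v0)] with hf
  have cxy : X * Y = -(Y * X) := congrArg Units.val hxy
  have cux : U * X = X * U := congrArg Units.val hux
  have cuy : U * Y = Y * U := congrArg Units.val huy
  have cvx : V * X = X * V := congrArg Units.val hvx
  have cvy : V * Y = Y * V := congrArg Units.val hvy
  have cuv : U * V = -(V * U) := congrArg Units.val huv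
  have cy : Y * Y = 1 := congrArg Units.val hy1
  have cv : V * V = 1 := congrArg Units.val hv1
  have eX : ∀ a, X.mulVec (f a) = ((![1, 1, -1, -1] : Fin 4 → Fˣ) a : F) • f a := by
    intro a
    fin_cases a <;> simp [hf, Matrix.mulVec_mulVec]
    · exact hxv
    · rw [← cvx, ← Matrix.mulVec_mulVec, hxv]
    · rw [cxy, Matrix.neg_mulVec, ← Matrix.mulVec_mulVec, hxv]
    · rw [← mul_assoc, cxy, neg_mul, mul_assoc, ← cvx, ← mul_assoc, Matrix.neg_mulVec, ← Matrix.mulVec_mulVec, hxv]
  have eU : ∀ a, U.mulVec (f a) = ((![1, -1, 1, -1] : Fin 4 → Fˣ) a : F) • f a := by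
    intro a
    fin_cases a <;> simp [hf, Matrix.mulVec_mulVec]
    · exact huv0
    · rw [cuv, Matrix.neg_mulVec, ← Matrix.mulVec_mulVec, huv0]
    · rw [cuy, ← Matrix.mulVec_mulVec, huv0]
    · rw [← mul_assoc, cuy, mul_assoc, cuv, mul_neg, ← mul_assoc, Matrix.neg_mulVec, ← Matrix.mulVec_mulVec, huv0]
  have eY : ∀ a, Y.mulVec (f a) = f ((Equiv.swap (0 : Fin 4) 2 * Equiv.swap (1 : Fin 4) 3) a) := by
    intro a
    fin_cases a <;> simp [hf, Matrix.mulVec_mulVec, Equiv.swap_apply_def, cy, ← mul_assoc]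
  have eV : ∀ a, V.mulVec (f a) = f ((Equiv.swap (0 : Fin 4) 1 * Equiv.swap (2 : Fin 4) 3) a) := by
    intro a
    fin_cases a <;> simp [hf, Matrix.mulVec_mulVec, Equiv.swap_apply_def, cv, cvy, ← mul_assoc]
    rw [mul_assoc, cv, mul_one]
  have hfne : ∀ a, f a ≠ 0 := by
    have hnz : ∀ (g : GL (Fin 4) F) (w : Fin 4 → F), w ≠ 0 → (g : Matrix (Fin 4) (Fin 4) F).mulVec w ≠ 0 := by
      intro g w hw h
      apply hw
      have := congrArg ((g⁻¹ : GL (Fin 4) F) : Matrix (Fin 4) (Fin 4) F).mulVec h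
      rwa [Matrix.mulVec_mulVec, Units.inv_mul, Matrix.one_mulVec, Matrix.mulVec_zero] at this
    intro a
    fin_cases a
    · exact hk
    · exact hnz v _ hk
    · exact hnz y _ hk
    · exact hnz y _ (hnz v _ hk)
  have hne1 : (1 : F) ≠ -1 := fun e => h2 (by linear_combination e)
  have hdist : ∀ a b : Fin 4, a ≠ b →
      (![1, 1, -1, -1] : Fin 4 → Fˣ) a ≠ (![1, 1, -1, -1] : Fin 4 → Fˣ) b ∨
      (![1, -1, 1, -1] : Fin 4 → Fˣ) a ≠ (![1, -1, 1, -1] : Fin 4 → Fˣ) b := by
    have hu1' : (1 : Fˣ) ≠ -1 := fun e => hne1 (by simpa using congrArg Units.val e)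
    intro a b hab
    fin_cases a <;> fin_cases b <;> simp [hu1', hu1'.symm] at hab ⊢
  have hli : LinearIndependent F f := by
    rw [Fintype.linearIndependent_iff]
    intro g hg
    have q0 := hg
    have q1 := congrArg X.mulVec hg
    have q2 := congrArg U.mulVec hg
    have q3 := congrArg (X * U).mulVec hg
    simp only [Matrix.mulVec_add, Matrix.mulVec_smul, Matrix.mulVec_zero, ← Matrix.mulVec_mulVec, eX, eU,
      smul_smul, Fin.sum_univ_four] at q0 q1 q2 q3
    simp at q0 q1 q2 q3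
    have h4 : (4 : F) ≠ 0 := by
      rw [show (4 : F) = 2 * 2 by norm_num]; exact mul_ne_zero h2 h2
    have z0 : ((4 : F) * g 0) • f 0 = 0 := by linear_combination (norm := module) q0 + q1 + q2 + q3
    have z1 : ((4 : F) * g 1) • f 1 = 0 := by linear_combination (norm := module) q0 + q1 - q2 - q3
    have z2 : ((4 : F) * g 2) • f 2 = 0 := by linear_combination (norm := module) q0 - q1 + q2 - q3
    have z3 : ((4 : F) * g 3) • f 3 = 0 := by linear_combination (norm := module) q0 - q1 - q2 + q3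
    intro a
    fin_cases a
    · exact (mul_eq_zero.1 ((smul_eq_zero.1 z0).resolve_right (hfne 0))).resolve_left h4
    · exact (mul_eq_zero.1 ((smul_eq_zero.1 z1).resolve_right (hfne 1))).resolve_left h4
    · exact (mul_eq_zero.1 ((smul_eq_zero.1 z2).resolve_right (hfne 2))).resolve_left h4
    · exact (mul_eq_zero.1 ((smul_eq_zero.1 z3).resolve_right (hfne 3))).resolve_left h4
  have hn := S.neg_one_mem hin hi
  have hs1 : ∀ b, (![1, 1, -1, -1] : Fin 4 → Fˣ) b ∈ S.A.norms := fun b => by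
    fin_cases b <;> first | exact one_mem _ | exact hn
  have hs2 : ∀ b, (![1, -1, 1, -1] : Fin 4 → Fˣ) b ∈ S.A.norms := fun b => by
    fin_cases b <;> first | exact one_mem _ | exact hn
  obtain ⟨P, hP, c, hPc⟩ := S.frame4 f hli
    (fun a b hab => by
      rcases hdist a b hab with h | h
      · exact ⟨x, hRG hx, _, _, h, hs1 b, eX a, eX b⟩
      · exact ⟨u, hRG hu, _, _, h, hs2 b, eU a, eU b⟩)
    (fun a => by
      fin_cases a
      · exact ⟨1, one_mem _, by simp [hf]⟩
      · exact ⟨v, hRG hv, by simp [hf, V]⟩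
      · exact ⟨y, hRG hy, by simp [hf, Y]⟩
      · exact ⟨y * v, mul_mem (hRG hy) (hRG hv), by simp [hf, Y, V, ← Matrix.mulVec_mulVec]⟩)
  set f' : Fin 4 → Fin 4 → F := fun a => c • f a with hf'
  have hP' : ∀ a b, (P : Matrix (Fin 4) (Fin 4) F) a b = f' b a := fun a b => hPc a b
  have gx : x * P = P * kron (σz, 1) := by
    rw [kron_σz_one]
    exact eq_diagU_of_eigvec hP' fun a => by rw [hf', Matrix.mulVec_smul, eX, smul_comm]
  have gu : u * P = P * kron (1, σz) := by
    rw [kron_one_σz]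
    exact eq_diagU_of_eigvec hP' fun a => by rw [hf', Matrix.mulVec_smul, eU, smul_comm]
  have gy : y * P = P * kron (σx, 1) := by
    rw [kron_σx_one]
    exact eq_permU_of_frame hP' fun a => by rw [hf', Matrix.mulVec_smul, eY]
  have gv : v * P = P * kron (1, σx) := by
    rw [kron_one_σx]
    exact eq_permU_of_frame hP' fun a => by rw [hf', Matrix.mulVec_smul, eV]
  refine ⟨P, hP, ?_⟩
  have hconj : ∀ {a b : GL (Fin 4) F}, a * P = P * b → P * b * P⁻¹ = a := fun e => by
    rw [← e, mul_inv_cancel_right]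
  refine le_antisymm ?_ ?_
  · rw [Subgroup.map_le_iff_le_comap]
    refine (Subgroup.closure_le _).2 ?_
    rintro g (rfl | rfl | rfl | rfl | rfl) <;> show P * _ * P⁻¹ ∈ R
    · rw [kron_sc, ← hJ, ← hsc, mul_inv_cancel_right]; exact hiR
    · rw [hconj gy]; exact hy
    · rw [hconj gx]; exact hx
    · rw [hconj gv]; exact hv
    · rw [hconj gu]; exact hu
  · intro g hg
    set M := (pauli i).map (MulAut.conj P).toMonoidHom
    have hm : ∀ b ∈ pauliGens i, P * b * P⁻¹ ∈ M := fun b hb => Subgroup.mem_map_of_mem _ (gens_mem hb)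
    have mJ : J ∈ M := by
      have := hm (kron (sc i, 1)) (by simp [pauliGens])
      rwa [kron_sc, ← hJ, ← hsc, mul_inv_cancel_right] at this
    have mx : x ∈ M := by have := hm (kron (σz, 1)) (by simp [pauliGens]); rwa [hconj gx] at this
    have my : y ∈ M := by have := hm (kron (σx, 1)) (by simp [pauliGens]); rwa [hconj gy] at this
    have mu : u ∈ M := by have := hm (kron (1, σz)) (by simp [pauliGens]); rwa [hconj gu] at this
    have mv : v ∈ M := by have := hm (kron (1, σx)) (by simp [pauliGens]); rwa [hconj gv] at this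
    obtain ⟨w1, hw1, a1, a2⟩ := exists_commuting hsign hx hy hxy hg
    have hg1 := mul_mem hg (hwR w1 hw1)
    obtain ⟨w2, hw2, b1, b2⟩ := exists_commuting hsign hu hv huv hg1
    have hw2R : w2 ∈ R := by
      rcases hw2 with rfl | rfl | rfl | rfl
      · exact one_mem _
      · exact hu
      · exact hv
      · exact mul_mem hu hv
    have cc : ∀ a : GL (Fin 4) F, (g * w1) * a = a * (g * w1) → u * a = a * u → v * a = a * v →
        (g * w1 * w2) * a = a * (g * w1 * w2) := by
      intro a ha hua hva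
      have hw2a : w2 * a = a * w2 := by
        rcases hw2 with rfl | rfl | rfl | rfl
        · simp
        · exact hua
        · exact hva
        · rw [mul_assoc, hva, ← mul_assoc, hua, mul_assoc]
      rw [mul_assoc, hw2a, ← mul_assoc, ha, mul_assoc]
    set z := g * w1 * w2 with hz
    have k1 := cc x a1 hux hvx
    have k2 := cc y a2 huy hvy
    set Z := P⁻¹ * z * P with hZ
    have hcZ : ∀ {a b : GL (Fin 4) F}, a * P = P * b → z * a = a * z →
        (Z : Matrix (Fin 4) (Fin 4) F) * (b : Matrix (Fin 4) (Fin 4) F) = (b : Matrix (Fin 4) (Fin 4) F) * Z := by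
      intro a b e ea
      rw [← Units.val_mul, ← Units.val_mul]
      congr 1
      have eb : b = P⁻¹ * a * P := by rw [mul_assoc, e, inv_mul_cancel_left]
      calc Z * b = P⁻¹ * (z * a) * P := by rw [hZ, eb]; group
        _ = b * Z := by rw [ea, hZ, eb]; group
    have hZs := scalar_of_commutes (M := (Z : Matrix (Fin 4) (Fin 4) F)) (by
      rintro b (rfl | rfl | rfl | rfl)
      · exact hcZ gy k2
      · exact hcZ gx k1
      · exact hcZ gv b2
      · exact hcZ gu b1) h2
    have hzsc : (z : Matrix (Fin 4) (Fin 4) F) = (Z : Matrix (Fin 4) (Fin 4) F) 0 0 • 1 := by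
      have : z = P * Z * P⁻¹ := by rw [hZ]; group
      conv_lhs => rw [this, Units.val_mul, Units.val_mul, hZs, Matrix.mul_smul, mul_one, Matrix.smul_mul,
        Units.mul_inv]
    have hzM : z ∈ M := by
      have := hscard z (mul_mem hg1 hw2R) _ hzsc
      have mn : (-1 : GL (Fin 4) F) ∈ M := by
        have : J * J = -1 := Units.ext (by
          rw [Units.val_mul, hJc, Matrix.smul_mul, one_mul, smul_smul, hi, Units.val_neg, Units.val_one, neg_one_smul])
        exact this ▸ mul_mem mJ mJ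
      simp only [Finset.mem_insert, Finset.mem_singleton] at this
      rcases this with e | e | e | e <;> rw [e]
      · exact one_mem _
      · exact mJ
      · exact mn
      · exact (neg_one_mul J) ▸ mul_mem mn mJ
    have hw1M : w1 ∈ M := by
      rcases hw1 with rfl | rfl | rfl | rfl
      · exact one_mem _
      · exact mx
      · exact my
      · exact mul_mem mx my
    have hw2M : w2 ∈ M := by
      rcases hw2 with rfl | rfl | rfl | rfl
      · exact one_mem _
      · exact mu
      · exact mv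
      · exact mul_mem mu mv
    have e : g = z * w2⁻¹ * w1⁻¹ := by rw [hz]; group
    rw [e]
    exact mul_mem (mul_mem hzM (inv_mem hw2M)) (inv_mem hw1M)

end CfsgLib.Classical.PrimeDerangement.Sympl
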