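import Cfsg.Prelude.Def_GeometricClasses
import Cfsg.Agent.Eq.Def_GeometricClasses
import Mathlib.GroupTheory.Nilpotent
import Mathlib.GroupTheory.PGroup

/-!
The structure of an absolutely irreducible 2-group of symplectic type and exponent 4:
commutators and squares are signs.
-/

set_option autoImplicit false

namespace CfsgLib.Classical.PrimeDerangement.Sympl

open scoped Matrix
open scoped commutatorElement

/-- In a group of exponent dividing 4 no derived element of order 4 generates a normal cyclic group. -/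
theorem no_inverted_commutator {G : Type*} [Group G] (h4 : ∀ g : G, g ^ 4 = 1) {a x y : G} (ha : a ^ 2 ≠ 1)
    (hxa : x * a * x⁻¹ = a⁻¹) (hya : y * a * y⁻¹ = a) (hxy : x * y * x⁻¹ * y⁻¹ = a) : False := by
  have e1 : x * y = a * y * x := by rw [← hxy]; group
  have e2 : x * a = a⁻¹ * x := by rw [← hxa]; group
  have e3 : y * a = a * y := mul_inv_eq_iff_eq_mul.1 hya
  have e4 : x * x * a = a * (x * x) := by
    have e5 : x * a⁻¹ = a * x := by
      have := congrArg (fun t => a * t * a⁻¹) e2.symm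
      simpa [mul_assoc] using this
    rw [mul_assoc, e2, ← mul_assoc, e5, mul_assoc]
  have e6 : x * x * y = y * (x * x) := by
    calc x * x * y = x * a * y * x := by rw [mul_assoc, e1]; simp only [mul_assoc]
      _ = a⁻¹ * (x * y) * x := by rw [e2]; simp only [mul_assoc]
      _ = a⁻¹ * a * y * x * x := by rw [e1]; simp only [mul_assoc]
      _ = y * (x * x) := by rw [inv_mul_cancel, one_mul, mul_assoc]
  have hsq : (y * x) ^ 2 = a * y ^ 2 * x ^ 2 := by
    rw [pow_two, pow_two, pow_two]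
    calc y * x * (y * x) = y * (x * y) * x := by simp only [mul_assoc]
      _ = y * a * y * x * x := by rw [e1]; simp only [mul_assoc]
      _ = a * (y * y) * (x * x) := by rw [e3]; simp only [mul_assoc]
  have c1 : Commute a (y ^ 2) := Commute.pow_right (show Commute a y from e3.symm) 2
  have c2 : Commute a (x ^ 2) := by rw [pow_two]; exact e4.symm
  have c3 : Commute (y ^ 2) (x ^ 2) := by
    refine Commute.pow_left (?_ : Commute y (x ^ 2)) 2
    rw [pow_two]; exact e6.symm
  refine ha ?_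
  have h := h4 (y * x)
  rw [show 4 = 2 * 2 from rfl, pow_mul, hsq, (c2.mul_left c3).mul_pow, c1.mul_pow, ← pow_mul, ← pow_mul,
    h4, h4, mul_one, mul_one] at h
  exact h

/-- Commutators are central when characteristic abelian subgroups are cyclic and the exponent divides 4. -/
theorem commutator_le_center {G : Type*} [Group G] [Finite G] (hp : IsPGroup 2 G) (h4 : ∀ g : G, g ^ 4 = 1)
    (hchar : ∀ A : Subgroup G, A.Characteristic → IsMulCommutative A → IsCyclic A) :
    commutator G ≤ Subgroup.center G := by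
  classical
  by_contra hcon
  haveI : Fact (Nat.Prime 2) := ⟨Nat.prime_two⟩
  haveI : Nontrivial G := by
    rcases subsingleton_or_nontrivial G with h | h
    · exact absurd (fun g _ => by rw [Subsingleton.elim g 1]; exact one_mem _) hcon
    · exact h
  obtain ⟨N, hN⟩ := (Subgroup.nilpotent_iff_lowerCentralSeries).1 hp.isNilpotent
  have hex : ∃ j, Subgroup.lowerCentralSeries (⊤ : Subgroup G) j ≤ Subgroup.center G := ⟨N, hN ▸ bot_le⟩
  set j := Nat.find hex with hj
  have hj1 : ¬ j ≤ 1 := by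
    intro h
    refine hcon (le_trans ?_ (Nat.find_spec hex))
    rw [← Subgroup.lowerCentralSeries_one]
    exact Subgroup.lowerCentralSeries_antitone _ h
  obtain ⟨k, hk⟩ : ∃ k, j = k + 2 := ⟨j - 2, by omega⟩
  set L : ℕ → Subgroup G := fun i => Subgroup.lowerCentralSeries (⊤ : Subgroup G) i with hL
  have hspec : L (k + 2) ≤ Subgroup.center G := hk ▸ Nat.find_spec hex
  have hmin : ¬ L (k + 1) ≤ Subgroup.center G := Nat.find_min hex (by omega)
  set A := L (k + 1) ⊔ Subgroup.center G with hA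
  haveI : A.Characteristic := by rw [hA, hL]; infer_instance
  -- brackets of `A` with the whole group are central
  have hbr : ∀ a ∈ A, ∀ g : G, a * g * a⁻¹ * g⁻¹ ∈ Subgroup.center G := by
    intro a ha g
    obtain ⟨l, hl, z, hz, rfl⟩ := Subgroup.mem_sup_of_normal_right.1 ha
    have hzc := Subgroup.mem_center_iff.1 hz
    have e : l * z * g * (l * z)⁻¹ * g⁻¹ = ⁅l, g⁆ := by
      rw [_root_.mul_inv_rev, mul_assoc l z g, ← hzc g]; simp [commutatorElement_def, mul_assoc]
    rw [e]
    exact hspec (Subgroup.commutator_mem_commutator hl (Subgroup.mem_top g))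
  -- the derived group commutes with `A`
  have hdA : ∀ a ∈ A, ∀ d ∈ commutator G, d * a = a * d := by
    intro a ha d hd
    have h0 : ⁅commutator G, A⁆ = ⊥ := by
      rw [commutator_def]
      have h1 : ⁅A, (⊤ : Subgroup G)⁆ ≤ Subgroup.center G := Subgroup.commutator_le.2 fun a ha g _ => hbr a ha g
      have h2 : ⁅⁅A, (⊤ : Subgroup G)⁆, (⊤ : Subgroup G)⁆ = ⊥ := by
        rw [Subgroup.commutator_eq_bot_iff_le_centralizer, Subgroup.coe_top, Subgroup.centralizer_univ]
        exact h1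
      refine Subgroup.commutator_commutator_eq_bot_of_rotate ?_ h2
      rw [Subgroup.commutator_comm ⊤ A]; exact h2
    exact (Subgroup.mem_centralizer_iff.1 (Subgroup.commutator_eq_bot_iff_le_centralizer.1 h0 hd) a ha).symm
  have hAle : A ≤ commutator G ⊔ Subgroup.center G :=
    sup_le_sup_right (by rw [← Subgroup.lowerCentralSeries_one]
                         exact Subgroup.lowerCentralSeries_antitone _ (by omega)) _
  have hAcomm : IsMulCommutative A := ⟨⟨fun a b => Subtype.ext (by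
    obtain ⟨d, hd, z, hz, e⟩ := Subgroup.mem_sup_of_normal_right.1 (hAle a.2)
    show a.1 * b.1 = b.1 * a.1
    rw [← e, mul_assoc, ← Subgroup.mem_center_iff.1 hz, ← mul_assoc, hdA b b.2 d hd, mul_assoc])⟩⟩
  haveI := hchar A inferInstance hAcomm
  obtain ⟨⟨u, hu⟩, hgen⟩ := IsCyclic.exists_zpow_surjective (G := A)
  have hpow : ∀ a ∈ A, ∃ n : ℕ, n < 4 ∧ a = u ^ n := by
    intro a ha
    obtain ⟨n, hn⟩ := hgen ⟨a, ha⟩
    have hn' : u ^ n = a := by simpa using congrArg Subtype.val hn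
    refine ⟨(n % 4).toNat, by omega, ?_⟩
    rw [← zpow_natCast, Int.toNat_of_nonneg (Int.emod_nonneg _ (by norm_num)), ← hn']
    conv_lhs => rw [← Int.emod_add_mul_ediv n 4, zpow_add, zpow_mul, show u ^ (4 : ℤ) = 1 by exact_mod_cast h4 u,
      one_zpow, mul_one]
  -- the centre is `{1, u ^ 2}`
  obtain ⟨z, hz, hz1⟩ : ∃ z ∈ Subgroup.center G, z ≠ 1 := by
    haveI := hp.center_nontrivial
    obtain ⟨z, hz⟩ := exists_ne (1 : Subgroup.center G)
    exact ⟨z.1, z.2, fun h => hz (Subtype.ext h)⟩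
  have huz : u ∉ Subgroup.center G := fun h => hmin fun l hl => by
    obtain ⟨n, -, rfl⟩ := hpow l (le_sup_left (a := L (k + 1)) hl)
    exact pow_mem h n
  have hu2 : u ^ 2 ∈ Subgroup.center G ∧ u ^ 2 ≠ 1 := by
    obtain ⟨n, hn, rfl⟩ := hpow z (le_sup_right (b := Subgroup.center G) hz)
    interval_cases n
    · exact absurd (pow_zero u) hz1
    · exact absurd (by simpa using hz) huz
    · exact ⟨hz, hz1⟩
    · refine absurd ?_ huz
      rw [show u = (u ^ 3)⁻¹ from eq_inv_of_mul_eq_one_left (by rw [← pow_succ', h4])]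
      exact inv_mem hz
  have hnc : ∀ a ∈ A, a ∉ Subgroup.center G → a ^ 2 ≠ 1 ∧ (∀ b ∈ A, ∃ n : ℕ, b = a ^ n) := by
    intro a ha hac
    obtain ⟨n, hn, rfl⟩ := hpow a ha
    have hn13 : n = 1 ∨ n = 3 := by
      interval_cases n
      · exact absurd (by simp) hac
      · exact Or.inl rfl
      · exact absurd hu2.1 hac
      · exact Or.inr rfl
    refine ⟨?_, fun b hb => ?_⟩
    · rcases hn13 with rfl | rfl
      · simpa using hu2.2
      · rw [← pow_mul, show 3 * 2 = 4 + 2 from rfl, pow_add, h4, one_mul]; exact hu2.2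
    · obtain ⟨m, -, rfl⟩ := hpow b hb
      rcases hn13 with rfl | rfl
      · exact ⟨m, by simp⟩
      · refine ⟨3 * m, ?_⟩
        rw [← pow_mul, show 3 * (3 * m) = 4 * (2 * m) + m by ring, pow_add, pow_mul, h4, one_pow, one_mul]
  have hconj : ∀ g : G, g * u * g⁻¹ = u ∨ g * u * g⁻¹ = u⁻¹ := by
    intro g
    have hm : g * u * g⁻¹ ∈ A := (inferInstance : A.Normal).conj_mem u hu g
    obtain ⟨n, hn, he⟩ := hpow _ hm
    interval_cases n
    · exact absurd ((conj_eq_one_iff (a := g)).1 (he.trans (pow_zero u))) (fun h : u = 1 => huz (h ▸ one_mem _))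
    · exact Or.inl (by simpa using he)
    · refine absurd ?_ huz
      have := (inferInstance : (Subgroup.center G).Normal).conj_mem _ hu2.1 g⁻¹
      rw [← he] at this
      simpa [mul_assoc] using this
    · refine Or.inr (he.trans (eq_inv_of_mul_eq_one_left ?_))
      rw [← pow_succ, h4]
  obtain ⟨x, hx⟩ : ∃ x, x * u * x⁻¹ = u⁻¹ := by
    by_contra h
    push Not at h
    exact huz (Subgroup.mem_center_iff.2 fun g => mul_inv_eq_iff_eq_mul.1 ((hconj g).resolve_right (h g)))
  -- some `γ_k` element has a bracket outside the centre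
  obtain ⟨g, hg, h, hgh⟩ : ∃ g ∈ L k, ∃ h : G, g * h * g⁻¹ * h⁻¹ ∉ Subgroup.center G := by
    by_contra hne
    push Not at hne
    exact hmin (Subgroup.commutator_le.2 fun g hg h _ => hne g hg h)
  have hin : ∀ g ∈ L k, ∀ h : G, g * h * g⁻¹ * h⁻¹ ∈ A := fun g hg h =>
    le_sup_left (a := L (k + 1)) (Subgroup.commutator_mem_commutator hg (Subgroup.mem_top h))
  -- a pair, one fixing `u` and one inverting it, with bracket outside the centre
  obtain ⟨x, y, hx, hy, hA', hxy⟩ : ∃ x y, x * u * x⁻¹ = u⁻¹ ∧ y * u * y⁻¹ = u ∧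
      x * y * x⁻¹ * y⁻¹ ∈ A ∧ x * y * x⁻¹ * y⁻¹ ∉ Subgroup.center G := by
    have hsym : ∀ a b : G, b * a * b⁻¹ * a⁻¹ = (a * b * a⁻¹ * b⁻¹)⁻¹ := fun a b => by group
    have hmulc : ∀ a b : G, a * u * a⁻¹ = u⁻¹ → b * u * b⁻¹ = u⁻¹ → (a * b) * u * (a * b)⁻¹ = u := by
      intro a b ha hb
      calc a * b * u * (a * b)⁻¹ = a * (b * u * b⁻¹) * a⁻¹ := by group
        _ = (a * u * a⁻¹)⁻¹ := by rw [hb]; group
        _ = u := by rw [ha, inv_inv]
    have hmuli : ∀ a b : G, a * u * a⁻¹ = u → b * u * b⁻¹ = u⁻¹ → (a * b) * u * (a * b)⁻¹ = u⁻¹ := by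
      intro a b ha hb
      calc a * b * u * (a * b)⁻¹ = a * (b * u * b⁻¹) * a⁻¹ := by group
        _ = (a * u * a⁻¹)⁻¹ := by rw [hb]; group
        _ = u⁻¹ := by rw [ha]
    rcases hconj g with hgu | hgu <;> rcases hconj h with hhu | hhu
    · by_cases hgx : g * x * g⁻¹ * x⁻¹ ∈ Subgroup.center G
      · refine ⟨h * x, g, hmuli h x hhu hx, hgu, ?_, ?_⟩
        · rw [hsym g]; exact inv_mem (hin g hg _)
        · intro hc
          refine hgh ?_
          have e : g * h * g⁻¹ * h⁻¹ = (g * (h * x) * g⁻¹ * (h * x)⁻¹) * (h * (g * x * g⁻¹ * x⁻¹)⁻¹ * h⁻¹) := by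
            group
          rw [e]
          refine mul_mem ?_ ((inferInstance : (Subgroup.center G).Normal).conj_mem _ (inv_mem hgx) h)
          rw [hsym (h * x)]; exact inv_mem hc
      · refine ⟨x, g, hx, hgu, ?_, ?_⟩ <;> rw [hsym g]
        · exact inv_mem (hin g hg x)
        · exact fun hc => hgx (by simpa using inv_mem hc)
    · refine ⟨h, g, hhu, hgu, ?_, ?_⟩ <;> rw [hsym g]
      · exact inv_mem (hin g hg h)
      · exact fun hc => hgh (by simpa using inv_mem hc)
    · exact ⟨g, h, hgu, hhu, hin g hg h, hgh⟩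
    · refine ⟨g, h * g, hgu, hmulc h g hhu hgu, hin g hg _, ?_⟩
      have e : g * (h * g) * g⁻¹ * (h * g)⁻¹ = g * h * g⁻¹ * h⁻¹ := by group
      rwa [e]
  obtain ⟨ha2, hgena⟩ := hnc _ hA' hxy
  obtain ⟨m, hm⟩ := hgena u hu
  obtain ⟨l, -, hl⟩ := hpow _ hA'
  have hcp : ∀ (g w : G) (n : ℕ), g * w ^ n * g⁻¹ = (g * w * g⁻¹) ^ n := fun g w n => (conj_pow (i := n)).symm
  exact no_inverted_commutator h4 ha2 (by rw [hl, hcp, hx, inv_pow]) (by rw [hl, hcp, hy]) rfl

section Mat

variable {ι : Type} [Fintype ι] [DecidableEq ι] {F : Type*} [Field F]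

/-- Signed matrix data: commutators and squares are signs, and only scalars commute with the group. -/
structure Data (R : Subgroup (GL ι F)) : Prop where
  sign : ∀ x ∈ R, ∀ y ∈ R, (x : Matrix ι ι F) * y = (y : Matrix ι ι F) * x ∨
    (x : Matrix ι ι F) * y = -((y : Matrix ι ι F) * x)
  sq : ∀ x ∈ R, (x : Matrix ι ι F) * x = 1 ∨ (x : Matrix ι ι F) * x = -1
  scalar : ∀ M : Matrix ι ι F, (∀ x ∈ R, M * (x : Matrix ι ι F) = (x : Matrix ι ι F) * M) →
    ∃ c : F, M = c • (1 : Matrix ι ι F)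

theorem data_of [Finite F] [Nonempty ι] {R : Subgroup (GL ι F)} (hs : Cfsg.Geo.IsSymplecticTypeGroup 2 R)
    (hi : Cfsg.Geo.ActsAbsolutelyIrreducibly (Cfsg.Geo.matrixSet R)) : Data R := by
  have hsc : ∀ M : Matrix ι ι F, (∀ x ∈ R, M * (x : Matrix ι ι F) = (x : Matrix ι ι F) * M) →
      ∃ c : F, M = c • (1 : Matrix ι ι F) := fun M hM => hi.2 M (by rintro _ ⟨g, hg, rfl⟩; exact hM g hg)
  have h4 : ∀ g : R, g ^ 4 = 1 := by
    intro g
    have h := Monoid.pow_exponent_eq_one g
    rw [hs.exponent_eq] at h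
    simpa using h
  have h4' : ∀ g ∈ R, (g : Matrix ι ι F) ^ 4 = 1 := fun g hg => by
    have := congrArg (fun t : R => ((t : GL ι F) : Matrix ι ι F)) (h4 ⟨g, hg⟩)
    simpa using this
  -- a scalar member
  have hscal : ∀ g ∈ R, ∀ c : F, (g : Matrix ι ι F) = c • 1 → c ^ 4 = 1 := by
    intro g hg c hc
    have h := h4' g hg
    rw [hc, smul_pow, one_pow] at h
    have := congrFun (congrFun h (Classical.arbitrary ι)) (Classical.arbitrary ι)
    simpa using this
  have hcen := commutator_le_center hs.pGroup h4 hs.cyclic_of_characteristic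
  have hcomm : ∀ x ∈ R, ∀ y ∈ R, ∃ c : F, c ^ 4 = 1 ∧
      (x : Matrix ι ι F) * y = c • ((y : Matrix ι ι F) * x) := by
    intro x hx y hy
    have hm : (⁅(⟨x, hx⟩ : R), ⟨y, hy⟩⁆ : R) ∈ Subgroup.center R :=
      hcen (commutator_def R ▸ Subgroup.commutator_mem_commutator (Subgroup.mem_top _) (Subgroup.mem_top _))
    set c := (⁅(⟨x, hx⟩ : R), ⟨y, hy⟩⁆ : R)
    obtain ⟨a, ha⟩ := hsc (c.1 : Matrix ι ι F) (fun z hz => by
      have := congrArg (fun t : R => ((t : GL ι F) : Matrix ι ι F)) (Subgroup.mem_center_iff.1 hm ⟨z, hz⟩)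
      simpa using this.symm)
    refine ⟨a, hscal _ c.2 a ha, ?_⟩
    have e : x * y = c.1 * (y * x) := by
      show x * y = x * y * x⁻¹ * y⁻¹ * (y * x)
      group
    rw [← Units.val_mul, e, Units.val_mul, Units.val_mul, ha, Matrix.smul_mul, one_mul]
  have hsign : ∀ x ∈ R, ∀ y ∈ R, (x : Matrix ι ι F) * y = (y : Matrix ι ι F) * x ∨
      (x : Matrix ι ι F) * y = -((y : Matrix ι ι F) * x) := by
    intro x hx y hy
    obtain ⟨c, hc4, hc⟩ := hcomm y hy x hx
    generalize hX : (x : Matrix ι ι F) = X at hc ⊢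
    generalize hY : (y : Matrix ι ι F) = Y at hc ⊢
    -- `(x y) ^ 4 = c ^ 6 x ^ 4 y ^ 4`
    have e1 : ∀ M : Matrix ι ι F, Y * (X * M) = c • (X * (Y * M)) := fun M => by
      rw [← mul_assoc, hc, Matrix.smul_mul, mul_assoc]
    have e : (X * Y) ^ 4 = c ^ 6 • (X ^ 4 * Y ^ 4) := by
      simp only [pow_succ, pow_zero, one_mul, mul_assoc, e1, hc, Matrix.mul_smul, Matrix.smul_mul, smul_smul]
    have hxy : (X * Y) ^ 4 = 1 := by
      rw [← hX, ← hY, ← Units.val_mul]; exact h4' _ (mul_mem hx hy)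
    rw [hxy, ← hX, ← hY, h4' x hx, h4' y hy, one_mul] at e
    have hc6 : c ^ 6 = 1 := by
      have := congrFun (congrFun e (Classical.arbitrary ι)) (Classical.arbitrary ι)
      simpa using this.symm
    have hc2 : c ^ 2 = 1 := by linear_combination hc6 - c ^ 2 * hc4
    rcases sq_eq_one_iff.1 hc2 with rfl | rfl
    · left; rw [hc, one_smul]
    · right; rw [hc, neg_smul, one_smul, neg_neg]
  refine ⟨hsign, fun x hx => ?_, hsc⟩
  obtain ⟨c, hc⟩ := hsc ((x : Matrix ι ι F) * x) (fun y hy => by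
    rcases hsign x hx y hy with e | e
    · rw [mul_assoc, e, ← mul_assoc, e, mul_assoc]
    · rw [mul_assoc, e, mul_neg, ← mul_assoc, e, neg_mul, neg_neg, mul_assoc])
  have h2 : c ^ 2 = 1 := by
    have h := h4' x hx
    rw [show 4 = 2 * 2 from rfl, pow_mul, pow_two (x : Matrix ι ι F), hc, smul_pow, one_pow] at h
    have := congrFun (congrFun h (Classical.arbitrary ι)) (Classical.arbitrary ι)
    simpa using this
  rcases sq_eq_one_iff.1 h2 with rfl | rfl
  · left; rw [hc, one_smul]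
  · right; rw [hc, neg_smul, one_smul]

end Mat

end CfsgLib.Classical.PrimeDerangement.Sympl
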