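import Mathlib.GroupTheory.Sylow
import Mathlib.GroupTheory.Nilpotent

/-!
Two conjugacy criteria for elements of prime order from Sylow's theorem.
-/

set_option autoImplicit false

namespace CfsgLib.Classical.PrimeDerangement.Sympl

open scoped Pointwise

variable {H : Type*} [Group H] [Finite H]

theorem exists_conj_mem {q : ℕ} [Fact q.Prime] {P : Sylow q H} {x : H} (hx : x ^ q = 1) :
    ∃ g : H, g⁻¹ * x * g ∈ P := by
  have hp : IsPGroup q (Subgroup.zpowers x) := by
    intro a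
    refine ⟨1, Subtype.ext ?_⟩
    obtain ⟨k, hk⟩ := Subgroup.mem_zpowers_iff.1 a.2
    rw [Subgroup.coe_pow, pow_one, ← hk, ← zpow_natCast, ← zpow_mul, mul_comm, zpow_mul, zpow_natCast, hx,
      one_zpow, Subgroup.coe_one]
  obtain ⟨Q, hQ⟩ := hp.exists_le_sylow
  obtain ⟨g, hg⟩ := MulAction.exists_smul_eq H P Q
  refine ⟨g, ?_⟩
  have hxQ : x ∈ (g • P : Sylow q H) := hg ▸ hQ (Subgroup.mem_zpowers x)
  have h2 : x ∈ MulAut.conj g • (P : Subgroup H) := hxQ
  rw [Subgroup.mem_pointwise_smul_iff_inv_smul_mem] at h2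
  have h3 : g⁻¹ * x * g ∈ (P : Subgroup H) := by simpa [MulAut.smul_def, mul_assoc] using h2
  exact h3

/-- Elements of order `q` are conjugate into any subgroup of order `q` when commuting ones generate the same group. -/
theorem conj_into_zpowers {q : ℕ} [Fact q.Prime]
    (hcl : ∀ a b : H, a ^ q = 1 → a ≠ 1 → b ^ q = 1 → a * b = b * a → b ∈ Subgroup.zpowers a)
    {h : H} (hh : h ^ q = 1) (hh1 : h ≠ 1) {x : H} (hx : x ^ q = 1) :
    ∃ g : H, g⁻¹ * x * g ∈ Subgroup.zpowers h := by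
  obtain ⟨P⟩ : Nonempty (Sylow q H) := inferInstance
  obtain ⟨a, ha⟩ := exists_conj_mem (P := P) hh
  obtain ⟨b, hb⟩ := exists_conj_mem (P := P) hx
  set h' := a⁻¹ * h * a with hh'
  set x' := b⁻¹ * x * b with hx'
  have hconj : ∀ (u t : H), t ^ q = 1 → (u⁻¹ * t * u) ^ q = 1 := fun u t ht => by
    have := conj_pow (i := q) (a := u⁻¹) (b := t)
    rw [inv_inv] at this
    rw [this, ht, mul_one, inv_mul_cancel]
  have h1' : h' ≠ 1 := fun e => hh1 (by
    have : h = a * h' * a⁻¹ := by rw [hh']; group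
    rw [this, e, mul_one, mul_inv_cancel])
  haveI : Nontrivial (P : Subgroup H) := ⟨⟨h', ha⟩, 1, fun e => h1' (congrArg Subtype.val e)⟩
  haveI := P.2.center_nontrivial
  obtain ⟨z, hz⟩ : ∃ z : Subgroup.center (P : Subgroup H), orderOf z = q := by
    haveI : Finite (P : Subgroup H) := inferInstance
    obtain ⟨k, hk⟩ := (P.2.to_subgroup (Subgroup.center (P : Subgroup H))).exists_card_eq
    refine exists_prime_orderOf_dvd_card' q ?_
    rw [hk]
    refine dvd_pow_self q fun h0 => ?_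
    have h2 := Finite.one_lt_card (α := Subgroup.center (P : Subgroup H))
    rw [hk, h0, pow_zero] at h2
    exact lt_irrefl _ h2
  set z' : H := ((z : (P : Subgroup H)) : H) with hz'
  have hzq : z' ^ q = 1 := by
    have h5 := pow_orderOf_eq_one z
    have : z ^ q = 1 := (congrArg (fun m => z ^ m) hz).symm.trans h5
    exact congrArg (fun t : Subgroup.center (P : Subgroup H) => ((t : (P : Subgroup H)) : H)) this
  have hz1 : z' ≠ 1 := fun e => (Fact.out : q.Prime).ne_one (by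
    rw [← hz, orderOf_eq_one_iff]; exact Subtype.ext (Subtype.ext e))
  have hzc : ∀ t ∈ (P : Subgroup H), t * z' = z' * t := fun t ht =>
    congrArg Subtype.val (Subgroup.mem_center_iff.1 z.2 ⟨t, ht⟩)
  have e1 : z' ∈ Subgroup.zpowers h' := hcl h' z' (hconj _ _ hh) h1' hzq (hzc h' ha)
  have e2 : x' ∈ Subgroup.zpowers z' := hcl z' x' hzq hz1 (hconj _ _ hx) (hzc x' hb).symm
  obtain ⟨k, hk⟩ := Subgroup.mem_zpowers_iff.1 (Subgroup.zpowers_le.2 e1 e2)
  refine ⟨b * a⁻¹, Subgroup.mem_zpowers_iff.2 ⟨k, ?_⟩⟩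
  have e : h' ^ k = a⁻¹ * h ^ k * a := by
    have := map_zpow (MulAut.conj a⁻¹).toMonoidHom h k
    simpa [hh'] using this.symm
  calc h ^ k = a * (h' ^ k) * a⁻¹ := by rw [e]; group
    _ = a * x' * a⁻¹ := by rw [hk]
    _ = (b * a⁻¹)⁻¹ * x * (b * a⁻¹) := by rw [hx']; group

/-- Elements of order 3 are conjugate into an elementary abelian subgroup of order 9 which contains all
such elements centralising it and has two of its lines distinguished. -/
theorem conj_into_pair {a b : H} (ha : a ^ 3 = 1) (hb : b ^ 3 = 1) (hab : a * b = b * a)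
    (hcl : ∀ y : H, y ^ 3 = 1 → y * a = a * y → y * b = b * y → y ∈ Subgroup.closure {a, b})
    (htype : ∀ g : H, g * a * g⁻¹ ∈ Subgroup.closure ({a, b} : Set H) →
      g * a * g⁻¹ ∈ ({a, a⁻¹, b, b⁻¹} : Set H))
    (htype' : ∀ g : H, g * b * g⁻¹ ∈ Subgroup.closure ({a, b} : Set H) →
      g * b * g⁻¹ ∈ ({a, a⁻¹, b, b⁻¹} : Set H))
    {x : H} (hx : x ^ 3 = 1) : ∃ g : H, g⁻¹ * x * g ∈ Subgroup.closure ({a, b} : Set H) := by
  haveI : Fact (Nat.Prime 3) := ⟨Nat.prime_three⟩
  set E := Subgroup.closure ({a, b} : Set H) with hE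
  have haE : a ∈ E := Subgroup.subset_closure (by simp)
  have hbE : b ∈ E := Subgroup.subset_closure (by simp)
  have hEa : ∀ t ∈ E, t * a = a * t ∧ t * b = b * t ∧ t ^ 3 = 1 := by
    intro t ht
    obtain ⟨h1, h2, h3⟩ : t * a = a * t ∧ t * b = b * t ∧ ∃ m n : ℕ, t = a ^ m * b ^ n := by
      induction ht using Subgroup.closure_induction with
      | mem y hy =>
        rcases hy with rfl | rfl
        · exact ⟨rfl, hab, 1, 0, by simp⟩
        · exact ⟨hab.symm, rfl, 0, 1, by simp⟩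
      | one => exact ⟨by simp, by simp, 0, 0, by simp⟩
      | mul y y' _ _ hy hy' =>
        obtain ⟨h1, h2, m, n, rfl⟩ := hy
        obtain ⟨h1', h2', m', n', rfl⟩ := hy'
        refine ⟨(Commute.mul_left h1 h1'), (Commute.mul_left h2 h2'), m + m', n + n', ?_⟩
        have : Commute (b ^ n) (a ^ m') := Commute.pow_pow hab.symm _ _
        rw [mul_assoc, ← mul_assoc (b ^ n), this.eq, mul_assoc (a ^ m'), ← pow_add, ← mul_assoc, ← pow_add]
      | inv y _ hy =>
        obtain ⟨h1, h2, m, n, rfl⟩ := hy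
        refine ⟨Commute.inv_left h1, Commute.inv_left h2, 2 * m, 2 * n, ?_⟩
        have hc : Commute (a ^ m) (b ^ n) := Commute.pow_pow hab _ _
        refine inv_eq_of_mul_eq_one_right ?_
        rw [mul_assoc, ← mul_assoc (b ^ n), (Commute.pow_pow hab.symm n (2 * m)).eq, mul_assoc (a ^ (2 * m)),
          ← pow_add, ← mul_assoc, ← pow_add, show m + 2 * m = 3 * m by ring, show n + 2 * n = 3 * n by ring,
          pow_mul, pow_mul, ha, hb, one_pow, one_pow, one_mul]
    obtain ⟨m, n, rfl⟩ := h3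
    refine ⟨h1, h2, ?_⟩
    rw [(Commute.pow_pow hab m n).mul_pow, ← pow_mul, ← pow_mul, mul_comm m, mul_comm n, pow_mul, pow_mul, ha, hb,
      one_pow, one_pow, one_mul]
  have hEp : IsPGroup 3 E := fun t => ⟨1, Subtype.ext (by simpa using (hEa t.1 t.2).2.2)⟩
  obtain ⟨P, hP⟩ := hEp.exists_le_sylow
  set C : Subgroup (P : Subgroup H) := (Subgroup.centralizer {a, b}).subgroupOf (P : Subgroup H) with hC
  have hCtop : C = ⊤ := by
    haveI : Group.IsNilpotent (P : Subgroup H) := P.2.isNilpotent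
    by_contra hne
    obtain ⟨g, hgN, hgC⟩ := SetLike.exists_of_lt (Group.normalizerCondition_of_isNilpotent C (lt_top_iff_ne_top.2 hne))
    have haP : a ∈ (P : Subgroup H) := hP haE
    have hbP : b ∈ (P : Subgroup H) := hP hbE
    have hcent : ∀ t : H, t ∈ Subgroup.centralizer ({a, b} : Set H) ↔ t * a = a * t ∧ t * b = b * t := fun t => by
      rw [Subgroup.mem_centralizer_iff]
      constructor
      · exact fun h => ⟨(h a (by simp)).symm, (h b (by simp)).symm⟩
      · rintro ⟨h1, h2⟩ u (rfl | rfl)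
        · exact h1.symm
        · exact h2.symm
    have himg : ∀ u : H, u ∈ E → g.1 * u * g.1⁻¹ ∈ E := by
      intro u hu
      have hu' : (⟨u, hP hu⟩ : (P : Subgroup H)) ∈ C := (hcent u).2 ⟨(hEa u hu).1, (hEa u hu).2.1⟩
      have := (Subgroup.mem_normalizer_iff.1 hgN _).1 hu'
      rw [hC, Subgroup.mem_subgroupOf] at this
      obtain ⟨h1, h2⟩ := (hcent _).1 this
      refine hcl _ ?_ h1 h2
      rw [conj_pow, (hEa u hu).2.2, mul_one, mul_inv_cancel]
    have hA := htype g.1 (himg a haE)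
    have hB := htype' g.1 (himg b hbE)
    set c : H := g.1 with hc
    have hinv : ∀ t u : H, c * t * c⁻¹ = u → c * t⁻¹ * c⁻¹ = u⁻¹ := fun t u e => by rw [← e]; group
    have hstep : ∀ t : H, c ^ 2 * t * (c ^ 2)⁻¹ = c * (c * t * c⁻¹) * c⁻¹ := fun t => by rw [pow_two]; group
    have inj : ∀ t u : H, c * t * c⁻¹ = c * u * c⁻¹ → t = u := fun t u e => mul_left_cancel (mul_right_cancel e)
    obtain ⟨k, hk⟩ := P.2 g
    have hfix : ∀ t : H, (c ^ 4 * t * (c ^ 4)⁻¹ = t) → c * t = t * c := by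
      intro t e
      have hc4 : Commute (c ^ 4) t := mul_inv_eq_iff_eq_mul.1 e
      have hk' : c ^ (3 ^ k) = 1 := congrArg Subtype.val hk
      have hco : Nat.gcd 4 (3 ^ k) = 1 := Nat.Coprime.pow_right _ (by norm_num)
      have hb := Nat.gcd_eq_gcd_ab 4 (3 ^ k)
      rw [hco] at hb
      have : c = (c ^ 4) ^ Nat.gcdA 4 (3 ^ k) := by
        conv_lhs => rw [← zpow_one c, show (1 : ℤ) = ((1 : ℕ) : ℤ) from rfl, hb, zpow_add, zpow_mul, zpow_mul,
          zpow_natCast, zpow_natCast, hk', one_zpow, mul_one]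
      rw [this]
      exact hc4.zpow_left _
    have h4 : ∀ t : H, c ^ 4 * t * (c ^ 4)⁻¹ = c ^ 2 * (c ^ 2 * t * (c ^ 2)⁻¹) * (c ^ 2)⁻¹ := fun t => by
      rw [show c ^ 4 = c ^ 2 * c ^ 2 from pow_add c 2 2]; group
    have sq_inv : ∀ t : H, c ^ 2 * t * (c ^ 2)⁻¹ = t⁻¹ → c ^ 4 * t * (c ^ 4)⁻¹ = t := fun t e => by
      rw [h4, e, show c ^ 2 * t⁻¹ * (c ^ 2)⁻¹ = (c ^ 2 * t * (c ^ 2)⁻¹)⁻¹ by group, e, inv_inv]
    have sq_id : ∀ t : H, c ^ 2 * t * (c ^ 2)⁻¹ = t → c ^ 4 * t * (c ^ 4)⁻¹ = t := fun t e => by rw [h4, e, e]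
    have key : ∀ t u : H, t ^ 3 = 1 → (c * t * c⁻¹ ∈ ({t, t⁻¹, u, u⁻¹} : Set H)) →
        (c * u * c⁻¹ ∈ ({t, t⁻¹, u, u⁻¹} : Set H)) → c ^ 4 * t * (c ^ 4)⁻¹ = t := by
      intro t u _ ht hu
      have pm : (c * t * c⁻¹ = t ∨ c * t * c⁻¹ = t⁻¹) → c ^ 4 * t * (c ^ 4)⁻¹ = t := by
        rintro (e | e)
        · exact sq_id t (by rw [hstep, e, e])
        · exact sq_id t (by rw [hstep, e, hinv t _ e, inv_inv])
      rcases ht with e | e | e | e
      · exact pm (Or.inl e)
      · exact pm (Or.inr e)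
      all_goals
        rcases hu with f | f | f | f
        · first
            | exact sq_id t (by rw [hstep, e, f])
            | exact sq_inv t (by rw [hstep, e, hinv u _ f])
        · first
            | exact sq_inv t (by rw [hstep, e, f])
            | exact sq_id t (by rw [hstep, e, hinv u _ f, inv_inv])
        · first
            | (have h := inj _ _ (e.trans f.symm); exact pm (Or.inl (by rw [e, h])))
            | (have h := inj _ _ (e.trans (hinv u _ f).symm); exact pm (Or.inl (by rw [e, h])))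
        · first
            | (have h := inj _ _ (e.trans f.symm); exact pm (Or.inr (by rw [e, h])))
            | (have h := inj _ _ (e.trans (inv_inv u ▸ (hinv u _ f)).symm); exact pm (Or.inr (by rw [e, h, inv_inv])))
    apply hgC
    rw [hC, Subgroup.mem_subgroupOf]
    refine (hcent _).2 ⟨hfix a (key a b ha hA hB), hfix b (key b a hb ?_ ?_)⟩
    · simp only [Set.mem_insert_iff, Set.mem_singleton_iff] at hB ⊢
      tauto
    · simp only [Set.mem_insert_iff, Set.mem_singleton_iff] at hA ⊢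
      tauto
  obtain ⟨g, hg⟩ := exists_conj_mem (P := P) hx
  refine ⟨g, hcl _ ?_ ?_ ?_⟩
  · have := conj_pow (i := 3) (a := g⁻¹) (b := x)
    rw [inv_inv] at this
    rw [this, hx, mul_one, inv_mul_cancel]
  all_goals
    have hm : (⟨g⁻¹ * x * g, hg⟩ : (P : Subgroup H)) ∈ C := hCtop ▸ Subgroup.mem_top _
    rw [hC, Subgroup.mem_subgroupOf, Subgroup.mem_centralizer_iff] at hm
  · exact (hm a (by simp)).symm
  · exact (hm b (by simp)).symm

end CfsgLib.Classical.PrimeDerangement.Sympl
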