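import Cfsg.Agent.Classical.PrimeDerangement.Sympl.Frame
import Cfsg.Agent.Classical.PrimeDerangement.Sympl.Sylow
import Mathlib.GroupTheory.OrderOfElement
import Mathlib.FieldTheory.Finite.Basic

/-!
Elements of prime order of a four-dimensional linear or unitary group and the normaliser of a symplectic type
group of order 64.
-/

set_option autoImplicit false
set_option maxHeartbeats 1600000

namespace CfsgLib.Classical.PrimeDerangement.Sympl

open Matrix CfsgLib.Classical.PrimeDerangement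

variable {F : Type*} [Field F] [Fintype F]

/-- Roots of unity of order dividing `q - 1` lie in the field. -/
theorem exists_preimage_of_pow {x : (AlgebraicClosure F)} (hx : x ^ (Fintype.card F - 1) = 1) :
    ∃ a : Fˣ, algebraMap F (AlgebraicClosure F) (a : F) = x := by
  classical
  obtain ⟨g, hg⟩ := IsCyclic.exists_ofOrder_eq_natCard (α := Fˣ)
  have hcard : Nat.card Fˣ = Fintype.card F - 1 := by rw [Nat.card_eq_fintype_card, Fintype.card_units]
  have hq : Fintype.card F - 1 ≠ 0 := by rw [← hcard]; exact Nat.card_pos.ne'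
  haveI : NeZero (Fintype.card F - 1) := ⟨hq⟩
  have hprim : IsPrimitiveRoot (algebraMap F (AlgebraicClosure F) (g : F)) (Fintype.card F - 1) := by
    refine IsPrimitiveRoot.map_of_injective ?_ (algebraMap F (AlgebraicClosure F)).injective
    rw [IsPrimitiveRoot.coe_units_iff, ← hcard, ← hg]
    exact IsPrimitiveRoot.orderOf g
  obtain ⟨k, -, hk⟩ := hprim.eq_pow_of_pow_eq_one hx
  exact ⟨g ^ k, by rw [Units.val_pow_eq_pow_val, map_pow, hk]⟩

theorem exists_preimage_of_frob {p : ℕ} [Fact p.Prime] [CharP F p] {x : AlgebraicClosure F} (hx : x ^ p = x) :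
    ∃ a : F, algebraMap F (AlgebraicClosure F) a = x := by
  rcases eq_or_ne x 0 with rfl | h0
  · exact ⟨0, map_zero _⟩
  have h1 : x ^ (p - 1) = 1 := by
    refine mul_right_cancel₀ h0 ?_
    rw [← pow_succ, Nat.sub_add_cancel (Fact.out : p.Prime).one_le, hx, one_mul]
  obtain ⟨k, -, hk⟩ := FiniteField.card F p
  obtain ⟨d, hd⟩ : p - 1 ∣ Fintype.card F - 1 := by
    rw [hk]
    simpa using Nat.sub_dvd_pow_sub_pow p 1 (k : ℕ)
  obtain ⟨a, ha⟩ := exists_preimage_of_pow (x := x) (by rw [hd, pow_mul, h1, one_pow])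
  exact ⟨a, ha⟩

theorem toClosure_kron (a b : GL (Fin 2) F) :
    toClosure (kron (a, b)) = kron (toClosure a, toClosure b) := by
  refine Units.ext (Matrix.ext fun x y => ?_)
  fin_cases x <;> fin_cases y <;> simp [coe_toClosure, coe_kron, kronMat]

theorem five_mul : ∀ p e : ZMod 5, (e = 1 ∨ e = -1) → (p = 2 ∨ p = 3) → (e * p = 2 ∨ e * p = 3) := by decide

theorem three_mul : ∀ p e : ZMod 3, (e = 1 ∨ e = -1) → p ≠ 0 → p - e ≠ 0 → e * p = 2 := by decide

theorem uv_inj : ∀ p q : Fin 4,
    ((![1, 1, 2, 2] : Fin 4 → ZMod 3) q).val = ((![1, 1, 2, 2] : Fin 4 → ZMod 3) p).val →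
    ((![1, 2, 1, 2] : Fin 4 → ZMod 3) q).val = ((![1, 2, 1, 2] : Fin 4 → ZMod 3) p).val → p = q := by decide

theorem three_exps : ∀ f : Fin 4 → ZMod 3,
    (∀ a b k : ZMod 3,
      (Finset.univ.filter fun i => 2 * (f i + a * ![1, 1, 2, 2] i + b * ![1, 2, 1, 2] i) = k).card =
      (Finset.univ.filter fun i => (f i + a * ![1, 1, 2, 2] i + b * ![1, 2, 1, 2] i) = k).card) →
    ∃ a b : ZMod 3, ∀ i, f i = a * ![1, 1, 2, 2] i + b * ![1, 2, 1, 2] i := by
  decide +kernel

theorem five_cases : ∀ x : ZMod 5, x ≠ 0 → (x ^ 4 = 1 ∧ (x ^ 2 ≠ 1 ↔ (x = 2 ∨ x = 3))) := by decide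

theorem orderOf_eq_four_iff (x : ZMod 5) : orderOf x = 4 ↔ x = 2 ∨ x = 3 := by
  haveI : Fact (Nat.Prime 2) := ⟨Nat.prime_two⟩
  constructor
  · intro h
    have h0 : x ≠ 0 := by
      rintro rfl
      have := pow_orderOf_eq_one (0 : ZMod 5)
      rw [h] at this
      exact absurd this (by decide)
    refine (five_cases x h0).2.1 fun h2 => ?_
    have := orderOf_le_of_pow_eq_one (x := x) two_pos h2
    omega
  · intro h
    have h0 : x ≠ 0 := by rcases h with rfl | rfl <;> decide
    refine orderOf_eq_prime_pow (p := 2) (n := 1) ?_ (five_cases x h0).1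
    simpa using (five_cases x h0).2.2 h

variable (S : Sys F) {i : Fˣ} (hi2 : (i : F) * i = -1)

/-- The determinant one part of the ambient group. -/
abbrev Sys.H (S : Sys F) : Subgroup (GL (Fin 4) F) := S.A.G ⊓ Cfsg.Geo.specialLinear (Fin 4) F

theorem mem_H {g : GL (Fin 4) F} : g ∈ S.H ↔ g ∈ S.A.G ∧ Matrix.GeneralLinearGroup.det g = 1 :=
  Subgroup.mem_inf.trans (and_congr_right fun _ => MonoidHom.mem_ker)

theorem det_kron (a b : GL (Fin 2) F) :
    Matrix.GeneralLinearGroup.det (kron (a, b)) =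
      Matrix.GeneralLinearGroup.det a ^ 2 * Matrix.GeneralLinearGroup.det b ^ 2 :=
  Units.ext (by
    rw [Matrix.GeneralLinearGroup.val_det_apply, coe_kron, det_kronMat, Units.val_mul, Units.val_pow_eq_pow_val,
      Units.val_pow_eq_pow_val, Matrix.GeneralLinearGroup.val_det_apply, Matrix.GeneralLinearGroup.val_det_apply])

theorem det_gK (h2 : (2 : F) ≠ 0) : Matrix.GeneralLinearGroup.det (gK i hi2 h2) = 1 := by
  refine Units.ext ?_
  rw [Matrix.GeneralLinearGroup.val_det_apply, Units.val_one]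
  simp [gK, Matrix.det_fin_two]
  field_simp
  first | linear_combination (-2 : F) * hi2 | linear_combination (2 : F) * hi2

theorem gK_cube (h2 : (2 : F) ≠ 0) : gK i hi2 h2 ^ 3 = 1 := by
  have e : gK i hi2 h2 ^ 2 = (gK i hi2 h2)⁻¹ := by
    refine Units.ext (Matrix.ext fun a b => ?_)
    rw [pow_two]
    fin_cases a <;> fin_cases b <;> simp [gK, Matrix.mul_apply, Fin.sum_univ_two] <;> field_simp <;>
      first
        | ring1
        | linear_combination (2 : F) * hi2
        | linear_combination (-2 : F) * hi2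
        | linear_combination hi2
        | linear_combination -hi2
  rw [pow_succ, e, inv_mul_cancel]

theorem det_gW (h2 : (2 : F) ≠ 0) : Matrix.GeneralLinearGroup.det (gW hi2 h2) = 1 := by
  rw [gW, map_mul, map_mul, det_kron, det_kron, det_gK, map_one]
  refine Units.ext ?_
  simp [cnot, gS, d2, coe_permU, Matrix.det_succ_row_zero, Fin.sum_univ_succ, Fin.succAbove,
    Equiv.swap_apply_def]
  first | linear_combination -hi2 | linear_combination hi2

variable {R : Subgroup (GL (Fin 4) F)}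

theorem scalar_mem_normalizer {g : GL (Fin 4) F} {c : F} (hc : (g : Matrix (Fin 4) (Fin 4) F) = c • 1) :
    g ∈ Cfsg.Geo.subgroupNormalizer R := by
  refine Subgroup.mem_normalizer_iff.2 fun h => ?_
  have : g * h * g⁻¹ = h := by
    rw [mul_inv_eq_iff_eq_mul]
    exact Units.ext (by rw [Units.val_mul, Units.val_mul, hc, Matrix.smul_mul, one_mul, Matrix.mul_smul, mul_one])
  rw [this]

theorem conj_mem_normalizer [Finite R] {P h : GL (Fin 4) F} {M : Subgroup (GL (Fin 4) F)}
    (hR : M.map (MulAut.conj P).toMonoidHom = R) (hh : h ∈ Cfsg.Geo.subgroupNormalizer M) :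
    P * h * P⁻¹ ∈ Cfsg.Geo.subgroupNormalizer R := by
  refine Subgroup.mem_normalizer_iff_map_conj_eq.2 ?_
  conv_rhs => rw [← hR, ← Subgroup.mem_normalizer_iff_map_conj_eq.1 hh]
  conv_lhs => rw [← hR]
  rw [Subgroup.map_map, Subgroup.map_map]
  congr 1
  ext g : 1
  simp [mul_assoc]

theorem card_center_le_fix [Finite R] (D : Data R) (h : GL (Fin 4) F) :
    Nat.card (Subgroup.center R) ≤ Nat.card (fix R h) := by
  haveI : Finite (fix R h) := Finite.of_injective _ (Subgroup.inclusion_injective (inf_le_left : fix R h ≤ R))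
  rw [Nat.card_congr (Subgroup.equivMapOfInjective (Subgroup.center R) R.subtype R.subtype_injective).toEquiv]
  refine Subgroup.card_le_of_le ?_
  rintro _ ⟨g, hg, rfl⟩
  obtain ⟨c, hc⟩ := D.scalar ((g : GL (Fin 4) F) : Matrix (Fin 4) (Fin 4) F) fun x hx => by
    have := congrArg (fun t : R => ((t : GL (Fin 4) F) : Matrix (Fin 4) (Fin 4) F))
      (Subgroup.mem_center_iff.1 hg ⟨x, hx⟩)
    simpa using this.symm
  exact scalar_mem_fix g.2 hc

theorem fix_cases [Finite R] (D : Data R) (hR : Nat.card R = 64) (hZ : Nat.card (Subgroup.center R) = 4)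
    {r : ℕ} [Fact r.Prime] (hr : r ≠ 2) {h : GL (Fin 4) F}
    (hz : ∃ z : F, ((h ^ r : GL (Fin 4) F) : Matrix (Fin 4) (Fin 4) F) = z • 1)
    (hns : ∀ c : F, (h : Matrix (Fin 4) (Fin 4) F) ≠ c • 1) (hN : h ∈ Cfsg.Geo.subgroupNormalizer R) :
    (r = 3 ∧ (Nat.card (fix R h) = 4 ∨ Nat.card (fix R h) = 16)) ∨ (r = 5 ∧ Nat.card (fix R h) = 4) := by
  have hle : fix R h ≤ R := inf_le_left
  haveI : Finite (fix R h) := Finite.of_injective _ (Subgroup.inclusion_injective hle)
  obtain ⟨j, hj6, hj⟩ := (Nat.dvd_prime_pow Nat.prime_two).1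
    (show Nat.card (fix R h) ∣ 2 ^ 6 from by
      have := Subgroup.card_dvd_of_le hle
      rwa [hR] at this)
  have h4 := card_center_le_fix D h
  rw [hZ, hj] at h4
  have m := card_fix_modEq (r := r) hz hN R le_rfl fun g hg => conj_mem hN hg
  rw [show fix R h ⊓ R = fix R h from inf_eq_left.2 hle, hR, hj] at m
  have h8 := card_fix_ne_two_mul (r := r) D hr (k := 5) (by rw [hR]; rfl) hz hN
  rw [hZ, hj] at h8
  have h64 : j ≠ 6 := by
    rintro rfl
    have : fix R h = R := Subgroup.eq_of_le_of_card_ge hle (by rw [hj, hR]; norm_num)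
    obtain ⟨c, hc⟩ := scalar_of_fix_eq D this
    exact hns c hc
  have hrp := (Fact.out : r.Prime)
  have hd := (Nat.modEq_iff_dvd' (by
    calc 2 ^ j ≤ 2 ^ 6 := Nat.pow_le_pow_right (by norm_num) hj6
      _ = 64 := by norm_num)).1 m.symm
  rw [hj]
  interval_cases j
  all_goals
    first
      | exact absurd rfl h64
      | (norm_num at h4; done)
      | (norm_num at h8; done)
      | (norm_num at hd ⊢
         have hle60 := Nat.le_of_dvd (by norm_num) hd
         interval_cases r <;> first | omega | exact absurd hrp (by norm_num) | exact absurd hd (by norm_num) | norm_num)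

/-- A witness which is not conjugate into the normaliser. -/
theorem no_conj {r : ℕ} {x : GL (Fin 4) F}
    (hz : ∃ z : F, ((x ^ r : GL (Fin 4) F) : Matrix (Fin 4) (Fin 4) F) = z • 1)
    (hns : ∀ c : F, (x : Matrix (Fin 4) (Fin 4) F) ≠ c • 1)
    (hbad : ∀ h : GL (Fin 4) F, h ∈ Cfsg.Geo.subgroupNormalizer R →
      (∃ z : F, ((h ^ r : GL (Fin 4) F) : Matrix (Fin 4) (Fin 4) F) = z • 1) →
      (∀ c : F, (h : Matrix (Fin 4) (Fin 4) F) ≠ c • 1) → ∀ g : GL (Fin 4) F, h = g⁻¹ * x * g → False) :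
    ¬ ∃ g ∈ S.H, g⁻¹ * x * g ∈ Cfsg.Geo.subgroupNormalizer R := by
  rintro ⟨g, -, hgN⟩
  obtain ⟨z, hz⟩ := hz
  refine hbad _ hgN ⟨z, ?_⟩ (fun c hc => hns c ?_) g rfl
  · have := conj_pow (i := r) (a := g⁻¹) (b := x)
    rw [inv_inv] at this
    rw [this, Units.val_mul, Units.val_mul, hz, Matrix.mul_smul, mul_one, Matrix.smul_mul, Units.inv_mul]
  · have e : x = g * (g⁻¹ * x * g) * g⁻¹ := by group
    rw [e, Units.val_mul, Units.val_mul, hc, Matrix.mul_smul, mul_one, Matrix.smul_mul, Units.mul_inv]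

/-- Conjugate diagonalisable elements are conjugate by determinant one. -/
theorem exists_conj_diag {x P P' : GL (Fin 4) F} {d : Fin 4 → Fˣ} (hP : P ∈ S.A.G) (hP' : P' ∈ S.A.G)
    (hx : x * P = P * diagU d) : ∃ g ∈ S.H, g⁻¹ * x * g = P' * diagU d * P'⁻¹ := by
  set δ : Fˣ := Matrix.GeneralLinearGroup.det P' * (Matrix.GeneralLinearGroup.det P)⁻¹ with hδ
  set D : GL (Fin 4) F := diagU ![δ, 1, 1, 1]
  have hD : D ∈ S.A.G := S.A.diag_mem _ fun k => by
    fin_cases k <;> first | exact one_mem _ | exact mul_mem (S.A.det_mem _ hP') (inv_mem (S.A.det_mem _ hP))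
  refine ⟨P * D * P'⁻¹, (mem_H S).2 ⟨mul_mem (mul_mem hP hD) (inv_mem hP'), ?_⟩, ?_⟩
  · have hdet : Matrix.GeneralLinearGroup.det D = δ := Units.ext (by simp [D, Fin.prod_univ_four])
    rw [map_mul, map_mul, map_inv, hdet, hδ, mul_comm (Matrix.GeneralLinearGroup.det P'), ← mul_assoc,
      mul_inv_cancel, one_mul, mul_inv_cancel]
  · calc (P * D * P'⁻¹)⁻¹ * x * (P * D * P'⁻¹) = P' * (D⁻¹ * (P⁻¹ * (x * P)) * D) * P'⁻¹ := by group
      _ = P' * (D⁻¹ * (diagU d * D)) * P'⁻¹ := by rw [hx]; group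
      _ = P' * diagU d * P'⁻¹ := by
        rw [show diagU d * D = D * diagU d from diagU_comm _ _]; group

section main

variable [Finite R] {P : GL (Fin 4) F} (hP : P ∈ S.A.G)
  (hPR : (pauli i).map (MulAut.conj P).toMonoidHom = R)

include hP hPR hi2 in
/-- Scaled involutions. -/
theorem two_case (hin : i ∈ S.A.norms) {x : GL (Fin 4) F} (hx : x ∈ S.H) {z : F}
    (hz : ((x ^ 2 : GL (Fin 4) F) : Matrix (Fin 4) (Fin 4) F) = z • 1)
    (hns : ∀ c : F, (x : Matrix (Fin 4) (Fin 4) F) ≠ c • 1) :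
    ∃ g ∈ S.H, g⁻¹ * x * g ∈ Cfsg.Geo.subgroupNormalizer R := by
  haveI := S.char
  haveI : Fact S.p.Prime := ⟨S.prime⟩
  obtain ⟨hxG, hxd⟩ := (mem_H S).1 hx
  have h2 := S.two_ne
  have hdet : (x : Matrix (Fin 4) (Fin 4) F).det = 1 := by
    rw [← Matrix.GeneralLinearGroup.val_det_apply, hxd, Units.val_one]
  have hz4 : z ^ 4 = 1 := by
    have := congrArg Matrix.det hz
    rw [Units.val_pow_eq_pow_val, Matrix.det_pow, hdet, one_pow, Matrix.det_smul, Matrix.det_one, mul_one,
      Fintype.card_fin] at this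
    exact this.symm
  have hzi : z = 1 ∨ z = -1 ∨ z = i ∨ z = -(i : F) := by
    have : (z - 1) * (z + 1) * ((z - i) * (z + i)) = 0 := by linear_combination hz4 - (z ^ 2 - 1) * hi2
    rcases mul_eq_zero.1 this with h | h <;> rcases mul_eq_zero.1 h with h' | h'
    · exact Or.inl (sub_eq_zero.1 h')
    · exact Or.inr (Or.inl (eq_neg_of_add_eq_zero_left h'))
    · exact Or.inr (Or.inr (Or.inl (sub_eq_zero.1 h')))
    · exact Or.inr (Or.inr (Or.inr (eq_neg_of_add_eq_zero_left h')))
  have hn1 := S.neg_one_mem hin hi2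
  -- a square root among the norms
  by_cases hy : ∃ y ∈ S.A.norms, (y : F) ^ 2 = z
  · obtain ⟨y, hyn, hyz⟩ := hy
    have hm1 : IsPrimitiveRoot (-1 : Fˣ) 2 := by
      refine IsPrimitiveRoot.mk_of_lt _ two_pos (by rw [neg_one_sq]) fun l hl hl2 => ?_
      interval_cases l
      rw [pow_one]
      intro h
      have : (-1 : F) = 1 := by simpa using congrArg Units.val h
      exact h2 (by linear_combination -this)
    obtain ⟨Q, hQ, ex, hQx⟩ := S.A.eigen 2 (-1) y hm1 (by norm_num) (by exact_mod_cast h2) hn1 hyn x hxG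
      (by rw [← Units.val_pow_eq_pow_val, hz, hyz])
    set s : Fin 4 → Bool := fun k => decide (Odd (ex k)) with hs
    have hval : (fun k => y * (-1 : Fˣ) ^ ex k) = fun k => if s k then -y else y := by
      funext k
      rcases Nat.even_or_odd (ex k) with h | h
      · rw [h.neg_one_pow, mul_one, if_neg (by simp [hs, Nat.not_odd_iff_even.2 h])]
      · rw [h.neg_one_pow, mul_neg, mul_one, if_pos (by simp [hs, h])]
    rw [hval] at hQx
    have hne : y ≠ -y := fun h => h2 (by
      have h' : (y : F) = -(y : F) := by simpa using congrArg Units.val h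
      exact (mul_eq_zero.1 (show (2 : F) * (y : F) = 0 by linear_combination h')).resolve_right y.ne_zero)
    -- not all equal
    have hboth : (∃ a, s a = true) ∧ ∃ a, s a = false := by
      constructor <;> by_contra h <;> push Not at h <;>
        refine hns (if s 0 then -(y : F) else y) ?_ <;>
        · have e : x = Q * diagU (fun k => if s k then -y else y) * Q⁻¹ := by rw [← hQx, mul_inv_cancel_right]
          have ed : ((diagU (fun k => if s k then -y else y) : GL (Fin 4) F) : Matrix (Fin 4) (Fin 4) F) =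
              (if s 0 then -(y : F) else y) • 1 := by
            rw [coe_diagU, Matrix.smul_one_eq_diagonal]
            congr 1
            funext k
            simp [h k, h 0]
          rw [e, Units.val_mul, Units.val_mul, ed, Matrix.mul_smul, mul_one, Matrix.smul_mul, Units.mul_inv]
    have hy4 : (y : F) ^ 4 = z ^ 2 := by rw [← hyz, ← pow_mul]
    have hprod : (-1 : F) ^ (Finset.univ.filter fun k => s k = true).card * z ^ 2 = 1 := by
      have e : x = Q * diagU (fun k => if s k then -y else y) * Q⁻¹ := by rw [← hQx, mul_inv_cancel_right]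
      refine Eq.trans ?_ hdet
      rw [e, Units.val_mul, Units.val_mul, Matrix.det_units_conj, coe_diagU, Matrix.det_diagonal, ← hy4]
      have e1 : ∀ k, ((if s k then -y else y : Fˣ) : F) = (if s k = true then -1 else 1) * (y : F) := fun k => by
        cases s k <;> simp
      rw [Finset.prod_congr rfl fun k _ => e1 k, Finset.prod_mul_distrib, Finset.prod_ite, Finset.prod_const,
        Finset.prod_const_one, mul_one, Finset.prod_const, Finset.card_univ, Fintype.card_fin]
    have perm : ∀ s : Fin 4 → Bool, (∃ a, s a = true) → (∃ a, s a = false) →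
        ∃ σ : Equiv.Perm (Fin 4), s ∘ σ = ![false, false, true, true] ∨ s ∘ σ = ![false, false, false, true] ∨
          s ∘ σ = ![true, true, true, false] := by decide
    obtain ⟨σ, hσ⟩ := perm s hboth.1 hboth.2
    have hQσ : Q * permU σ ∈ S.A.G := mul_mem hQ (S.A.perm_mem σ)
    have hxσ : x * (Q * permU σ) = Q * permU σ * diagU ((fun k => if s k then -y else y) ∘ σ) := by
      rw [← mul_assoc, hQx, mul_assoc, mul_assoc, permU_diagU σ]
      congr 2
      congr 1
      funext k
      simp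
    obtain ⟨g, hg, hgx⟩ := exists_conj_diag S hQσ hP hxσ
    refine ⟨g, hg, hgx ▸ conj_mem_normalizer hPR ?_⟩
    have hsc : ∀ c : Fˣ, diagU (fun _ : Fin 4 => c) ∈ Cfsg.Geo.subgroupNormalizer (pauli i) := fun c =>
      scalar_mem_normalizer (c := (c : F)) (by rw [coe_diagU, Matrix.smul_one_eq_diagonal])
    have hcomp : ((fun k => if s k then -y else y) ∘ σ) = fun k => if (s ∘ σ) k then -y else y := rfl
    rw [hcomp]
    rcases hσ with h | h | h <;> rw [h]
    · have e : (fun k : Fin 4 => if (![false, false, true, true] : Fin 4 → Bool) k then -y else y) =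
          (fun _ : Fin 4 => y) * ![1, 1, -1, -1] := by funext k; fin_cases k <;> simp
      rw [e, ← diagU_mul, ← kron_σz_one]
      exact mul_mem (hsc y) (Subgroup.le_normalizer (gens_mem (by simp [pauliGens])))
    · have e : (fun k : Fin 4 => if (![false, false, false, true] : Fin 4 → Bool) k then -y else y) =
          (fun _ : Fin 4 => y) * ![1, 1, 1, -1] := by funext k; fin_cases k <;> simp
      rw [e, ← diagU_mul]
      exact mul_mem (hsc y) cz_mem_normalizer
    · have e : (fun k : Fin 4 => if (![true, true, true, false] : Fin 4 → Bool) k then -y else y) =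
          (fun _ : Fin 4 => -y) * ![1, 1, 1, -1] := by funext k; fin_cases k <;> simp
      rw [e, ← diagU_mul]
      exact mul_mem (hsc (-y)) cz_mem_normalizer
  · exfalso
    push Not at hy
    have hz2 : z ^ 2 = -1 := by
      rcases hzi with rfl | rfl | rfl | rfl
      · exact absurd (by simp) (hy 1 (one_mem _))
      · exact absurd (by rw [pow_two]; exact hi2) (hy i hin)
      · rw [pow_two, hi2]
      · rw [neg_sq, pow_two, hi2]
    have hz0 : z ≠ 0 := fun h => by rw [h] at hz4; simp at hz4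
    obtain ⟨y', hy'⟩ := IsAlgClosed.exists_pow_nat_eq (algebraMap F (AlgebraicClosure F) z) two_pos
    have hy0 : y' ≠ 0 := fun h => hz0 ((algebraMap F (AlgebraicClosure F)).injective (by
      rw [← hy', h, map_zero, zero_pow two_ne_zero]))
    set y := Units.mk0 y' hy0
    -- `z` is a norm
    have hzn : z ^ S.m = 1 := by
      have him : (i : F) ^ S.m = 1 := by rw [← Units.val_pow_eq_pow_val, (S.norms_iff i).1 hin, Units.val_one]
      have hn : (-1 : F) ^ S.m = 1 := by
        rw [show (-1 : F) = (((-1 : Fˣ)) : F) by simp, ← Units.val_pow_eq_pow_val, (S.norms_iff _).1 hn1,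
          Units.val_one]
      rcases hzi with rfl | rfl | rfl | rfl
      · exact one_pow _
      · exact hn
      · exact him
      · rw [neg_pow, hn, one_mul, him]
    have hym : y' ^ S.m = -1 := by
      have h1 : (y' ^ S.m) ^ 2 = 1 := by
        rw [← pow_mul, mul_comm, pow_mul, hy', ← map_pow, hzn, map_one]
      refine (sq_eq_one_iff.1 h1).resolve_left fun h => ?_
      obtain ⟨d, hd⟩ := S.m_dvd
      obtain ⟨a, ha⟩ := exists_preimage_of_pow (x := y') (by rw [hd, pow_mul, h, one_pow])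
      refine hy a ((S.norms_iff a).2 (Units.ext ((algebraMap F (AlgebraicClosure F)).injective ?_))) ?_
      · rw [Units.val_pow_eq_pow_val, map_pow, ha, h, Units.val_one, map_one]
      · exact (algebraMap F (AlgebraicClosure F)).injective (by rw [map_pow, ha, hy'])
    refine no_root_involution S.twist h2 hxG (z := z) (by rw [← Units.val_mul, ← pow_two, hz]) hz2 hdet (y := y)
      hy' ?_ (S.prime.odd_of_ne_two S.p_ne_two) (by rcases S.he with e | e <;> rw [e] <;> decide)
    have hyu : y ^ S.m = -1 := Units.ext (by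
      rw [Units.val_pow_eq_pow_val, Units.val_neg, Units.val_one]; exact hym)
    rw [← zpow_natCast, show (S.p : ℤ) = S.m + S.e by rw [S.hm]; ring, _root_.zpow_add, zpow_natCast, hyu,
      neg_one_mul]

omit [Finite R] in
theorem scale_root {r k : ℕ} {z : F} {x : GL (Fin 4) F} {c : Fˣ} (hc : (c : F) = z ^ k)
    (hz : ((x ^ r : GL (Fin 4) F) : Matrix (Fin 4) (Fin 4) F) = z • 1) (hk : z ^ (r * k + 1) = 1) :
    (x * diagU fun _ => c) ^ r = 1 := by
  have hcm : Commute x (diagU fun _ => c) := by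
    refine Units.ext (Matrix.ext fun a b => ?_)
    simp [Matrix.mul_diagonal, Matrix.diagonal_mul, mul_comm]
  refine Units.ext ?_
  rw [hcm.mul_pow, Units.val_mul, hz, Units.val_pow_eq_pow_val, coe_diagU, Matrix.diagonal_pow, Units.val_one,
    Matrix.smul_mul, one_mul, ← Matrix.diagonal_smul, ← Matrix.diagonal_one]
  congr 1
  funext a
  simp only [Pi.smul_apply, Pi.pow_apply, smul_eq_mul, hc, ← pow_mul]
  rw [← pow_succ', mul_comm k]
  exact hk

include hP hPR hi2 in
/-- Elements of order 5 when the multiplicative order of `p` modulo 5 is 4. -/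
theorem five_case (hin : i ∈ S.A.norms) (hord : orderOf (S.p : ZMod 5) = 4) {x : GL (Fin 4) F} (hx : x ∈ S.H)
    (hx5 : x ^ 5 = 1) : ∃ g ∈ S.H, g⁻¹ * x * g ∈ Cfsg.Geo.subgroupNormalizer R := by
  haveI : Fact (Nat.Prime 5) := ⟨by norm_num⟩
  haveI := S.char
  have h2 := S.two_ne
  have hc0 := (orderOf_eq_four_iff _).1 hord
  have hc : (S.e : ZMod 5) * S.p = 2 ∨ (S.e : ZMod 5) * S.p = 3 := by
    exact five_mul _ _ (by rcases S.he with e | e <;> simp [e]) hc0
  have h5 : (5 : F) ≠ 0 := by
    intro h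
    have := (Nat.prime_dvd_prime_iff_eq S.prime (by norm_num : Nat.Prime 5)).1
      ((CharP.cast_eq_zero_iff F S.p 5).1 (by exact_mod_cast h))
    rw [this] at hc0
    revert hc0; decide
  set h : GL (Fin 4) F := P * gW hi2 h2 * P⁻¹ with hh
  have hhH : h ∈ S.H := (mem_H S).2 ⟨mul_mem (mul_mem hP (gW_mem S hin hi2)) (inv_mem hP), by
    rw [hh, map_mul, map_mul, map_inv, det_gW, mul_one, mul_inv_cancel]⟩
  have hh5 : h ^ 5 = 1 := by rw [hh, conj_pow, gW_pow_five, mul_one, mul_inv_cancel]
  have hh1 : h ≠ 1 := by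
    intro e
    have e' : gW hi2 h2 = 1 := by
      have : gW hi2 h2 = P⁻¹ * h * P := by rw [hh]; group
      rw [this, e]; group
    have e03 := congrFun (congrFun (congrArg (fun t : GL (Fin 4) F => (t : Matrix (Fin 4) (Fin 4) F)) e') 0) 3
    simp only [coe_gW] at e03
    simp [h2] at e03
    have h1 : (i : F) = 1 := by linear_combination e03
    exact h2 (by rw [h1] at hi2; linear_combination hi2)
  obtain ⟨g, hg⟩ := conj_into_zpowers (H := S.H) (q := 5)
    (fun a b ha ha1 hb hab => by
      obtain ⟨k, hk⟩ := commute_five S.twist S.he h5 hc ((mem_H S).1 a.2).1 ((mem_H S).1 b.2).1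
        (congrArg Subtype.val ha) (congrArg Subtype.val hb) (fun e => ha1 (Subtype.ext e))
        (congrArg Subtype.val hab)
      exact Subgroup.mem_zpowers_iff.2 ⟨k, Subtype.ext (by rw [zpow_natCast, Subgroup.coe_pow, hk])⟩)
    (h := ⟨h, hhH⟩) (Subtype.ext hh5) (fun e => hh1 (congrArg Subtype.val e)) (x := ⟨x, hx⟩) (Subtype.ext hx5)
  refine ⟨g.1, g.2, ?_⟩
  obtain ⟨k, hk⟩ := Subgroup.mem_zpowers_iff.1 hg
  have e : g.1⁻¹ * x * g.1 = h ^ k := by simpa using (congrArg Subtype.val hk).symm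
  rw [e]
  exact zpow_mem (conj_mem_normalizer hPR (gW_mem_normalizer hi2 h2)) k

include hP hPR hi2 in
/-- Elements of order 3 when there is no cube root of unity among the norms. -/
theorem three_case (hin : i ∈ S.A.norms) (hm : ¬ 3 ∣ S.m) (hp3 : S.p ≠ 3) {x : GL (Fin 4) F} (hx : x ∈ S.H)
    (hx3 : x ^ 3 = 1) : ∃ g ∈ S.H, g⁻¹ * x * g ∈ Cfsg.Geo.subgroupNormalizer R := by
  haveI : Fact (Nat.Prime 3) := ⟨Nat.prime_three⟩
  haveI := S.char
  have h2 := S.two_ne
  have h3 : (3 : F) ≠ 0 := fun h => hp3 ((Nat.prime_dvd_prime_iff_eq S.prime Nat.prime_three).1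
    ((CharP.cast_eq_zero_iff F S.p 3).1 (by exact_mod_cast h)))
  have hc : (S.e : ZMod 3) * S.p = 2 := by
    refine three_mul _ _ (by rcases S.he with e | e <;> simp [e]) ?_ ?_
    · rw [Ne, ZMod.natCast_eq_zero_iff]
      exact fun h => hp3 ((Nat.prime_dvd_prime_iff_eq Nat.prime_three S.prime).1 h).symm
    · intro h
      refine hm ((ZMod.natCast_eq_zero_iff _ 3).1 ?_)
      have := congrArg (fun t : ℤ => (t : ZMod 3)) S.hm
      simp only [Int.cast_natCast, Int.cast_sub] at this
      rw [this, h]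
  set K := gK i hi2 h2 with hK
  set k1 : GL (Fin 4) F := kron (K, 1) with hk1
  set k2 : GL (Fin 4) F := kron (1, K) with hk2
  have hk13 : k1 ^ 3 = 1 := by rw [hk1, ← map_pow, Prod.pow_mk, hK, gK_cube, one_pow]; exact map_one _
  have hk23 : k2 ^ 3 = 1 := by rw [hk2, ← map_pow, Prod.pow_mk, hK, gK_cube, one_pow]; exact map_one _
  have hk12 : k1 * k2 = k2 * k1 := by rw [hk1, hk2, ← map_mul, ← map_mul]; simp
  have hk1G : k1 ∈ S.A.G := gK_left_mem S hin hi2
  have hk2G : k2 ∈ S.A.G := gK_right_mem S hin hi2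
  have hH : ∀ k : GL (Fin 4) F, k ∈ S.A.G → Matrix.GeneralLinearGroup.det k = 1 → P * k * P⁻¹ ∈ S.H :=
    fun k hk hd => (mem_H S).2 ⟨mul_mem (mul_mem hP hk) (inv_mem hP), by
      rw [map_mul, map_mul, map_inv, hd, mul_one, mul_inv_cancel]⟩
  set a : S.H := ⟨P * k1 * P⁻¹, hH _ hk1G (by rw [hk1, det_kron, hK, det_gK, map_one, one_pow, one_mul])⟩ with ha
  set b : S.H := ⟨P * k2 * P⁻¹, hH _ hk2G (by rw [hk2, det_kron, hK, det_gK, map_one, one_pow, one_mul])⟩ with hb
  have ha3 : a ^ 3 = 1 := Subtype.ext (by rw [Subgroup.coe_pow, ha, conj_pow, hk13]; simp)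
  have hb3 : b ^ 3 = 1 := Subtype.ext (by rw [Subgroup.coe_pow, hb, conj_pow, hk23]; simp)
  have hab : a * b = b * a := Subtype.ext (by
    show P * k1 * P⁻¹ * (P * k2 * P⁻¹) = P * k2 * P⁻¹ * (P * k1 * P⁻¹)
    calc _ = P * (k1 * k2) * P⁻¹ := by group
      _ = _ := by rw [hk12]; group)
  obtain ⟨ζ, hζ⟩ := exists_zeta F (r := 3) (by exact_mod_cast h3)
  have hζ3 : (ζ : AlgebraicClosure F) ^ 3 = 1 := (IsPrimitiveRoot.coe_units_iff.2 hζ).pow_eq_one
  set w : AlgebraicClosure F := (ζ : AlgebraicClosure F) with hw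
  have hw2 : w ^ 2 + w + 1 = 0 := by
    have hne : w ≠ 1 := (IsPrimitiveRoot.coe_units_iff.2 hζ).ne_one (by norm_num)
    refine (mul_eq_zero.1 (show (w - 1) * (w ^ 2 + w + 1) = 0 by linear_combination hζ3)).resolve_left ?_
    exact sub_ne_zero.2 hne
  set I : AlgebraicClosure F := algebraMap F _ (i : F) with hI
  have hI2 : I * I = -1 := by rw [hI, ← map_mul, hi2, map_neg, map_one]
  have h2L : (2 : AlgebraicClosure F) ≠ 0 := fun h => h2 ((algebraMap F (AlgebraicClosure F)).injective (by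
    rw [map_zero, map_ofNat]; exact h))
  -- eigenvectors of `K`
  let Vm : Matrix (Fin 2) (Fin 2) (AlgebraicClosure F) := !![1 + I, 1 + I; 2 * w + 1 - I, 2 * w ^ 2 + 1 - I]
  have hVdet : Vm.det ≠ 0 := by
    have e : Vm.det = (1 + I) * 2 * (w ^ 2 - w) := by simp [Vm, Matrix.det_fin_two]; ring
    rw [e]
    have hw0 : w ≠ 0 := ζ.ne_zero
    have hw1 : w ≠ 1 := (IsPrimitiveRoot.coe_units_iff.2 hζ).ne_one (by norm_num)
    refine mul_ne_zero (mul_ne_zero ?_ h2L) ?_
    · intro h
      exact h2L (by linear_combination hI2 - (I - 1) * h)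
    · intro h
      exact hw1 (mul_left_cancel₀ hw0 (by linear_combination h))
  set V : GL (Fin 2) (AlgebraicClosure F) := Matrix.GeneralLinearGroup.mk'' Vm (isUnit_iff_ne_zero.2 hVdet)
  have hKV : toClosure K * V = V * d2 ζ (ζ ^ 2) := by
    refine Units.ext (Matrix.ext fun p q => ?_)
    show ((K : Matrix (Fin 2) (Fin 2) F).map (algebraMap F (AlgebraicClosure F)) * Vm) p q =
      (Vm * ((d2 ζ (ζ ^ 2) : GL (Fin 2) (AlgebraicClosure F)) : Matrix (Fin 2) (Fin 2) (AlgebraicClosure F))) p q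
    fin_cases p <;> fin_cases q <;>
      simp [hK, gK, Vm, d2, Matrix.mul_apply, Fin.sum_univ_two, map_ofNat, ← hI, ← hw] <;>
      field_simp <;> first
        | ring1
        | linear_combination (2 : AlgebraicClosure F) * hI2 - (4 : AlgebraicClosure F) * hw2
        | linear_combination (2 : AlgebraicClosure F) * hI2 - (4 : AlgebraicClosure F) * hw2 - (4 : AlgebraicClosure F) * w * hζ3
        | linear_combination (-2 : AlgebraicClosure F) * hI2 + (4 : AlgebraicClosure F) * hw2 + (4 : AlgebraicClosure F) * w * hζ3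
        | linear_combination (-2 : AlgebraicClosure F) * hI2 + (4 : AlgebraicClosure F) * hw2
  set VV : GL (Fin 4) (AlgebraicClosure F) := kron (V, V) with hVV
  set u : Fin 4 → ZMod 3 := ![1, 1, 2, 2] with hu
  set v : Fin 4 → ZMod 3 := ![1, 2, 1, 2] with hv
  set ψ : (Fin 4 → ZMod 3) → GL (Fin 4) (AlgebraicClosure F) := fun f => diagU fun k => ζ ^ (f k).val with hψ
  have hψadd : ∀ f f', ψ f * ψ f' = ψ (f + f') := fun f f' => by
    rw [hψ, diagU_mul]
    congr 1
    funext k
    rw [Pi.mul_apply, ← pow_add, Pi.add_apply, ZMod.val_add]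
    conv_lhs => rw [← pow_mod_orderOf, ← hζ.eq_orderOf]
  have hψu : toClosure k1 * VV = VV * ψ u := by
    rw [hk1, toClosure_kron, map_one, hVV, ← map_mul]
    have e : ψ u = kron (d2 ζ (ζ ^ 2), 1) := by
      refine Units.ext (Matrix.ext fun p q => ?_)
      fin_cases p <;> fin_cases q <;> simp [hψ, hu, coe_kron, kronMat, d2, ZMod.val_one, show (2 : ZMod 3).val = 2 from rfl]
    rw [e, ← map_mul]
    simp [hKV]
  have hψv : toClosure k2 * VV = VV * ψ v := by
    rw [hk2, toClosure_kron, map_one, hVV, ← map_mul]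
    have e : ψ v = kron (1, d2 ζ (ζ ^ 2)) := by
      refine Units.ext (Matrix.ext fun p q => ?_)
      fin_cases p <;> fin_cases q <;> simp [hψ, hv, coe_kron, kronMat, d2, ZMod.val_one, show (2 : ZMod 3).val = 2 from rfl]
    rw [e, ← map_mul]
    simp [hKV]
  have hψpow : ∀ (f : Fin 4 → ZMod 3) (k : GL (Fin 4) F), toClosure k * VV = VV * ψ f →
      ∀ n : ℕ, toClosure (k ^ n) * VV = VV * ψ ((n : ZMod 3) • f) := by
    intro f k e n
    induction n with
    | zero =>
      rw [pow_zero, map_one, one_mul, Nat.cast_zero, zero_smul]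
      have : ψ 0 = 1 := Units.ext (by simp [hψ])
      rw [this, mul_one]
    | succ n ih =>
      rw [pow_succ, map_mul, mul_assoc, e, ← mul_assoc, ih, mul_assoc, hψadd]
      congr 2
      rw [Nat.cast_succ, add_smul, one_smul]
  have hpowE : ∀ t ∈ Subgroup.closure ({a, b} : Set S.H), ∃ m n : ℕ, t = a ^ m * b ^ n := by
    intro t ht
    induction ht using Subgroup.closure_induction with
    | mem y hy =>
      rcases hy with rfl | rfl
      · exact ⟨1, 0, by simp⟩
      · exact ⟨0, 1, by simp⟩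
    | one => exact ⟨0, 0, by simp⟩
    | mul y y' _ _ hy hy' =>
      obtain ⟨m, n, rfl⟩ := hy
      obtain ⟨m', n', rfl⟩ := hy'
      refine ⟨m + m', n + n', ?_⟩
      rw [mul_assoc, ← mul_assoc (b ^ n), (Commute.pow_pow (show Commute b a from hab.symm) n m').eq,
        mul_assoc (a ^ m'), ← pow_add, ← mul_assoc, ← pow_add]
    | inv y _ hy =>
      obtain ⟨m, n, rfl⟩ := hy
      refine ⟨2 * m, 2 * n, inv_eq_of_mul_eq_one_right ?_⟩
      rw [mul_assoc, ← mul_assoc (b ^ n), (Commute.pow_pow (show Commute b a from hab.symm) n (2 * m)).eq,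
        mul_assoc (a ^ (2 * m)), ← pow_add, ← mul_assoc, ← pow_add, show m + 2 * m = 3 * m by ring,
        show n + 2 * n = 3 * n by ring, pow_mul, pow_mul, ha3, hb3, one_pow, one_pow, one_mul]
  -- traces
  have htrK : Matrix.trace (K : Matrix (Fin 2) (Fin 2) F) = -1 := by
    simp [hK, gK, Matrix.trace, Fin.sum_univ_two]; field_simp; ring
  have htrK2 : Matrix.trace ((K ^ 2 : GL (Fin 2) F) : Matrix (Fin 2) (Fin 2) F) = -1 := by
    have e : K ^ 2 = K⁻¹ := eq_inv_of_mul_eq_one_left (by rw [← pow_succ, hK, gK_cube])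
    rw [e, hK]
    show Matrix.trace (gK i hi2 h2).inv = -1
    simp [gK, Matrix.trace, Fin.sum_univ_two]; field_simp; ring
  have htr1 : Matrix.trace ((1 : GL (Fin 2) F) : Matrix (Fin 2) (Fin 2) F) = 2 := by simp
  have htrab : ∀ m n : ℕ, Matrix.trace (((a ^ m * b ^ n : S.H) : GL (Fin 4) F) : Matrix (Fin 4) (Fin 4) F) =
      Matrix.trace ((K ^ (m % 3) : GL (Fin 2) F) : Matrix (Fin 2) (Fin 2) F) *
        Matrix.trace ((K ^ (n % 3) : GL (Fin 2) F) : Matrix (Fin 2) (Fin 2) F) := by
    intro m n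
    rw [← pow_eq_pow_mod m (show K ^ 3 = 1 by rw [hK, gK_cube]),
      ← pow_eq_pow_mod n (show K ^ 3 = 1 by rw [hK, gK_cube]), Subgroup.coe_mul, Subgroup.coe_pow, Subgroup.coe_pow,
      ha, hb, conj_pow, conj_pow,
      show P * k1 ^ m * P⁻¹ * (P * k2 ^ n * P⁻¹) = P * (k1 ^ m * k2 ^ n) * P⁻¹ by group,
      Units.val_mul, Units.val_mul, Matrix.trace_units_conj, hk1, hk2, ← map_pow, ← map_pow, ← map_mul,
      coe_kron, trace_kronMat]
    simp
  have hmodpow : ∀ {t : S.H} (m : ℕ), t ^ 3 = 1 → t ^ m = t ^ (m % 3) := fun m h => pow_eq_pow_mod m h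
  have htype : ∀ (t : S.H), Matrix.trace ((t : GL (Fin 4) F) : Matrix (Fin 4) (Fin 4) F) = -2 → ∀ g : S.H,
      g * t * g⁻¹ ∈ Subgroup.closure ({a, b} : Set S.H) → g * t * g⁻¹ ∈ ({a, a⁻¹, b, b⁻¹} : Set S.H) := by
    intro t ht g hg
    obtain ⟨m, n, e⟩ := hpowE _ hg
    have htr : Matrix.trace (((g * t * g⁻¹ : S.H) : GL (Fin 4) F) : Matrix (Fin 4) (Fin 4) F) = -2 := by
      rw [Subgroup.coe_mul, Subgroup.coe_mul, Subgroup.coe_inv, Units.val_mul, Units.val_mul,
        Matrix.trace_units_conj, ht]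
    rw [e, htrab] at htr
    rw [e, hmodpow m ha3, hmodpow n hb3]
    have hm3 := Nat.mod_lt m (show 0 < 3 by norm_num)
    have hn3 := Nat.mod_lt n (show 0 < 3 by norm_num)
    have i1 : a ^ 2 = a⁻¹ := eq_inv_of_mul_eq_one_left (by rw [← pow_succ, ha3])
    have i2 : b ^ 2 = b⁻¹ := eq_inv_of_mul_eq_one_left (by rw [← pow_succ, hb3])
    generalize m % 3 = m' at hm3 htr ⊢
    generalize n % 3 = n' at hn3 htr ⊢
    interval_cases m' <;> interval_cases n' <;>
      simp only [pow_zero, pow_one, htrK, htrK2, htr1] at htr <;>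
      simp only [pow_zero, pow_one, mul_one, one_mul, i1, i2, Set.mem_insert_iff, Set.mem_singleton_iff, or_true, true_or] <;>
      first
        | exact absurd (show (3 : F) = 0 by linear_combination htr) h3
        | exact absurd (show (2 : F) * 3 = 0 by linear_combination htr) (mul_ne_zero h2 h3)
  obtain ⟨g, hg⟩ := conj_into_pair (H := S.H) ha3 hb3 hab
    (fun y hy3 hya hyb => by
      set Y := P⁻¹ * (y : GL (Fin 4) F) * P with hY
      clear_value Y
      have hYG : Y ∈ S.A.G := hY ▸ mul_mem (mul_mem (inv_mem hP) ((mem_H S).1 y.2).1) hP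
      have hY1 : Y * k1 = k1 * Y := by
        have e : (y : GL (Fin 4) F) * (P * k1 * P⁻¹) = P * k1 * P⁻¹ * y := congrArg Subtype.val hya
        calc Y * k1 = P⁻¹ * ((y : GL (Fin 4) F) * (P * k1 * P⁻¹)) * P := by rw [hY]; group
          _ = k1 * Y := by rw [e, hY]; group
      have hY2 : Y * k2 = k2 * Y := by
        have e : (y : GL (Fin 4) F) * (P * k2 * P⁻¹) = P * k2 * P⁻¹ * y := congrArg Subtype.val hyb
        calc Y * k2 = P⁻¹ * ((y : GL (Fin 4) F) * (P * k2 * P⁻¹)) * P := by rw [hY]; group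
          _ = k2 * Y := by rw [e, hY]; group
      have hY3 : Y ^ 3 = 1 := by
        have e : (y : GL (Fin 4) F) ^ 3 = 1 := congrArg Subtype.val hy3
        have := conj_pow (i := 3) (a := P⁻¹) (b := (y : GL (Fin 4) F))
        rw [inv_inv] at this
        rw [hY, this, e, mul_one, inv_mul_cancel]
      set Z := VV⁻¹ * toClosure Y * VV with hZ
      have hcomm : ∀ (k : GL (Fin 4) F) (f : Fin 4 → ZMod 3), toClosure k * VV = VV * ψ f → Y * k = k * Y →
          Z * ψ f = ψ f * Z := by
        intro k f e ek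
        have ef : ψ f = VV⁻¹ * toClosure k * VV := by rw [mul_assoc, e, inv_mul_cancel_left]
        calc Z * ψ f = VV⁻¹ * toClosure (Y * k) * VV := by rw [hZ, ef, map_mul]; group
          _ = ψ f * Z := by rw [ek, hZ, ef, map_mul]; group
      have c1 := hcomm k1 u hψu hY1
      have c2 := hcomm k2 v hψv hY2
      have hoff : ∀ p q, p ≠ q → (Z : Matrix (Fin 4) (Fin 4) (AlgebraicClosure F)) p q = 0 := by
        intro p q hpq
        have e1 := congrFun (congrFun (congrArg (fun t : GL (Fin 4) (AlgebraicClosure F) =>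
          (t : Matrix (Fin 4) (Fin 4) (AlgebraicClosure F))) c1) p) q
        have e2 := congrFun (congrFun (congrArg (fun t : GL (Fin 4) (AlgebraicClosure F) =>
          (t : Matrix (Fin 4) (Fin 4) (AlgebraicClosure F))) c2) p) q
        simp only [hψ, Units.val_mul, coe_diagU, Matrix.mul_diagonal, Matrix.diagonal_mul] at e1 e2
        by_contra h0
        have d1 : ζ ^ (u q).val = ζ ^ (u p).val := Units.ext (mul_left_cancel₀ h0 (e1.trans (mul_comm _ _)))
        have d2' : ζ ^ (v q).val = ζ ^ (v p).val := Units.ext (mul_left_cancel₀ h0 (e2.trans (mul_comm _ _)))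
        have u1 := hζ.pow_inj (ZMod.val_lt _) (ZMod.val_lt _) d1
        have u2 := hζ.pow_inj (ZMod.val_lt _) (ZMod.val_lt _) d2'
        exact hpq (uv_inj p q u1 u2)
      have hdiag : (Z : Matrix (Fin 4) (Fin 4) (AlgebraicClosure F)) =
          Matrix.diagonal fun k => (Z : Matrix (Fin 4) (Fin 4) (AlgebraicClosure F)) k k := by
        ext p q
        rcases eq_or_ne p q with rfl | hpq
        · rw [Matrix.diagonal_apply_eq]
        · rw [Matrix.diagonal_apply_ne _ hpq, hoff p q hpq]
      have hZ3 : Z ^ 3 = 1 := by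
        have := conj_pow (i := 3) (a := VV⁻¹) (b := toClosure Y)
        rw [inv_inv] at this
        rw [hZ, this, ← map_pow, hY3, map_one, mul_one, inv_mul_cancel]
      have hroot : ∀ k, ∃ n : ℕ, n < 3 ∧ w ^ n = (Z : Matrix (Fin 4) (Fin 4) (AlgebraicClosure F)) k k := by
        intro k
        refine (IsPrimitiveRoot.coe_units_iff.2 hζ).eq_pow_of_pow_eq_one ?_
        have h1 := congrFun (congrFun (congrArg (fun t : GL (Fin 4) (AlgebraicClosure F) =>
          (t : Matrix (Fin 4) (Fin 4) (AlgebraicClosure F))) hZ3) k) k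
        simp only [Units.val_pow_eq_pow_val] at h1
        rwa [hdiag, Matrix.diagonal_pow, Matrix.diagonal_apply_eq, Pi.pow_apply, Units.val_one,
          Matrix.one_apply_eq] at h1
      choose nf hnf hnw using hroot
      set f : Fin 4 → ZMod 3 := fun k => (nf k : ZMod 3) with hf
      have hYf : toClosure Y * VV = VV * ψ f := by
        have : Z = ψ f := Units.ext (by
          rw [hdiag, hψ, coe_diagU]
          congr 1
          funext k
          rw [Units.val_pow_eq_pow_val, ← hnw k, hf, ZMod.val_natCast, Nat.mod_eq_of_lt (hnf k)])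
        rw [← this, hZ]; group
      have hmix : ∀ m n : ℕ, toClosure (Y * (k1 ^ m * k2 ^ n)) * VV =
          VV * ψ (f + ((m : ZMod 3) • u + (n : ZMod 3) • v)) := by
        intro m n
        rw [map_mul, map_mul, mul_assoc, mul_assoc, hψpow v k2 hψv n, ← mul_assoc (toClosure (k1 ^ m)),
          hψpow u k1 hψu m, mul_assoc, hψadd, ← mul_assoc, hYf, mul_assoc, hψadd]
      obtain ⟨m, n, hmn⟩ := three_exps f (fun m n k => by
        have hG : Y * (k1 ^ m.val * k2 ^ n.val) ∈ S.A.G := mul_mem hYG (mul_mem (pow_mem hk1G _) (pow_mem hk2G _))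
        have := count_invariant S.twist S.he (r := 3) hζ hG (hmix m.val n.val) k
        simp only [hc, Pi.add_apply, Pi.smul_apply, smul_eq_mul, ZMod.natCast_zmod_val] at this
        simp only [add_assoc]
        exact this)
      have hYk : Y = k1 ^ m.val * k2 ^ n.val := by
        refine toClosure_injective (mul_right_cancel (b := VV) ?_)
        rw [hYf, map_mul, mul_assoc, hψpow v k2 hψv, ← mul_assoc, hψpow u k1 hψu, mul_assoc, hψadd]
        congr 2
        funext k
        simp only [Pi.add_apply, Pi.smul_apply, smul_eq_mul, ZMod.natCast_zmod_val]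
        exact hmn k
      have hy : y = a ^ m.val * b ^ n.val := Subtype.ext (by
        rw [Subgroup.coe_mul, Subgroup.coe_pow, Subgroup.coe_pow, ha, hb, conj_pow, conj_pow]
        have : (y : GL (Fin 4) F) = P * Y * P⁻¹ := by rw [hY]; group
        rw [this, hYk]; group)
      rw [hy]
      exact mul_mem (pow_mem (Subgroup.subset_closure (by simp)) _) (pow_mem (Subgroup.subset_closure (by simp)) _))
    (htype a (by
      rw [ha, Units.val_mul, Units.val_mul, Matrix.trace_units_conj, hk1, coe_kron, trace_kronMat]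
      simp [htrK]))
    (htype b (by
      rw [hb, Units.val_mul, Units.val_mul, Matrix.trace_units_conj, hk2, coe_kron, trace_kronMat]
      simp [htrK]))
    (x := ⟨x, hx⟩) (Subtype.ext hx3)
  refine ⟨g.1, g.2, ?_⟩
  obtain ⟨m, n, e⟩ := hpowE _ hg
  have e' : g.1⁻¹ * x * g.1 = (P * k1 * P⁻¹) ^ m * (P * k2 * P⁻¹) ^ n := by
    simpa [ha, hb] using congrArg Subtype.val e
  rw [e']
  exact mul_mem (pow_mem (conj_mem_normalizer hPR (kron_mem_normalizer (gK_local hi2 h2) one_local)) m)
    (pow_mem (conj_mem_normalizer hPR (kron_mem_normalizer one_local (gK_local hi2 h2))) n)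

end main

end CfsgLib.Classical.PrimeDerangement.Sympl
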