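import Cfsg.Agent.Classical.PrimeDerangement.Diag
import Cfsg.Prelude.Def_GeometricClasses
import Cfsg.Agent.Eq.Def_GeometricClasses
import Mathlib.LinearAlgebra.Matrix.GeneralLinearGroup.Defs

/-!
The Pauli group of two qubits over a field with a square root of `-1`, and elements normalising it.
-/

set_option autoImplicit false

namespace CfsgLib.Classical.PrimeDerangement.Sympl

open Matrix CfsgLib.Classical.PrimeDerangement

variable {F : Type*} [Field F]

/-- High bit. -/
def hi : Fin 4 → Fin 2 := ![0, 0, 1, 1]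

/-- Low bit. -/
def lo : Fin 4 → Fin 2 := ![0, 1, 0, 1]

theorem hi_zero : hi 0 = 0 := rfl
theorem hi_one : hi 1 = 0 := rfl
theorem hi_two : hi 2 = 1 := rfl
theorem hi_three : hi 3 = 1 := rfl
theorem lo_zero : lo 0 = 0 := rfl
theorem lo_one : lo 1 = 1 := rfl
theorem lo_two : lo 2 = 0 := rfl
theorem lo_three : lo 3 = 1 := rfl

/-- Kronecker product of two `2 × 2` matrices. -/
def kronMat (A B : Matrix (Fin 2) (Fin 2) F) : Matrix (Fin 4) (Fin 4) F :=
  !![A 0 0 * B 0 0, A 0 0 * B 0 1, A 0 1 * B 0 0, A 0 1 * B 0 1;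
     A 0 0 * B 1 0, A 0 0 * B 1 1, A 0 1 * B 1 0, A 0 1 * B 1 1;
     A 1 0 * B 0 0, A 1 0 * B 0 1, A 1 1 * B 0 0, A 1 1 * B 0 1;
     A 1 0 * B 1 0, A 1 0 * B 1 1, A 1 1 * B 1 0, A 1 1 * B 1 1]

theorem kronMat_mul (A B C D : Matrix (Fin 2) (Fin 2) F) :
    kronMat A B * kronMat C D = kronMat (A * C) (B * D) := by
  ext a b
  fin_cases a <;> fin_cases b <;> simp [kronMat, Matrix.mul_apply, Fin.sum_univ_four, Fin.sum_univ_two] <;> ring

theorem kronMat_one : kronMat (1 : Matrix (Fin 2) (Fin 2) F) 1 = 1 := by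
  ext a b
  fin_cases a <;> fin_cases b <;> simp [kronMat, hi_zero, hi_one, hi_two, hi_three, lo_zero, lo_one, lo_two, lo_three]

theorem kronMat_diagonal (a b : Fin 2 → F) :
    kronMat (Matrix.diagonal a) (Matrix.diagonal b) = Matrix.diagonal fun k => a (hi k) * b (lo k) := by
  ext x y
  fin_cases x <;> fin_cases y <;> simp [kronMat, hi_zero, hi_one, hi_two, hi_three, lo_zero, lo_one, lo_two, lo_three]

theorem kronMat_smul (c d : F) (A B : Matrix (Fin 2) (Fin 2) F) :
    kronMat (c • A) (d • B) = (c * d) • kronMat A B := by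
  ext a b
  fin_cases a <;> fin_cases b <;> simp [kronMat] <;> ring

theorem trace_kronMat (A B : Matrix (Fin 2) (Fin 2) F) :
    Matrix.trace (kronMat A B) = Matrix.trace A * Matrix.trace B := by
  simp [Matrix.trace, kronMat, Fin.sum_univ_four, hi_zero, hi_one, hi_two, hi_three, lo_zero, lo_one, lo_two, lo_three]
  ring

theorem det_kronMat (A B : Matrix (Fin 2) (Fin 2) F) :
    (kronMat A B).det = A.det ^ 2 * B.det ^ 2 := by
  let e : Fin 4 ≃ Fin 2 × Fin 2 :=
    Equiv.ofBijective (fun a => (hi a, lo a)) ⟨by decide, by decide⟩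
  have : kronMat A B = (Matrix.kronecker A B).submatrix e e := by
    ext a b
    fin_cases a <;> fin_cases b <;> rfl
  rw [this, Matrix.det_submatrix_equiv_self]
  exact (Matrix.det_kronecker A B).trans (by rw [Fintype.card_fin])

/-- Kronecker product as a homomorphism. -/
def kron : GL (Fin 2) F × GL (Fin 2) F →* GL (Fin 4) F where
  toFun g := ⟨kronMat g.1 g.2, kronMat (g.1⁻¹ : GL (Fin 2) F) (g.2⁻¹ : GL (Fin 2) F),
    by rw [kronMat_mul, ← Units.val_mul, ← Units.val_mul, mul_inv_cancel, mul_inv_cancel, Units.val_one, kronMat_one],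
    by rw [kronMat_mul, ← Units.val_mul, ← Units.val_mul, inv_mul_cancel, inv_mul_cancel, Units.val_one, kronMat_one]⟩
  map_one' := Units.ext kronMat_one
  map_mul' g h := Units.ext (by
    show kronMat _ _ = kronMat _ _ * kronMat _ _
    rw [kronMat_mul, Prod.fst_mul, Prod.snd_mul, Units.val_mul, Units.val_mul])

theorem coe_kron (g : GL (Fin 2) F × GL (Fin 2) F) :
    ((kron g : GL (Fin 4) F) : Matrix (Fin 4) (Fin 4) F) = kronMat g.1 g.2 := rfl

/-- Diagonal element of `GL 2`. -/
def d2 (a b : Fˣ) : GL (Fin 2) F := diagU ![a, b]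

/-- `σx`. -/
def σx : GL (Fin 2) F := permU (Equiv.swap 0 1)

/-- `σz`. -/
def σz : GL (Fin 2) F := d2 1 (-1)

/-- The phase gate. -/
def gS (i : Fˣ) : GL (Fin 2) F := d2 1 i

/-- An element of order 3 permuting the three Pauli matrices. -/
def gK (i : Fˣ) (hi2 : (i : F) * i = -1) (h2 : (2 : F) ≠ 0) : GL (Fin 2) F where
  val := (2 : F)⁻¹ • !![-1 + (i : F), 1 + i; -1 + (i : F), -1 - i]
  inv := (2 : F)⁻¹ • !![-1 - (i : F), -1 - i; 1 - (i : F), -1 + i]
  val_inv := by
    ext a b
    fin_cases a <;> fin_cases b <;> simp [Matrix.mul_apply, Fin.sum_univ_two] <;> field_simp <;>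
      first | ring1 | linear_combination (2 : F) * hi2 | linear_combination (-2 : F) * hi2 | linear_combination hi2 | linear_combination -hi2
  inv_val := by
    ext a b
    fin_cases a <;> fin_cases b <;> simp [Matrix.mul_apply, Fin.sum_univ_two] <;> field_simp <;>
      first | ring1 | linear_combination (2 : F) * hi2 | linear_combination (-2 : F) * hi2 | linear_combination hi2 | linear_combination -hi2

/-- The scalar of `GL 2`. -/
def sc (c : Fˣ) : GL (Fin 2) F := d2 c c

/-- The controlled not gate. -/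
def cnot : GL (Fin 4) F := permU (Equiv.swap 2 3)

/-- The controlled sign gate. -/
def cz : GL (Fin 4) F := diagU ![1, 1, 1, -1]

/-- The five generators of the Pauli group. -/
def pauliGens (i : Fˣ) : Set (GL (Fin 4) F) :=
  {kron (sc i, 1), kron (σx, 1), kron (σz, 1), kron (1, σx), kron (1, σz)}

/-- The Pauli group. -/
def pauli (i : Fˣ) : Subgroup (GL (Fin 4) F) := Subgroup.closure (pauliGens i)

variable {i : Fˣ} (hi2 : (i : F) * i = -1) (h2 : (2 : F) ≠ 0)

theorem sc_comm (c : Fˣ) (g : GL (Fin 2) F) : sc c * g = g * sc c := by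
  refine Units.ext (Matrix.ext fun a b => ?_)
  fin_cases a <;> fin_cases b <;> simp [sc, d2, Matrix.mul_apply, Fin.sum_univ_two, mul_comm]

include hi2 h2 in
theorem gK_σx : gK i hi2 h2 * σx = sc i * (σx * σz) * gK i hi2 h2 := by
  refine Units.ext (Matrix.ext fun a b => ?_)
  fin_cases a <;> fin_cases b <;>
    simp [gK, σx, σz, sc, d2, coe_permU, Matrix.mul_apply, Fin.sum_univ_two, Equiv.swap_apply_def] <;>
    field_simp <;> first | ring1 | linear_combination (1 : F) * hi2 | linear_combination (-1 : F) * hi2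

include hi2 h2 in
theorem gK_σz : gK i hi2 h2 * σz = σx * gK i hi2 h2 := by
  refine Units.ext (Matrix.ext fun a b => ?_)
  fin_cases a <;> fin_cases b <;>
    simp [gK, σx, σz, sc, d2, coe_permU, Matrix.mul_apply, Fin.sum_univ_two, Equiv.swap_apply_def] <;> ring

include hi2 in
theorem gS_σx : gS i * σx = sc i * (σx * σz) * gS i := by
  refine Units.ext (Matrix.ext fun a b => ?_)
  fin_cases a <;> fin_cases b <;>
    simp [gS, σx, σz, sc, d2, coe_permU, Matrix.mul_apply, Fin.sum_univ_two, Equiv.swap_apply_def] <;>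
    first | ring1 | linear_combination hi2 | linear_combination (-1 : F) * hi2

theorem gS_σz : gS i * σz = σz * gS i := diagU_comm _ _

/-- An element mapping the generators into the group normalises it. -/
theorem mem_normalizer_pauli [Finite F] {h : GL (Fin 4) F}
    (H : ∀ g ∈ pauliGens i, ∃ g' ∈ pauli i, h * g = g' * h) :
    h ∈ Cfsg.Geo.subgroupNormalizer (pauli i) := by
  refine Subgroup.mem_normalizer_iff_map_conj_eq.2 (Subgroup.eq_of_le_of_card_ge ?_ (le_of_eq ?_))
  · show Subgroup.map _ (Subgroup.closure (pauliGens i)) ≤ pauli i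
    rw [MonoidHom.map_closure, Subgroup.closure_le]
    rintro _ ⟨g, hg, rfl⟩
    obtain ⟨g', hg', e⟩ := H g hg
    show h * g * h⁻¹ ∈ pauli i
    rw [e, mul_inv_cancel_right]; exact hg'
  · exact Nat.card_congr (Subgroup.equivMapOfInjective _ _ (MulAut.conj h).injective).toEquiv

theorem gens_mem {g : GL (Fin 4) F} (hg : g ∈ pauliGens i) : g ∈ pauli i := Subgroup.subset_closure hg

/-- A pair normalising the one-qubit Pauli group gives a normalising element. -/
theorem kron_mem_normalizer [Finite F] {A B : GL (Fin 2) F}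
    (hA : ∀ g ∈ ({σx, σz} : Set (GL (Fin 2) F)), ∃ g' ∈ Subgroup.closure ({sc i, σx, σz} : Set (GL (Fin 2) F)),
      A * g = g' * A)
    (hB : ∀ g ∈ ({σx, σz} : Set (GL (Fin 2) F)), ∃ g' ∈ Subgroup.closure ({sc i, σx, σz} : Set (GL (Fin 2) F)),
      B * g = g' * B) :
    kron (A, B) ∈ Cfsg.Geo.subgroupNormalizer (pauli i) := by
  have hl : ∀ g' ∈ Subgroup.closure ({sc i, σx, σz} : Set (GL (Fin 2) F)), kron (g', 1) ∈ pauli i := by
    intro g' hg'
    induction hg' using Subgroup.closure_induction with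
    | mem x hx => rcases hx with rfl | rfl | rfl <;> exact gens_mem (by simp [pauliGens])
    | one => exact (show kron ((1 : GL (Fin 2) F), (1 : GL (Fin 2) F)) = 1 from map_one kron) ▸ one_mem _
    | mul x y _ _ hx hy =>
      rw [show ((x * y, 1) : GL (Fin 2) F × GL (Fin 2) F) = (x, 1) * (y, 1) by simp, map_mul]
      exact mul_mem hx hy
    | inv x _ hx =>
      rw [show ((x⁻¹, 1) : GL (Fin 2) F × GL (Fin 2) F) = (x, 1)⁻¹ by simp, map_inv]
      exact inv_mem hx
  have hsc : (kron (1, sc i) : GL (Fin 4) F) = kron (sc i, 1) := by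
    refine Units.ext (Matrix.ext fun a b => ?_)
    fin_cases a <;> fin_cases b <;> simp [coe_kron, kronMat, sc, d2, hi_zero, hi_one, hi_two, hi_three, lo_zero, lo_one, lo_two, lo_three]
  have hr : ∀ g' ∈ Subgroup.closure ({sc i, σx, σz} : Set (GL (Fin 2) F)), kron (1, g') ∈ pauli i := by
    intro g' hg'
    induction hg' using Subgroup.closure_induction with
    | mem x hx => rcases hx with rfl | rfl | rfl <;> [rw [hsc]; skip; skip] <;> exact gens_mem (by simp [pauliGens])
    | one => exact (show kron ((1 : GL (Fin 2) F), (1 : GL (Fin 2) F)) = 1 from map_one kron) ▸ one_mem _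
    | mul x y _ _ hx hy =>
      rw [show ((1, x * y) : GL (Fin 2) F × GL (Fin 2) F) = (1, x) * (1, y) by simp, map_mul]
      exact mul_mem hx hy
    | inv x _ hx =>
      rw [show ((1, x⁻¹) : GL (Fin 2) F × GL (Fin 2) F) = (1, x)⁻¹ by simp, map_inv]
      exact inv_mem hx
  refine mem_normalizer_pauli ?_
  rintro g (rfl | rfl | rfl | rfl | rfl)
  · exact ⟨kron (sc i, 1), gens_mem (by simp [pauliGens]), by rw [← map_mul, ← map_mul]; simp [sc_comm]⟩
  · obtain ⟨g', hg', e⟩ := hA σx (by simp)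
    exact ⟨_, hl g' hg', by rw [← map_mul, ← map_mul]; simp [e]⟩
  · obtain ⟨g', hg', e⟩ := hA σz (by simp)
    exact ⟨_, hl g' hg', by rw [← map_mul, ← map_mul]; simp [e]⟩
  · obtain ⟨g', hg', e⟩ := hB σx (by simp)
    exact ⟨_, hr g' hg', by rw [← map_mul, ← map_mul]; simp [e]⟩
  · obtain ⟨g', hg', e⟩ := hB σz (by simp)
    exact ⟨_, hr g' hg', by rw [← map_mul, ← map_mul]; simp [e]⟩

theorem one_local (g : GL (Fin 2) F) (hg : g ∈ ({σx, σz} : Set (GL (Fin 2) F))) :
    ∃ g' ∈ Subgroup.closure ({sc i, σx, σz} : Set (GL (Fin 2) F)), (1 : GL (Fin 2) F) * g = g' * 1 :=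
  ⟨g, Subgroup.subset_closure (by rcases hg with rfl | rfl <;> simp), by simp⟩

include hi2 h2 in
theorem gK_local (g : GL (Fin 2) F) (hg : g ∈ ({σx, σz} : Set (GL (Fin 2) F))) :
    ∃ g' ∈ Subgroup.closure ({sc i, σx, σz} : Set (GL (Fin 2) F)), gK i hi2 h2 * g = g' * gK i hi2 h2 := by
  have hm : ∀ {x : GL (Fin 2) F}, x ∈ ({sc i, σx, σz} : Set (GL (Fin 2) F)) → x ∈ Subgroup.closure _ :=
    fun h => Subgroup.subset_closure h
  rcases hg with rfl | rfl
  · exact ⟨_, mul_mem (hm (by simp)) (mul_mem (hm (by simp)) (hm (by simp))), gK_σx hi2 h2⟩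
  · exact ⟨_, hm (by simp), gK_σz hi2 h2⟩

include hi2 in
theorem gS_local (g : GL (Fin 2) F) (hg : g ∈ ({σx, σz} : Set (GL (Fin 2) F))) :
    ∃ g' ∈ Subgroup.closure ({sc i, σx, σz} : Set (GL (Fin 2) F)), gS i * g = g' * gS i := by
  have hm : ∀ {x : GL (Fin 2) F}, x ∈ ({sc i, σx, σz} : Set (GL (Fin 2) F)) → x ∈ Subgroup.closure _ :=
    fun h => Subgroup.subset_closure h
  rcases hg with rfl | rfl
  · exact ⟨_, mul_mem (hm (by simp)) (mul_mem (hm (by simp)) (hm (by simp))), gS_σx hi2⟩
  · exact ⟨_, hm (by simp), gS_σz⟩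

theorem cnot_mem_normalizer [Finite F] : (cnot : GL (Fin 4) F) ∈ Cfsg.Geo.subgroupNormalizer (pauli i) := by
  refine mem_normalizer_pauli ?_
  rintro g (rfl | rfl | rfl | rfl | rfl)
  · refine ⟨_, gens_mem (g := kron (sc i, 1)) (by simp [pauliGens]), Units.ext (Matrix.ext fun a b => ?_)⟩
    fin_cases a <;> fin_cases b <;>
      simp [cnot, coe_kron, kronMat, coe_permU, sc, d2, hi_zero, hi_one, hi_two, hi_three, lo_zero, lo_one, lo_two, lo_three, Matrix.mul_apply, Fin.sum_univ_four, Equiv.swap_apply_def]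
  · refine ⟨kron (σx, 1) * kron (1, σx), mul_mem (gens_mem (by simp [pauliGens])) (gens_mem (by simp [pauliGens])),
      Units.ext (Matrix.ext fun a b => ?_)⟩
    rw [← map_mul]
    fin_cases a <;> fin_cases b <;>
      simp [cnot, coe_kron, kronMat, coe_permU, σx, hi_zero, hi_one, hi_two, hi_three, lo_zero, lo_one, lo_two, lo_three, Matrix.mul_apply, Fin.sum_univ_four, Equiv.swap_apply_def]
  · refine ⟨_, gens_mem (g := kron (σz, 1)) (by simp [pauliGens]), Units.ext (Matrix.ext fun a b => ?_)⟩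
    fin_cases a <;> fin_cases b <;>
      simp [cnot, coe_kron, kronMat, coe_permU, σz, d2, hi_zero, hi_one, hi_two, hi_three, lo_zero, lo_one, lo_two, lo_three, Matrix.mul_apply, Fin.sum_univ_four, Equiv.swap_apply_def]
  · refine ⟨_, gens_mem (g := kron (1, σx)) (by simp [pauliGens]), Units.ext (Matrix.ext fun a b => ?_)⟩
    fin_cases a <;> fin_cases b <;>
      simp [cnot, coe_kron, kronMat, coe_permU, σx, hi_zero, hi_one, hi_two, hi_three, lo_zero, lo_one, lo_two, lo_three, Matrix.mul_apply, Fin.sum_univ_four, Equiv.swap_apply_def]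
  · refine ⟨kron (σz, 1) * kron (1, σz), mul_mem (gens_mem (by simp [pauliGens])) (gens_mem (by simp [pauliGens])),
      Units.ext (Matrix.ext fun a b => ?_)⟩
    rw [← map_mul]
    fin_cases a <;> fin_cases b <;>
      simp [cnot, coe_kron, kronMat, coe_permU, σz, d2, hi_zero, hi_one, hi_two, hi_three, lo_zero, lo_one, lo_two, lo_three, Matrix.mul_apply, Fin.sum_univ_four, Equiv.swap_apply_def]

theorem cz_mem_normalizer [Finite F] : (cz : GL (Fin 4) F) ∈ Cfsg.Geo.subgroupNormalizer (pauli i) := by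
  refine mem_normalizer_pauli ?_
  rintro g (rfl | rfl | rfl | rfl | rfl)
  · refine ⟨_, gens_mem (g := kron (sc i, 1)) (by simp [pauliGens]), Units.ext (Matrix.ext fun a b => ?_)⟩
    fin_cases a <;> fin_cases b <;> simp [cz, coe_kron, kronMat, sc, d2, hi_zero, hi_one, hi_two, hi_three, lo_zero, lo_one, lo_two, lo_three]
  · refine ⟨kron (σx, 1) * kron (1, σz), mul_mem (gens_mem (by simp [pauliGens])) (gens_mem (by simp [pauliGens])),
      Units.ext (Matrix.ext fun a b => ?_)⟩
    rw [← map_mul]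
    fin_cases a <;> fin_cases b <;>
      simp [cz, coe_kron, kronMat, coe_permU, σx, σz, d2, hi_zero, hi_one, hi_two, hi_three, lo_zero, lo_one, lo_two, lo_three, Equiv.swap_apply_def]
  · refine ⟨_, gens_mem (g := kron (σz, 1)) (by simp [pauliGens]), Units.ext (Matrix.ext fun a b => ?_)⟩
    fin_cases a <;> fin_cases b <;> simp [cz, coe_kron, kronMat, σz, d2, hi_zero, hi_one, hi_two, hi_three, lo_zero, lo_one, lo_two, lo_three]
  · refine ⟨kron (σz, 1) * kron (1, σx), mul_mem (gens_mem (by simp [pauliGens])) (gens_mem (by simp [pauliGens])),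
      Units.ext (Matrix.ext fun a b => ?_)⟩
    rw [← map_mul]
    fin_cases a <;> fin_cases b <;>
      simp [cz, coe_kron, kronMat, coe_permU, σx, σz, d2, hi_zero, hi_one, hi_two, hi_three, lo_zero, lo_one, lo_two, lo_three, Equiv.swap_apply_def]
  · refine ⟨_, gens_mem (g := kron (1, σz)) (by simp [pauliGens]), Units.ext (Matrix.ext fun a b => ?_)⟩
    fin_cases a <;> fin_cases b <;> simp [cz, coe_kron, kronMat, σz, d2, hi_zero, hi_one, hi_two, hi_three, lo_zero, lo_one, lo_two, lo_three]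

/-- An element of order 5 normalising the Pauli group. -/
def gW : GL (Fin 4) F := kron (gK i hi2 h2, 1) * cnot * kron (1, gS i)

include hi2 h2 in
theorem gW_mem_normalizer [Finite F] : gW hi2 h2 ∈ Cfsg.Geo.subgroupNormalizer (pauli i) :=
  mul_mem (mul_mem (kron_mem_normalizer (gK_local hi2 h2) one_local) cnot_mem_normalizer)
    (kron_mem_normalizer one_local (gS_local hi2))

theorem coe_gW : ((gW hi2 h2 : GL (Fin 4) F) : Matrix (Fin 4) (Fin 4) F) = (2 : F)⁻¹ •
    !![-1 + (i : F), 0, 0, -1 + i; 0, -1 - (i : F), 1 + i, 0;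
       -1 + (i : F), 0, 0, 1 - i; 0, -1 - (i : F), -1 - i, 0] := by
  ext a b
  fin_cases a <;> fin_cases b <;>
    simp [gW, gK, gS, cnot, d2, coe_kron, kronMat, coe_permU, Matrix.vecMul, dotProduct, hi_zero, hi_one, hi_two, hi_three, lo_zero, lo_one,
      lo_two, lo_three, Matrix.mul_apply, Fin.sum_univ_four, Equiv.swap_apply_def] <;>
    field_simp <;> first | ring1 | linear_combination hi2 | linear_combination -hi2

include hi2 h2 in
theorem gW_pow_five : gW hi2 h2 ^ 5 = 1 := by
  have e2 : ((gW hi2 h2 ^ 2 : GL (Fin 4) F) : Matrix (Fin 4) (Fin 4) F) = (2 : F)⁻¹ •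
      !![-(i : F), 1, 1, -(i : F); -1, (i : F), -(i : F), 1; -(i : F), -1, -1, -(i : F);
         1, (i : F), -(i : F), -1] := by
    rw [pow_two, Units.val_mul, coe_gW]
    ext a b
    fin_cases a <;> fin_cases b <;> simp [Matrix.mul_apply, Fin.sum_univ_four] <;> field_simp <;>
      first | ring1 | linear_combination hi2 | linear_combination -hi2
  have e4 : ((gW hi2 h2 ^ 4 : GL (Fin 4) F) : Matrix (Fin 4) (Fin 4) F) = (2 : F)⁻¹ •
      !![-1 - (i : F), 0, -1 - i, 0; 0, -1 + (i : F), 0, -1 + i; 0, 1 - (i : F), 0, -1 + i;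
         -1 - (i : F), 0, 1 + i, 0] := by
    rw [show gW hi2 h2 ^ 4 = gW hi2 h2 ^ 2 * gW hi2 h2 ^ 2 from pow_add _ 2 2, Units.val_mul, e2]
    ext a b
    fin_cases a <;> fin_cases b <;> simp [Matrix.mul_apply, Fin.sum_univ_four] <;> field_simp <;>
      first | ring1 | linear_combination hi2 | linear_combination -hi2 |
        linear_combination (2 : F) * hi2 | linear_combination (-2 : F) * hi2
  refine Units.ext ?_
  rw [pow_succ, Units.val_mul, e4, coe_gW, Units.val_one]
  ext a b
  fin_cases a <;> fin_cases b <;> simp [Matrix.mul_apply, Fin.sum_univ_four] <;> field_simp <;>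
    first | ring1 | linear_combination hi2 | linear_combination -hi2 |
      linear_combination (2 : F) * hi2 | linear_combination (-2 : F) * hi2

end CfsgLib.Classical.PrimeDerangement.Sympl
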