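import Mathlib.Algebra.Quaternion
import Mathlib.Algebra.QuaternionBasis
import Mathlib.Data.Matrix.Mul

/-!
The algebra generated by two involutions anticommuting with each other and two commuting square roots of `-1`
anticommuting with each other is an image of the `2 × 2` matrices over the integral quaternions.
-/

set_option autoImplicit false
set_option maxHeartbeats 800000

namespace CfsgLib.Classical.PrimeDerangement.Sympl

/-- The relations. -/
structure Gens (A : Type*) [Ring A] (x y u v : A) : Prop where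
  xx : x * x = 1
  yy : y * y = 1
  uu : u * u = -1
  vv : v * v = -1
  xy : x * y = -(y * x)
  uv : u * v = -(v * u)
  ux : u * x = x * u
  uy : u * y = y * u
  vx : v * x = x * v
  vy : v * y = y * v

variable {A : Type*} [Ring A] {x y u v : A}

/-- The quaternion part. -/
def qBasis (G : Gens A x y u v) : QuaternionAlgebra.Basis A (-1 : ℤ) 0 (-1) where
  i := u
  j := v
  k := u * v
  i_mul_i := by simp [G.uu]
  j_mul_j := by simp [G.vv]
  i_mul_j := rfl
  j_mul_i := by simp [G.uv]

/-- The image of a quaternion. -/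
def ψ (G : Gens A x y u v) : Quaternion ℤ →ₐ[ℤ] A := (qBasis G).liftHom

theorem commute_ψ (G : Gens A x y u v) {w : A} (hu : u * w = w * u) (hv : v * w = w * v) (q : Quaternion ℤ) :
    ψ G q * w = w * ψ G q := by
  have hk : u * v * w = w * (u * v) := by rw [mul_assoc, hv, ← mul_assoc, hu, mul_assoc]
  show QuaternionAlgebra.Basis.lift (qBasis G) q * w = w * QuaternionAlgebra.Basis.lift (qBasis G) q
  simp only [QuaternionAlgebra.Basis.lift, qBasis, add_mul, mul_add, Algebra.commutes, smul_mul_assoc,
    mul_smul_comm, hu, hv, hk]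

theorem ψ_mk (G : Gens A x y u v) (a b c d : ℤ) :
    ψ G ⟨a, b, c, d⟩ = (a : A) + b • u + c • v + d • (u * v) := by
  show QuaternionAlgebra.Basis.lift (qBasis G) _ = _
  simp [QuaternionAlgebra.Basis.lift, qBasis]

variable [Invertible (2 : A)]

/-- The first idempotent. -/
def e00 (x : A) : A := ⅟(2 : A) * (1 + x)

/-- The matrix units. -/
def eU (x y : A) (a b : Fin 2) : A := (![1, y] : Fin 2 → A) a * e00 x * (![1, y] : Fin 2 → A) b

theorem half_comm (a : A) : a * ⅟(2 : A) = ⅟(2 : A) * a := by
  have h : Commute (2 : A) a := by rw [← one_add_one_eq_two]; exact (Commute.one_left a).add_left (Commute.one_left a)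
  exact (h.invOf_left).eq.symm

theorem e00_idem (hxx : x * x = 1) : e00 x * e00 x = e00 x := by
  have e : (1 + x) * (1 + x) = 2 * (1 + x) := by rw [add_mul, one_mul, mul_add, hxx, mul_one, two_mul]; abel
  rw [e00, mul_assoc, ← mul_assoc (1 + x), half_comm, mul_assoc, e, ← mul_assoc (⅟(2 : A)) 2, invOf_mul_self,
    one_mul]

theorem e00_y_e00 (hxx : x * x = 1) (hxy : x * y = -(y * x)) : e00 x * y * e00 x = 0 := by
  have e : (1 + x) * y * (1 + x) = 0 := by
    rw [add_mul, one_mul, hxy, ← sub_eq_add_neg]
    rw [sub_mul, mul_add, mul_one, mul_add, mul_one, mul_assoc y x x, hxx, mul_one]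
    abel
  rw [e00, mul_assoc (⅟(2 : A)), mul_assoc, ← mul_assoc ((1 + x) * y), half_comm, mul_assoc, e, mul_zero, mul_zero]

theorem eU_mul (G : Gens A x y u v) (a b c d : Fin 2) :
    eU x y a b * eU x y c d = if b = c then eU x y a d else 0 := by
  have key : ∀ p q : A, p * e00 x * q * e00 x = p * (e00 x * q * e00 x) := fun p q => by simp only [mul_assoc]
  have hy : e00 x * (y * y) * e00 x = e00 x := by rw [G.yy, mul_one, e00_idem G.xx]
  have h1 : e00 x * (1 * 1) * e00 x = e00 x := by rw [mul_one, mul_one, e00_idem G.xx]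
  have hz : e00 x * y * e00 x = 0 := e00_y_e00 G.xx G.xy
  calc eU x y a b * eU x y c d =
      (![1, y] : Fin 2 → A) a * (e00 x * ((![1, y] : Fin 2 → A) b * (![1, y] : Fin 2 → A) c) * e00 x) *
        (![1, y] : Fin 2 → A) d := by simp only [eU, mul_assoc]
    _ = _ := by
      fin_cases b <;> fin_cases c <;>
        simp [eU, G.yy, e00_idem G.xx, hz, mul_assoc]

theorem eU_sum (G : Gens A x y u v) : eU x y 0 0 + eU x y 1 1 = 1 := by
  have e : (1 + x) + y * (1 + x) * y = 2 := by
    rw [mul_add, mul_one, add_mul, G.yy, mul_assoc, G.xy, mul_neg, ← mul_assoc, G.yy, one_mul, ← one_add_one_eq_two]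
    abel
  have : eU x y 0 0 + eU x y 1 1 = ⅟(2 : A) * ((1 + x) + y * (1 + x) * y) := by
    simp only [eU, e00, Matrix.cons_val_zero, Matrix.cons_val_one, one_mul, mul_one, mul_add, ← mul_assoc, half_comm,
      add_mul]
  rw [this, e, invOf_mul_self]

/-- The homomorphism. -/
def Ψ (G : Gens A x y u v) : Matrix (Fin 2) (Fin 2) (Quaternion ℤ) →+* A where
  toFun M := ∑ a, ∑ b, eU x y a b * ψ G (M a b)
  map_zero' := by simp
  map_add' M N := by simp [mul_add, Finset.sum_add_distrib]
  map_one' := by
    simp [Fin.sum_univ_two, Matrix.one_apply, eU_sum G]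
  map_mul' M N := by
    have hc : ∀ (q : Quaternion ℤ) (a b : Fin 2), ψ G q * eU x y a b = eU x y a b * ψ G q := by
      intro q a b
      have c2 : ψ G q * e00 x = e00 x * ψ G q := by
        rw [e00, ← mul_assoc, half_comm, mul_assoc, mul_assoc]
        congr 1
        rw [mul_add, add_mul, mul_one, one_mul, commute_ψ G G.ux G.vx]
      have c3 : ∀ k : Fin 2, ψ G q * (![1, y] : Fin 2 → A) k = (![1, y] : Fin 2 → A) k * ψ G q := by
        intro k; fin_cases k
        · simp
        · simpa using commute_ψ G G.uy G.vy q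
      simp only [eU]
      rw [← mul_assoc, ← mul_assoc, c3, mul_assoc _ (ψ G q), c2, ← mul_assoc, mul_assoc _ (ψ G q), c3,
        ← mul_assoc]
    have hterm : ∀ a b c d, eU x y a b * ψ G (M a b) * (eU x y c d * ψ G (N c d)) =
        if b = c then eU x y a d * ψ G (M a b * N c d) else 0 := by
      intro a b c d
      rw [mul_assoc, ← mul_assoc (ψ G (M a b)), hc, mul_assoc, ← map_mul, ← mul_assoc, eU_mul G]
      split_ifs <;> simp
    simp only [Fin.sum_univ_two, add_mul, mul_add, hterm, Matrix.mul_apply, map_add]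
    simp [mul_add]
    abel

theorem Ψ_apply (G : Gens A x y u v) (M : Matrix (Fin 2) (Fin 2) (Quaternion ℤ)) :
    Ψ G M = ∑ a, ∑ b, eU x y a b * ψ G (M a b) := rfl

end CfsgLib.Classical.PrimeDerangement.Sympl
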