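import Cfsg.Agent.Classical.PrimeDerangement.Sympl.Criterion
import Cfsg.Agent.Classical.PrimeDerangement.Sympl.SpBasis
import Cfsg.Agent.Classical.PrimeDerangement.Sympl.Quat
import Cfsg.Agent.Eq.Def_GeometricClasses

/-!
Elements of prime order of the four-dimensional symplectic group and the normaliser of an extraspecial 2-group
of minus type.
-/

set_option autoImplicit false
set_option maxHeartbeats 1600000

namespace CfsgLib.Classical.PrimeDerangement.Sympl

open Matrix Cfsg CfsgLib.SympFormStd CfsgLib.Classical.PrimeDerangement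

local notation "ι4" => (Fin 2 ⊕ Fin 2)

/-- Indices in the order of the hyperbolic pairs. -/
def e4 : Fin 4 ≃ ι4 where
  toFun := ![Sum.inl 0, Sum.inr 0, Sum.inl 1, Sum.inr 1]
  invFun := Sum.elim ![0, 2] ![1, 3]
  left_inv := by decide
  right_inv := by decide

/-- Quaternion unit. -/
def qI : Quaternion ℤ := ⟨0, 1, 0, 0⟩

/-- Quaternion unit. -/
def qJ : Quaternion ℤ := ⟨0, 0, 1, 0⟩

/-- Eight times an element of order five. -/
def m5 : Matrix (Fin 2) (Fin 2) (Quaternion ℤ) :=
  !![(1 + qI) * (1 + qJ) * (1 + qI) * (1 + qJ), 0; 0, (1 + qI) * (1 + qJ) * (1 + qI) * (1 + qJ)] *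
    (!![1, qI; qI, 1] * !![1, -1; 1, 1])

theorem m5_pow : m5 ^ 5 = 32768 := by
  refine Matrix.ext fun i j => ?_
  fin_cases i <;> fin_cases j <;> ext <;> decide +kernel

theorem m5_cyclotomic : m5 ^ 4 + 8 * m5 ^ 3 + 64 * m5 ^ 2 + 512 * m5 + 4096 = 0 := by
  refine Matrix.ext fun i j => ?_
  fin_cases i <;> fin_cases j <;> ext <;> decide +kernel

variable {F : Type*} [Field F]

theorem sp_scalar {g : GL ι4 F} (hg : g ∈ spGL 2 F) {c : F} (hc : (g : Matrix ι4 ι4 F) = c • 1) : c ^ 2 = 1 := by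
  have hf := isSymplecticForm 2 F
  have h := mem_spGL.1 hg (Pi.single (Sum.inl 0) 1) (Pi.single (Sum.inr 0) 1)
  rw [hc, Matrix.smul_mulVec, Matrix.smul_mulVec, Matrix.one_mulVec, Matrix.one_mulVec, hf.bilinear.smul_left,
    hf.bilinear.smul_right, sympForm_eq_sum] at h
  simp [Fin.sum_univ_two] at h
  linear_combination h

theorem glReindex_coe {κ ν : Type} [Fintype κ] [DecidableEq κ] [Fintype ν] [DecidableEq ν] (e : κ ≃ ν)
    (g : GL κ F) : ((Cfsg.Geo.glReindex e g : GL ν F) : Matrix ν ν F) = Matrix.reindex e e (g : Matrix κ κ F) := rfl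

theorem trace_glReindex (g : GL (Fin 4) F) :
    Matrix.trace ((Cfsg.Geo.glReindex e4 g : GL ι4 F) : Matrix ι4 ι4 F) = Matrix.trace (g : Matrix (Fin 4) (Fin 4) F) := by
  rw [glReindex_coe]
  simp [Matrix.trace, Fintype.sum_sum_type, Fin.sum_univ_two, Fin.sum_univ_four, e4]
  ring

theorem blockEl_mem (a b c d : F) (h : a * d - b * c = 1) :
    Cfsg.Geo.glReindex e4 (blockEl a b c d h) ∈ spGL 2 F := by
  refine mem_spGL.2 fun u v => ?_
  rw [sympForm_eq_sum, sympForm_eq_sum, glReindex_coe]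
  simp [blockEl, e4, Matrix.mulVec, dotProduct, Fintype.sum_sum_type, Fin.sum_univ_two]
  linear_combination (u (Sum.inr 0) * v (Sum.inl 0) - u (Sum.inl 0) * v (Sum.inr 0)) * h

section

variable [Fintype F] {p : ℕ} [Fact p.Prime] [CharP F p] {R : Subgroup (GL ι4 F)}

/-- Three commuting involutions are dependent in a group of minus type. -/
theorem no_elem8 (hRm : Cfsg.Geo.IsOfMinusType 2 R) (h2 : (2 : F) ≠ 0) (hn : (-1 : GL ι4 F) ∈ R)
    {x u : GL ι4 F} (hx : x ∈ R) (hu : u ∈ R) (hxx : x * x = 1) (huu : u * u = 1) (hxu : x * u = u * x)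
    (h1 : x ≠ 1 ∧ x ≠ -1) (h2' : u ≠ 1 ∧ u ≠ -1) (h3 : u ≠ x ∧ u ≠ -x) : False := by
  have hne : ∀ g : GL ι4 F, g ≠ -g := fun g e => by
    have h : (g : Matrix ι4 ι4 F) = -(g : Matrix ι4 ι4 F) := congrArg (fun t : GL ι4 F => (t : Matrix ι4 ι4 F)) e
    have : (2 : F) • (g : Matrix ι4 ι4 F) = 0 := by
      rw [two_smul]; nth_rw 2 [h]; rw [add_neg_cancel]
    exact g.ne_zero ((smul_eq_zero.1 this).resolve_left h2)
  set a : R := ⟨x, hx⟩
  set b : R := ⟨u, hu⟩
  set c : R := ⟨-1, hn⟩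
  set K := Subgroup.closure ({a, b, c} : Set R) with hK
  have hcomm : ∀ g ∈ ({a, b, c} : Set R), ∀ h ∈ ({a, b, c} : Set R), g * h = h * g := by
    rintro g (rfl | rfl | rfl) h (rfl | rfl | rfl) <;> refine Subtype.ext ?_ <;> simp [a, b, c, hxu]
  have hKc : IsMulCommutative K := Subgroup.isMulCommutative_closure hcomm
  have hsq : ∀ g ∈ K, g * g = 1 := by
    intro g hg
    induction hg using Subgroup.closure_induction with
    | mem g hg => rcases hg with rfl | rfl | rfl <;> exact Subtype.ext (by simp [a, b, c, hxx, huu])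
    | one => simp
    | mul g h hg hh hg2 hh2 =>
      have hc : g * h = h * g := congrArg Subtype.val (hKc.is_comm.comm ⟨g, hg⟩ ⟨h, hh⟩)
      rw [mul_assoc, ← mul_assoc h g h, ← hc, mul_assoc, hh2, mul_one, hg2]
    | inv g hg hg2 => rw [← _root_.mul_inv_rev, hg2, inv_one]
  have h8 := hRm K hKc hsq
  let φ : Bool × Bool × Bool → K := fun q =>
    ⟨(if q.1 then c else 1) * ((if q.2.1 then a else 1) * (if q.2.2 then b else 1)),
      mul_mem (by split_ifs; exacts [Subgroup.subset_closure (by simp), one_mem _])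
        (mul_mem (by split_ifs; exacts [Subgroup.subset_closure (by simp), one_mem _])
          (by split_ifs; exacts [Subgroup.subset_closure (by simp), one_mem _]))⟩
  have hxinv : x⁻¹ = x := inv_eq_of_mul_eq_one_right hxx
  have hxune : x * u ≠ 1 ∧ x * u ≠ -1 := by
    constructor
    · intro e; exact h3.1 ((inv_eq_of_mul_eq_one_right e).symm.trans hxinv)
    · intro e; exact h3.2 (by rw [← mul_neg_one x, ← e, ← mul_assoc, hxx, one_mul])
  have hφ : Function.Injective φ := by
    have hker : ∀ q, φ q = 1 → q = (false, false, false) := by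
      rintro ⟨q1, q2, q3⟩ e
      have e' := congrArg (fun t : K => ((t : R) : GL ι4 F)) e
      cases q1 <;> cases q2 <;> cases q3 <;> simp [φ, a, b, c, neg_eq_iff_eq_neg] at e' ⊢
      all_goals first
        | exact h1.1 e'
        | exact h1.2 e'
        | exact h2'.1 e'
        | exact h2'.2 e'
        | exact hxune.1 e'
        | exact hxune.2 e'
        | exact hne 1 e'
        | exact hne 1 e'.symm
    have hmul : ∀ q r : Bool × Bool × Bool, φ q * φ r = φ (xor q.1 r.1, xor q.2.1 r.2.1, xor q.2.2 r.2.2) := by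
      rintro ⟨q1, q2, q3⟩ ⟨r1, r2, r3⟩
      refine Subtype.ext ?_
      have hca : ∀ g : R, c * g = g * c := fun g => Subtype.ext (by simp [c])
      have hab : a * b = b * a := hcomm a (by simp) b (by simp)
      have haa : a * a = 1 := Subtype.ext hxx
      have hbb : b * b = 1 := Subtype.ext huu
      have hcc : c * c = 1 := Subtype.ext (by simp [c])
      have hba : ∀ g : R, b * (a * g) = a * (b * g) := fun g => by rw [← mul_assoc, ← hab, mul_assoc]
      have hac : ∀ g : R, a * (c * g) = c * (a * g) := fun g => by rw [← mul_assoc, ← hca, mul_assoc]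
      have hbc : ∀ g : R, b * (c * g) = c * (b * g) := fun g => by rw [← mul_assoc, ← hca, mul_assoc]
      have haa' : ∀ g : R, a * (a * g) = g := fun g => by rw [← mul_assoc, haa, one_mul]
      have hbb' : ∀ g : R, b * (b * g) = g := fun g => by rw [← mul_assoc, hbb, one_mul]
      have hcc' : ∀ g : R, c * (c * g) = g := fun g => by rw [← mul_assoc, hcc, one_mul]
      cases q1 <;> cases q2 <;> cases q3 <;> cases r1 <;> cases r2 <;> cases r3 <;>
        simp [φ, mul_assoc, hba, hac, hbc, haa', hbb', hcc', haa, hbb, hcc, ← hab, ← hca]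
    intro q r e
    have h1 : φ q * φ r = 1 := by
      rw [e, hmul]
      simp [φ]
    rw [hmul] at h1
    have := hker _ h1
    simp only [Prod.mk.injEq] at this
    obtain ⟨q1, q2, q3⟩ := q
    obtain ⟨r1, r2, r3⟩ := r
    obtain ⟨t1, t2, t3⟩ := this
    have e : ∀ s t : Bool, xor s t = false → s = t := by decide
    exact Prod.ext (e _ _ t1) (Prod.ext (e _ _ t2) (e _ _ t3))
  have := Nat.card_le_card_of_injective φ hφ
  simp at this
  norm_num at h8
  omega

/-- Two anticommuting pairs, the first of involutions and the second of square roots of `-1`. -/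
theorem exists_gens (D : Data R) (hR : Nat.card R = 32) (hRm : Cfsg.Geo.IsOfMinusType 2 R) (hn : (-1 : GL ι4 F) ∈ R)
    (hRf : R ≤ spGL 2 F) (h2 : (2 : F) ≠ 0) :
    ∃ x ∈ R, ∃ y ∈ R, ∃ u ∈ R, ∃ v ∈ R,
      Gens (Matrix ι4 ι4 F) (x : Matrix ι4 ι4 F) y u v := by
  classical
  have hsign : ∀ a ∈ R, ∀ b ∈ R, a * b = b * a ∨ a * b = -(b * a) := fun a ha b hb =>
    (D.sign a ha b hb).imp (fun e => Units.ext e) (fun e => Units.ext e)
  have hsq : ∀ a ∈ R, a * a = 1 ∨ a * a = -1 := fun a ha =>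
    (D.sq a ha).imp (fun e => Units.ext e) (fun e => Units.ext e)
  have hne : ∀ g : GL ι4 F, g ≠ -g := fun g e => by
    have h : (g : Matrix ι4 ι4 F) = -(g : Matrix ι4 ι4 F) := congrArg (fun t : GL ι4 F => (t : Matrix ι4 ι4 F)) e
    have : (2 : F) • (g : Matrix ι4 ι4 F) = 0 := by
      rw [two_smul]; nth_rw 2 [h]; rw [add_neg_cancel]
    exact g.ne_zero ((smul_eq_zero.1 this).resolve_left h2)
  have hscal : ∀ g ∈ R, ∀ c : F, (g : Matrix ι4 ι4 F) = c • 1 → g = 1 ∨ g = -1 := by
    intro g hg c hc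
    rcases sq_eq_one_iff.1 (sp_scalar (hRf hg) hc) with rfl | rfl
    · exact Or.inl (Units.ext (by rw [hc, one_smul, Units.val_one]))
    · exact Or.inr (Units.ext (by rw [hc, neg_one_smul, Units.val_neg, Units.val_one]))
  have hanti : ∀ g ∈ R, g ≠ 1 ∧ g ≠ -1 → ∃ w ∈ R, g * w = -(w * g) := by
    intro g hg hgn
    by_contra h
    push Not at h
    obtain ⟨c, hc⟩ := D.scalar (g : Matrix ι4 ι4 F) fun w hw =>
      congrArg (fun t : GL ι4 F => (t : Matrix ι4 ι4 F)) ((hsign g hg w hw).resolve_right (h w hw))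
    rcases hscal g hg c hc with e | e
    · exact hgn.1 e
    · exact hgn.2 e
  have hflip : ∀ a b : GL ι4 F, a * b = -(b * a) → b * a = -(a * b) := fun a b e => by rw [e, neg_neg]
  have hnc : ∀ a b : GL ι4 F, a * b = -(b * a) → a ≠ 1 ∧ a ≠ -1 := by
    intro a b e
    constructor <;> rintro rfl
    · rw [one_mul, mul_one] at e; exact hne b e
    · rw [neg_one_mul, mul_neg_one, neg_neg] at e; exact hne b e.symm
  have hcover : ∀ T : Finset (GL ι4 F), T.card ≤ 4 → (∀ w ∈ T, w ∈ R) →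
      (∀ g ∈ R, ∃ w ∈ T, g * w = 1 ∨ g * w = -1) → False := by
    intro T hT hTR hcov
    have hsub : (R : Set (GL ι4 F)) ⊆
        ↑((({1, -1} : Finset (GL ι4 F)) ×ˢ T).image fun q => q.1 * q.2⁻¹) := by
      intro g hg
      obtain ⟨w, hw, hgw⟩ := hcov g hg
      simp only [Finset.coe_image, Set.mem_image, Finset.mem_coe, Finset.mem_product, Prod.exists]
      exact ⟨g * w, w, ⟨by simpa using hgw, hw⟩, mul_inv_cancel_right g w⟩
    have h1 := Set.ncard_le_ncard hsub (Finset.finite_toSet _)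
    rw [Set.ncard_coe_finset, ← Nat.card_coe_set_eq] at h1
    have h2' := (Finset.card_image_le (s := (({1, -1} : Finset (GL ι4 F)) ×ˢ T)) (f := fun q => q.1 * q.2⁻¹))
    have h3 : ({1, -1} : Finset (GL ι4 F)).card ≤ 2 := Finset.card_le_two
    rw [Finset.card_product] at h2'
    have h4 : Nat.card R ≤ 8 := le_trans h1 (le_trans h2' (Nat.mul_le_mul h3 hT))
    omega
  -- a non-central involution
  obtain ⟨x, hx, hxn, hxx⟩ : ∃ x ∈ R, (x ≠ 1 ∧ x ≠ -1) ∧ x * x = 1 := by
    by_contra h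
    push Not at h
    obtain ⟨a, ha, ha1⟩ : ∃ a ∈ R, a ≠ 1 ∧ a ≠ -1 := by
      by_contra h'
      push Not at h'
      exact hcover {1} (by simp) (by simp) fun g hg => ⟨1, by simp, by
        rw [mul_one]; exact (Classical.em (g = 1)).imp_right (h' g hg)⟩
    have ha2 : a * a = -1 := (hsq a ha).resolve_left (h a ha ha1)
    obtain ⟨w, hw, haw⟩ := hanti a ha ha1
    -- everything is in few cosets
    refine hcover {1, a, w, w * a} Finset.card_le_four
      (fun t ht => by
        simp only [Finset.mem_insert, Finset.mem_singleton] at ht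
        rcases ht with rfl | rfl | rfl | rfl
        exacts [one_mem _, ha, hw, mul_mem hw ha]) fun g hg => ?_
    have main : ∀ g ∈ R, g * a = a * g → (g = 1 ∨ g = -1) ∨ (g * a = 1 ∨ g * a = -1) := by
      intro g hg e
      by_contra h'
      push Not at h'
      have g2 := (hsq g hg).resolve_left (h g hg h'.1)
      have : g * a * (g * a) = 1 := by
        rw [mul_assoc, ← mul_assoc a g a, ← e, mul_assoc g a a, ha2, mul_neg_one, mul_neg, g2, neg_neg]
      exact h (g * a) (mul_mem hg ha) h'.2 this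
    rcases hsign g hg a ha with e | e
    · rcases main g hg e with h' | h'
      · exact ⟨1, by simp, by simpa using h'⟩
      · exact ⟨a, by simp, h'⟩
    · have e' : g * w * a = a * (g * w) := by
        rw [mul_assoc, hflip _ _ haw, mul_neg, ← mul_assoc, e, neg_mul, neg_neg, mul_assoc]
      rcases main _ (mul_mem hg hw) e' with h' | h'
      · exact ⟨w, by simp, h'⟩
      · exact ⟨w * a, by simp, by rwa [← mul_assoc]⟩
  obtain ⟨y₀, hy₀, hxy₀⟩ := hanti x hx hxn
  obtain ⟨y, hy, hxy, hyy⟩ : ∃ y ∈ R, x * y = -(y * x) ∧ y * y = 1 := by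
    rcases hsq y₀ hy₀ with e | e
    · exact ⟨y₀, hy₀, hxy₀, e⟩
    · refine ⟨x * y₀, mul_mem hx hy₀, ?_, ?_⟩
      · conv_rhs => rw [hxy₀, neg_mul, neg_neg]
        rw [← mul_assoc, hxx, one_mul, mul_assoc, hxx, mul_one]
      · rw [mul_assoc, ← mul_assoc y₀ x y₀, hflip _ _ hxy₀, neg_mul, mul_assoc x y₀ y₀, e, mul_neg_one, neg_neg, hxx]
  have hwR : ∀ w ∈ ({1, x, y, x * y} : Set (GL ι4 F)), w ∈ R := by
    rintro w (rfl | rfl | rfl | rfl)
    · exact one_mem _
    · exact hx
    · exact hy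
    · exact mul_mem hx hy
  obtain ⟨u, hu, hun, hux, huy⟩ : ∃ u ∈ R, (u ≠ 1 ∧ u ≠ -1) ∧ u * x = x * u ∧ u * y = y * u := by
    by_contra h
    push Not at h
    refine hcover {1, x, y, x * y} Finset.card_le_four (fun w hw => hwR w (by simpa using hw)) fun g hg => ?_
    obtain ⟨w, hw, h1, h2⟩ := exists_commuting hsign hx hy hxy hg
    refine ⟨w, by simpa using hw, ?_⟩
    by_contra hcon
    push Not at hcon
    exact h _ (mul_mem hg (hwR w hw)) hcon h1 h2
  obtain ⟨v₁, hv₁, huv₁⟩ := hanti u hu hun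
  obtain ⟨w, hw, hvx, hvy⟩ := exists_commuting hsign hx hy hxy hv₁
  have huw : u * w = w * u := by
    rcases hw with rfl | rfl | rfl | rfl
    · simp
    · exact hux
    · exact huy
    · rw [← mul_assoc, hux, mul_assoc, huy, mul_assoc]
  have huv : u * (v₁ * w) = -(v₁ * w * u) := by
    rw [← mul_assoc, huv₁, neg_mul, mul_assoc, huw, mul_assoc]
  set v := v₁ * w with hv
  have hvR : v ∈ R := mul_mem hv₁ (hwR w hw)
  have hneg1 : ∀ a b : GL ι4 F, a * b = -(b * a) → a * x = x * a → b * x = x * b → a * a = -1 ∨ a ∉ R := by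
    intro a b e hax hbx
    by_cases ha : a ∈ R
    · left
      refine (hsq a ha).resolve_left fun h1 => ?_
      refine no_elem8 hRm h2 hn hx ha hxx h1 hax.symm hxn (hnc a b e) ⟨fun h => ?_, fun h => ?_⟩
      · subst h; rw [hbx] at e; exact hne _ e
      · rw [h, neg_mul, mul_neg, neg_neg, hbx] at e
        exact hne _ e.symm
    · exact Or.inr ha
  have huu : u * u = -1 := (hneg1 u v huv hux hvx).resolve_right (not_not.2 hu)
  have hvv : v * v = -1 := (hneg1 v u (hflip _ _ huv) hvx hux).resolve_right (not_not.2 hvR)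
  exact ⟨x, hx, y, hy, u, hu, v, hvR,
    ⟨congrArg Units.val hxx, congrArg Units.val hyy, congrArg Units.val huu, congrArg Units.val hvv,
      congrArg Units.val hxy, congrArg Units.val huv, congrArg Units.val hux, congrArg Units.val huy,
      congrArg Units.val hvx, congrArg Units.val hvy⟩⟩

/-- The product of two halves `(1 + g)(1 + k) / 2`. -/
noncomputable def halfPair (h2 : (2 : F) ≠ 0) (g k : GL ι4 F) (hg : (g : Matrix ι4 ι4 F) * g = -1)
    (hk : (k : Matrix ι4 ι4 F) * k = -1) : GL ι4 F where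
  val := (2 : F)⁻¹ • ((1 + (g : Matrix ι4 ι4 F)) * (1 + (k : Matrix ι4 ι4 F)))
  inv := (2 : F)⁻¹ • ((1 - (k : Matrix ι4 ι4 F)) * (1 - (g : Matrix ι4 ι4 F)))
  val_inv := by
    have e : ∀ a : Matrix ι4 ι4 F, a * a = -1 → (1 + a) * (1 - a) = (2 : F) • 1 := fun a ha => by
      rw [add_mul, one_mul, mul_sub, mul_one, ha, two_smul]; abel
    rw [Matrix.smul_mul, Matrix.mul_smul, smul_smul, mul_assoc, ← mul_assoc (1 + (k : Matrix ι4 ι4 F)), e _ hk,
      Matrix.smul_mul, one_mul, Matrix.mul_smul, e _ hg, smul_smul, smul_smul]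
    field_simp
    simp
  inv_val := by
    have e : ∀ a : Matrix ι4 ι4 F, a * a = -1 → (1 - a) * (1 + a) = (2 : F) • 1 := fun a ha => by
      rw [sub_mul, one_mul, mul_add, mul_one, ha, two_smul]; abel
    rw [Matrix.smul_mul, Matrix.mul_smul, smul_smul, mul_assoc, ← mul_assoc (1 - (g : Matrix ι4 ι4 F)), e _ hg,
      Matrix.smul_mul, one_mul, Matrix.mul_smul, e _ hk, smul_smul, smul_smul]
    field_simp
    simp

theorem halfPair_mem (h2 : (2 : F) ≠ 0) {g k : GL ι4 F} (hgm : g ∈ spGL 2 F) (hkm : k ∈ spGL 2 F)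
    (hg : (g : Matrix ι4 ι4 F) * g = -1) (hk : (k : Matrix ι4 ι4 F) * k = -1) :
    halfPair h2 g k hg hk ∈ spGL 2 F := by
  have hf := isSymplecticForm 2 F
  have key : ∀ a : GL ι4 F, a ∈ spGL 2 F → (a : Matrix ι4 ι4 F) * a = -1 → ∀ v w : ι4 → F,
      sympForm 2 F ((1 + (a : Matrix ι4 ι4 F)) *ᵥ v) ((1 + (a : Matrix ι4 ι4 F)) *ᵥ w) = 2 * sympForm 2 F v w := by
    intro a ha haa v w
    simp only [Matrix.add_mulVec, Matrix.one_mulVec, hf.bilinear.add_left, hf.bilinear.add_right,
      mem_spGL.1 ha, symp_move ha haa]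
    ring
  refine mem_spGL.2 fun v w => ?_
  show sympForm 2 F (((2 : F)⁻¹ • ((1 + (g : Matrix ι4 ι4 F)) * (1 + (k : Matrix ι4 ι4 F)))) *ᵥ v)
    (((2 : F)⁻¹ • ((1 + (g : Matrix ι4 ι4 F)) * (1 + (k : Matrix ι4 ι4 F)))) *ᵥ w) = _
  rw [Matrix.smul_mulVec, Matrix.smul_mulVec, hf.bilinear.smul_left, hf.bilinear.smul_right, ← Matrix.mulVec_mulVec,
    ← Matrix.mulVec_mulVec, key g hgm hg, key k hkm hk]
  field_simp

theorem halfPair_normalizer (D : Data R) (h2 : (2 : F) ≠ 0) {g k : GL ι4 F} (hgR : g ∈ R) (hkR : k ∈ R)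
    (hg : (g : Matrix ι4 ι4 F) * g = -1) (hk : (k : Matrix ι4 ι4 F) * k = -1) :
    halfPair h2 g k hg hk ∈ Cfsg.Geo.subgroupNormalizer R := by
  have key : ∀ a ∈ R, (a : Matrix ι4 ι4 F) * a = -1 → ∀ r ∈ R, ∃ r' ∈ R,
      (2 : F)⁻¹ • ((1 + (a : Matrix ι4 ι4 F)) * (r : Matrix ι4 ι4 F) * (1 - (a : Matrix ι4 ι4 F))) = (r' : Matrix ι4 ι4 F) := by
    intro a ha haa r hr
    rcases D.sign a ha r hr with e | e
    · refine ⟨r, hr, ?_⟩
      rw [show (1 + (a : Matrix ι4 ι4 F)) * r = (r : Matrix ι4 ι4 F) * (1 + a) by rw [add_mul, mul_add, one_mul, mul_one, e],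
        mul_assoc, show (1 + (a : Matrix ι4 ι4 F)) * (1 - a) = (2 : F) • 1 by
          rw [add_mul, one_mul, mul_sub, mul_one, haa, two_smul]; abel,
        Matrix.mul_smul, mul_one, smul_smul, inv_mul_cancel₀ h2, one_smul]
    · refine ⟨a * r, mul_mem ha hr, ?_⟩
      rw [show (1 + (a : Matrix ι4 ι4 F)) * r = (r : Matrix ι4 ι4 F) * (1 - a) by
          rw [add_mul, mul_sub, one_mul, mul_one, e, sub_eq_add_neg],
        mul_assoc, show (1 - (a : Matrix ι4 ι4 F)) * (1 - a) = (-2 : F) • (a : Matrix ι4 ι4 F) by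
          rw [sub_mul, one_mul, mul_sub, mul_one, haa, neg_smul, two_smul]; abel,
        Matrix.mul_smul, smul_smul, Units.val_mul, e, ← neg_one_smul F ((r : Matrix ι4 ι4 F) * a)]
      congr 1
      field_simp
  haveI : Finite R := inferInstance
  refine Subgroup.mem_normalizer_iff_map_conj_eq.2 (Subgroup.eq_of_le_of_card_ge ?_
    (le_of_eq (Nat.card_congr (Subgroup.equivMapOfInjective _ _ (MulAut.conj _).injective).toEquiv)))
  rintro _ ⟨r, hr, rfl⟩
  obtain ⟨r1, hr1, e1⟩ := key k hkR hk r hr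
  obtain ⟨r2, hr2, e2⟩ := key g hgR hg r1 hr1
  have : (MulAut.conj (halfPair h2 g k hg hk)).toMonoidHom r = r2 := by
    refine Units.ext ?_
    rw [← e2, ← e1]
    show (2 : F)⁻¹ • ((1 + (g : Matrix ι4 ι4 F)) * (1 + (k : Matrix ι4 ι4 F))) * (r : Matrix ι4 ι4 F) *
      ((2 : F)⁻¹ • ((1 - (k : Matrix ι4 ι4 F)) * (1 - (g : Matrix ι4 ι4 F)))) = _
    simp only [Matrix.smul_mul, Matrix.mul_smul, mul_assoc]
  exact this ▸ hr2

/-- An element of order five normalising `R`. -/
theorem exists_five (D : Data R) (h2 : (2 : F) ≠ 0) (h5 : (5 : F) ≠ 0) (hRf : R ≤ spGL 2 F)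
    {x y u v : GL ι4 F} (hx : x ∈ R) (hy : y ∈ R) (hu : u ∈ R) (hv : v ∈ R)
    (G : Gens (Matrix ι4 ι4 F) (x : Matrix ι4 ι4 F) y u v) :
    ∃ h ∈ spGL 2 F, h ∈ Cfsg.Geo.subgroupNormalizer R ∧ h ^ 5 = 1 ∧ h ≠ 1 := by
  have two_eq : (2 : Matrix ι4 ι4 F) = (2 : F) • 1 := by rw [two_smul, one_add_one_eq_two]
  let i2 : Invertible (2 : Matrix ι4 ι4 F) :=
    ⟨(2 : F)⁻¹ • 1, by rw [two_eq, Matrix.smul_mul, one_mul, smul_smul, inv_mul_cancel₀ h2, one_smul],
      by rw [two_eq, Matrix.mul_smul, mul_one, smul_smul, inv_mul_cancel₀ h2, one_smul]⟩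
  have hyu : ((y * u : GL ι4 F) : Matrix ι4 ι4 F) * ((y * u : GL ι4 F) : Matrix ι4 ι4 F) = -1 := by
    rw [Units.val_mul, mul_assoc, ← mul_assoc (u : Matrix ι4 ι4 F) y u, G.uy, mul_assoc, G.uu, ← mul_assoc, G.yy,
      one_mul]
  have hyx : ((y * x : GL ι4 F) : Matrix ι4 ι4 F) * ((y * x : GL ι4 F) : Matrix ι4 ι4 F) = -1 := by
    rw [Units.val_mul, mul_assoc, ← mul_assoc (x : Matrix ι4 ι4 F) y x, G.xy, neg_mul, mul_assoc (y : Matrix ι4 ι4 F) x x,
      G.xx, mul_one, mul_neg, G.yy]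
  set h : GL ι4 F := halfPair h2 u v G.uu G.vv * halfPair h2 u v G.uu G.vv * halfPair h2 (y * u) (y * x) hyu hyx
    with hh
  have hhG : h ∈ spGL 2 F := mul_mem (mul_mem (halfPair_mem h2 (hRf hu) (hRf hv) _ _)
    (halfPair_mem h2 (hRf hu) (hRf hv) _ _)) (halfPair_mem h2 (hRf (mul_mem hy hu)) (hRf (mul_mem hy hx)) _ _)
  have hhN : h ∈ Cfsg.Geo.subgroupNormalizer R := mul_mem (mul_mem (halfPair_normalizer D h2 hu hv _ _)
    (halfPair_normalizer D h2 hu hv _ _)) (halfPair_normalizer D h2 (mul_mem hy hu) (mul_mem hy hx) _ _)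
  have eI : ψ G qI = (u : Matrix ι4 ι4 F) := by rw [qI, ψ_mk]; simp
  have eJ : ψ G qJ = (v : Matrix ι4 ι4 F) := by rw [qJ, ψ_mk]; simp
  have e01 : eU (x : Matrix ι4 ι4 F) y 0 1 + eU (x : Matrix ι4 ι4 F) y 1 0 = y := by
    simp only [eU, e00, Matrix.cons_val_zero, Matrix.cons_val_one, one_mul, mul_one]
    rw [← mul_assoc (y : Matrix ι4 ι4 F) (⅟2), half_comm, mul_assoc (⅟2), mul_assoc (⅟2), ← mul_add, add_mul,
      one_mul, mul_add (y : Matrix ι4 ι4 F), mul_one, G.xy,
      show (y : Matrix ι4 ι4 F) + -((y : Matrix ι4 ι4 F) * x) + ((y : Matrix ι4 ι4 F) + (y : Matrix ι4 ι4 F) * x) =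
        2 * y by rw [two_mul]; abel, ← mul_assoc, invOf_mul_self, one_mul]
  have e00d : eU (x : Matrix ι4 ι4 F) y 0 0 - eU (x : Matrix ι4 ι4 F) y 1 1 = x := by
    have hyxy : (y : Matrix ι4 ι4 F) * x * y = -(x : Matrix ι4 ι4 F) := by
      rw [mul_assoc, G.xy, mul_neg, ← mul_assoc, G.yy, one_mul]
    simp only [eU, e00, Matrix.cons_val_zero, Matrix.cons_val_one, one_mul, mul_one]
    rw [← mul_assoc (y : Matrix ι4 ι4 F), half_comm, mul_assoc (⅟2), mul_assoc (⅟2), ← mul_sub, mul_add, mul_one,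
      add_mul, G.yy, hyxy, show (1 : Matrix ι4 ι4 F) + x - (1 + -(x : Matrix ι4 ι4 F)) = 2 * x by rw [two_mul]; abel,
      ← mul_assoc, invOf_mul_self, one_mul]
  have hdiag : ∀ q, Ψ G !![q, 0; 0, q] = ψ G q := fun q => by
    simp [Ψ_apply, Fin.sum_univ_two, ← add_mul, eU_sum G]
  have hswap : Ψ G !![0, 1; 1, 0] = (y : Matrix ι4 ι4 F) := by
    simp [Ψ_apply, Fin.sum_univ_two, e01]
  have hsgn : Ψ G !![1, 0; 0, -1] = (x : Matrix ι4 ι4 F) := by
    simp [Ψ_apply, Fin.sum_univ_two, ← sub_eq_add_neg, e00d]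
  have m1 : !![1, qI; qI, 1] = 1 + !![0, 1; 1, 0] * !![qI, 0; 0, qI] := by
    ext a b <;> fin_cases a <;> fin_cases b <;> simp [Matrix.mul_apply, Fin.sum_univ_two]
  have m2 : (!![1, -1; 1, 1] : Matrix (Fin 2) (Fin 2) (Quaternion ℤ)) = 1 + !![0, 1; 1, 0] * !![1, 0; 0, -1] := by
    ext a b <;> fin_cases a <;> fin_cases b <;> simp [Matrix.mul_apply, Fin.sum_univ_two]
  have hM : Ψ G m5 = (8 : F) • (h : Matrix ι4 ι4 F) := by
    rw [m5, m1, m2, map_mul, map_mul, map_add, map_add, map_one, map_mul, map_mul, hdiag, hdiag, hswap, hsgn]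
    simp only [map_mul, map_add, map_one, eI, eJ, hh, Units.val_mul, halfPair, Matrix.smul_mul, Matrix.mul_smul,
      smul_smul, mul_assoc]
    match_scalars
    field_simp
    ring
  have h8 : ∀ n : ℕ, Ψ G (m5 ^ n) = ((8 : F) ^ n) • ((h ^ n : GL ι4 F) : Matrix ι4 ι4 F) := fun n => by
    rw [map_pow, hM, smul_pow, Units.val_pow_eq_pow_val]
  have h8ne : (8 : F) ≠ 0 := by
    rw [show (8 : F) = 2 * 2 * 2 by norm_num]; exact mul_ne_zero (mul_ne_zero h2 h2) h2
  refine ⟨h, hhG, hhN, Units.ext ?_, fun e => ?_⟩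
  · have h5' := h8 5
    rw [m5_pow, map_ofNat] at h5'
    rw [show (32768 : Matrix ι4 ι4 F) = ((8 : F) ^ 5) • 1 by
      rw [← Matrix.diagonal_one, ← Matrix.diagonal_smul, ← Matrix.diagonal_ofNat]
      congr 1; funext a; norm_num] at h5'
    exact (smul_right_injective _ (pow_ne_zero 5 h8ne) h5').symm
  · have hz := congrArg (Ψ G) m5_cyclotomic
    simp only [map_add, map_mul, map_ofNat, map_zero, h8, e, one_pow, Units.val_one, hM] at hz
    have := congrFun (congrFun hz (Sum.inl 0)) (Sum.inl 0)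
    simp [← Matrix.diagonal_ofNat] at this
    refine mul_ne_zero h5 (pow_ne_zero 4 h8ne) ?_
    linear_combination this

theorem card_center_le_fix' (D : Data R) (h : GL ι4 F) :
    Nat.card (Subgroup.center R) ≤ Nat.card (fix R h) := by
  rw [Nat.card_congr (Subgroup.equivMapOfInjective (Subgroup.center R) R.subtype R.subtype_injective).toEquiv]
  haveI : Finite (fix R h) := Finite.of_injective _ (Subgroup.inclusion_injective (inf_le_left : fix R h ≤ R))
  refine Subgroup.card_le_of_le ?_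
  rintro _ ⟨g, hg, rfl⟩
  obtain ⟨c, hc⟩ := D.scalar ((g : GL ι4 F) : Matrix ι4 ι4 F) fun x hx => by
    have := congrArg (fun t : R => ((t : GL ι4 F) : Matrix ι4 ι4 F)) (Subgroup.mem_center_iff.1 hg ⟨x, hx⟩)
    simpa using this.symm
  exact scalar_mem_fix g.2 hc

theorem neg_one_mem (D : Data R) (hZ : Nat.card (Subgroup.center R) = 2) (hRf : R ≤ spGL 2 F) :
    (-1 : GL ι4 F) ∈ R := by
  haveI : Nontrivial (Subgroup.center R) := Finite.one_lt_card_iff_nontrivial.1 (by omega)
  obtain ⟨g, hg⟩ := exists_ne (1 : Subgroup.center R)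
  obtain ⟨c, hc⟩ := D.scalar ((g.1 : GL ι4 F) : Matrix ι4 ι4 F) fun x hx => by
    have := congrArg (fun t : R => ((t : GL ι4 F) : Matrix ι4 ι4 F)) (Subgroup.mem_center_iff.1 g.2 ⟨x, hx⟩)
    simpa using this.symm
  rcases sq_eq_one_iff.1 (sp_scalar (hRf g.1.2) hc) with rfl | rfl
  · exact absurd (Subtype.ext (Subtype.ext (Units.ext (by rw [hc, one_smul]; rfl)))) hg
  · have : (-1 : GL ι4 F) = g.1.1 := Units.ext (by rw [hc, neg_one_smul, Units.val_neg, Units.val_one])
    rw [this]; exact g.1.2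

/-- In minus type no element of order 3 fixes only the centre. -/
theorem fix_ne_two (D : Data R) (h2 : (2 : F) ≠ 0) (hn : (-1 : GL ι4 F) ∈ R)
    (hRm : Cfsg.Geo.IsOfMinusType 2 R) {g : GL ι4 F} (hg : g ∈ R) (hgg : g * g = 1) (hgn : g ≠ 1 ∧ g ≠ -1)
    {h : GL ι4 F} (hz : ∃ z : F, ((h ^ 3 : GL ι4 F) : Matrix ι4 ι4 F) = z • 1)
    (hN : h ∈ Cfsg.Geo.subgroupNormalizer R) : Nat.card (fix R h) ≠ 2 := by
  intro hc
  have h11 : (1 : GL ι4 F) ≠ -1 := fun e => by
    have h := congrFun (congrFun (congrArg (fun t : GL ι4 F => (t : Matrix ι4 ι4 F)) e) (Sum.inl 0)) (Sum.inl 0)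
    simp at h
    exact h2 (by linear_combination h)
  have hn' : (-1 : GL ι4 F) ∈ fix R h := mem_fix.2 ⟨hn, by simp⟩
  have hfix : ∀ t ∈ fix R h, t = 1 ∨ t = -1 := by
    intro t ht
    by_contra hne
    push Not at hne
    haveI : Finite (fix R h) := Nat.finite_of_card_ne_zero (by omega)
    have hle := Set.ncard_le_ncard (show ({1, -1, t} : Set (GL ι4 F)) ⊆ (fix R h : Set (GL ι4 F)) by
      rintro s (rfl | rfl | rfl)
      exacts [one_mem _, hn', ht]) (Set.toFinite _)
    rw [Set.ncard_eq_three.2 ⟨1, -1, t, h11, hne.1.symm, hne.2.symm, rfl⟩, ← Nat.card_coe_set_eq] at hle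
    have : Nat.card (fix R h) < 3 := by omega
    exact absurd hle (not_le.2 this)
  set T : GL ι4 F → GL ι4 F := fun a => h * a * h⁻¹ with hT
  set a1 := T g with ha1
  set a2 := T a1 with ha2
  have hm1 : a1 ∈ R := conj_mem hN hg
  have hm2 : a2 ∈ R := conj_mem hN hm1
  have hT3 : T a2 = g := by
    show h * (h * (h * g * h⁻¹) * h⁻¹) * h⁻¹ = g
    conv_rhs => rw [← conj_pow_eq hz g]
    rw [show h ^ 3 = h * h * h by rw [pow_succ, pow_two]]
    group
  have hw : g * a1 * a2 ∈ R := mul_mem (mul_mem hg hm1) hm2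
  have hTw : T (g * a1 * a2) = g⁻¹ * (g * a1 * a2) * g := by
    have : T (g * a1 * a2) = T g * T a1 * T a2 := by simp only [hT]; group
    rw [this, hT3, ← ha1, ← ha2]; group
  obtain ⟨c, hc'⟩ : ∃ c : F, ((T (g * a1 * a2) : GL ι4 F) : Matrix ι4 ι4 F) = c • ((g * a1 * a2 : GL ι4 F) : Matrix ι4 ι4 F) := by
    rcases D.sign _ hw _ hg with e | e
    · exact ⟨1, by rw [hTw, mul_assoc g⁻¹, Units.val_mul, Units.val_mul (g * a1 * a2), e, ← mul_assoc,
        Units.inv_mul, one_mul, one_smul]⟩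
    · exact ⟨-1, by rw [hTw, mul_assoc g⁻¹, Units.val_mul, Units.val_mul (g * a1 * a2), e, mul_neg, ← mul_assoc,
        Units.inv_mul, one_mul, neg_one_smul]⟩
  have hwfix := hfix _ (mem_fix_of_scalar D (by decide) hz hN hw hc')
  have hsqT : ∀ a : GL ι4 F, a * a = 1 → T a * T a = 1 := fun a e => by
    simp only [hT]
    rw [show h * a * h⁻¹ * (h * a * h⁻¹) = h * (a * a) * h⁻¹ by group, e, mul_one, mul_inv_cancel]
  have s1 := hsqT g hgg
  have s2 := hsqT a1 s1
  rw [← ha1] at s1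
  rw [← ha2] at s2
  have hprod : g * a1 = a2 ∨ g * a1 = -a2 := by
    rcases hwfix with e | e
    · left; calc g * a1 = g * a1 * (a2 * a2) := by rw [s2, mul_one]
        _ = a2 := by rw [← mul_assoc, e, one_mul]
    · right; calc g * a1 = g * a1 * (a2 * a2) := by rw [s2, mul_one]
        _ = -a2 := by rw [← mul_assoc, e, neg_one_mul]
  have hsq : g * a1 * (g * a1) = 1 := by
    rcases hprod with e | e <;> rw [e] <;> simp [s2]
  have hcomm : g * a1 = a1 * g := by
    calc g * a1 = g * (g * a1 * (g * a1)) * a1 := by rw [hsq, mul_one]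
      _ = (g * g) * a1 * g * (a1 * a1) := by simp only [mul_assoc]
      _ = a1 * g := by rw [hgg, s1, one_mul, mul_one]
  have hback : ∀ s : GL ι4 F, a1 = s → g = h⁻¹ * s * h := fun s e => by rw [← e, ha1, hT]; group
  have hne : ∀ s : GL ι4 F, ∀ b : F, (s : Matrix ι4 ι4 F) = b • (g : Matrix ι4 ι4 F) → a1 ≠ s := by
    intro s b hs e
    have := hfix g (mem_fix_of_scalar D (by decide) hz hN hg (c := b) (by rw [← hs, ← e]))
    rcases this with e' | e'
    · exact hgn.1 e'
    · exact hgn.2 e'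
  refine no_elem8 hRm h2 hn hg hm1 hgg s1 hcomm hgn ⟨fun e => hgn.1 ?_, fun e => hgn.2 ?_⟩
    ⟨hne g 1 (one_smul _ _).symm, hne (-g) (-1) (by rw [Units.val_neg, neg_one_smul])⟩
  · rw [hback _ e]; group
  · rw [hback _ e, mul_neg_one, neg_mul, inv_mul_cancel]

/-- Possible fixed subgroups. -/
theorem fix_cases32 (D : Data R) (hR : Nat.card R = 32) (hZ : Nat.card (Subgroup.center R) = 2)
    {r : ℕ} [Fact r.Prime] (hr : r ≠ 2) {h : GL ι4 F}
    (hz : ∃ z : F, ((h ^ r : GL ι4 F) : Matrix ι4 ι4 F) = z • 1)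
    (hns : ∀ c : F, (h : Matrix ι4 ι4 F) ≠ c • 1) (hN : h ∈ Cfsg.Geo.subgroupNormalizer R) :
    (r = 3 ∧ (Nat.card (fix R h) = 2 ∨ Nat.card (fix R h) = 8)) ∨ (r = 5 ∧ Nat.card (fix R h) = 2) := by
  have hle : fix R h ≤ R := inf_le_left
  haveI : Finite (fix R h) := Finite.of_injective _ (Subgroup.inclusion_injective hle)
  obtain ⟨j, hj6, hj⟩ := (Nat.dvd_prime_pow Nat.prime_two).1
    (show Nat.card (fix R h) ∣ 2 ^ 5 from by
      have := Subgroup.card_dvd_of_le hle
      rwa [hR] at this)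
  have h4 := card_center_le_fix' D h
  rw [hZ, hj] at h4
  have m := card_fix_modEq (r := r) hz hN R le_rfl fun g hg => conj_mem hN hg
  rw [show fix R h ⊓ R = fix R h from inf_eq_left.2 hle, hR, hj] at m
  have h8 := card_fix_ne_two_mul (r := r) D hr (k := 4) (by rw [hR]; rfl) hz hN
  rw [hZ, hj] at h8
  have h64 : j ≠ 5 := by
    rintro rfl
    have : fix R h = R := Subgroup.eq_of_le_of_card_ge hle (by rw [hj, hR]; norm_num)
    obtain ⟨c, hc⟩ := scalar_of_fix_eq D this
    exact hns c hc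
  have hrp := (Fact.out : r.Prime)
  have hd := (Nat.modEq_iff_dvd' (by
    calc 2 ^ j ≤ 2 ^ 5 := Nat.pow_le_pow_right (by norm_num) hj6
      _ = 32 := by norm_num)).1 m.symm
  rw [hj]
  interval_cases j
  all_goals
    first
      | exact absurd rfl h64
      | (norm_num at h4; done)
      | (norm_num at h8; done)
      | (norm_num at hd ⊢
         have hle30 := Nat.le_of_dvd (by norm_num) hd
         interval_cases r <;> first | omega | exact absurd hrp (by norm_num) | exact absurd hd (by norm_num) | norm_num)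

/-- The criterion. -/
theorem symp_criterion (hF : Fintype.card F = p) (hodd : Odd p) (D : Data R) (hRf : R ≤ spGL 2 F)
    (hR : Nat.card R = 32) (hZ : Nat.card (Subgroup.center R) = 2) (hRm : Cfsg.Geo.IsOfMinusType 2 R)
    (r : ℕ) [Fact r.Prime] (hΩ : r ∣ (Cfsg.Geo.subgroupNormalizer R).relIndex (spGL 2 F)) :
    (∀ x ∈ spGL 2 F, (∃ z : F, ((x ^ r : GL ι4 F) : Matrix ι4 ι4 F) = z • 1) →
      (∀ z : F, (x : Matrix ι4 ι4 F) ≠ z • 1) →
      ∃ g ∈ spGL 2 F, g⁻¹ * x * g ∈ Cfsg.Geo.subgroupNormalizer R) ↔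
      (r = 2 ∨ (r = 5 ∧ orderOf (p : ZMod 5) = 4)) := by
  classical
  have hp := (Fact.out : p.Prime)
  have hp2 : p ≠ 2 := by rintro rfl; exact absurd hodd (by decide)
  have hcast : ∀ k : ℕ, k.Prime → p ≠ k → (k : F) ≠ 0 := fun k hk hne h =>
    hne ((Nat.prime_dvd_prime_iff_eq hp hk).1 ((CharP.cast_eq_zero_iff F p k).1 h))
  have h2 : (2 : F) ≠ 0 := by exact_mod_cast hcast 2 Nat.prime_two hp2
  have h4F : (4 : F) ≠ 0 := by rw [show (4 : F) = 2 * 2 by norm_num]; exact mul_ne_zero h2 h2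
  have hn := neg_one_mem D hZ hRf
  obtain ⟨x₀, hx₀, y₀, hy₀, u₀, hu₀, v₀, hv₀, G⟩ := exists_gens D hR hRm hn hRf h2
  have hone : ∀ c : F, (x₀ : Matrix ι4 ι4 F) ≠ c • 1 := fun c hc => by
    have h := G.xy
    rw [hc, Matrix.smul_mul, one_mul, Matrix.mul_smul, mul_one] at h
    have h' : ((2 : F) * c) • (y₀ : Matrix ι4 ι4 F) = 0 := by
      rw [mul_smul, two_smul]; nth_rw 2 [h]; rw [add_neg_cancel]
    have hc0 : c = 0 := (mul_eq_zero.1 ((smul_eq_zero.1 h').resolve_right y₀.ne_zero)).resolve_left h2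
    rw [hc0, zero_smul] at hc
    exact x₀.ne_zero hc
  constructor
  · intro hall
    by_contra hcon
    push Not at hcon
    obtain ⟨hr2, hr5⟩ := hcon
    have hrp := (Fact.out : r.Prime)
    have hrodd := hrp.odd_of_ne_two hr2
    have fin : ∀ x ∈ spGL 2 F, (∃ z : F, ((x ^ r : GL ι4 F) : Matrix ι4 ι4 F) = z • 1) →
        (∀ c : F, (x : Matrix ι4 ι4 F) ≠ c • 1) →
        (∀ h : GL ι4 F, h ∈ Cfsg.Geo.subgroupNormalizer R →
          (∃ z : F, ((h ^ r : GL ι4 F) : Matrix ι4 ι4 F) = z • 1) →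
          (∀ c : F, (h : Matrix ι4 ι4 F) ≠ c • 1) → ∀ g : GL ι4 F, h = g⁻¹ * x * g → False) → False := by
      intro x hx hz hns hbad
      obtain ⟨g, -, hgN⟩ := hall x hx hz hns
      obtain ⟨z, hz⟩ := hz
      refine hbad _ hgN ⟨z, ?_⟩ (fun c hc => hns c ?_) g rfl
      · have := conj_pow (i := r) (a := g⁻¹) (b := x)
        rw [inv_inv] at this
        rw [this, Units.val_mul, Units.val_mul, hz, Matrix.mul_smul, mul_one, Matrix.smul_mul, Units.inv_mul]
      · have e : x = g * (g⁻¹ * x * g) * g⁻¹ := by group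
        rw [e, Units.val_mul, Units.val_mul, hc, Matrix.mul_smul, mul_one, Matrix.smul_mul, Units.mul_inv]
    have htr : ∀ (g x : GL ι4 F), Matrix.trace ((g⁻¹ * x * g : GL ι4 F) : Matrix ι4 ι4 F) =
        Matrix.trace (x : Matrix ι4 ι4 F) := fun g x => by
      rw [Units.val_mul, Units.val_mul, Matrix.trace_mul_comm, ← mul_assoc, Units.mul_inv, one_mul]
    have htri : ∀ (g x : GL ι4 F), Matrix.trace (((g⁻¹ * x * g)⁻¹ : GL ι4 F) : Matrix ι4 ι4 F) =
        Matrix.trace ((x⁻¹ : GL ι4 F) : Matrix ι4 ι4 F) := fun g x => by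
      rw [show (g⁻¹ * x * g)⁻¹ = g⁻¹ * x⁻¹ * g by group, htr]
    have hnscal : ∀ x ∈ spGL 2 F, x ^ r = 1 → x ≠ 1 → ∀ c : F, (x : Matrix ι4 ι4 F) ≠ c • 1 := by
      intro x hx hxr hx1 c hc
      have c2 := sp_scalar hx hc
      have cr : c ^ r = 1 := by
        have := congrArg (fun t : GL ι4 F => (t : Matrix ι4 ι4 F) (Sum.inl 0) (Sum.inl 0)) hxr
        simpa [Units.val_pow_eq_pow_val, hc, smul_pow] using this
      have : c ^ Nat.gcd 2 r = 1 := pow_gcd_eq_one.2 ⟨c2, cr⟩
      rw [show Nat.gcd 2 r = 1 from (Nat.coprime_primes Nat.prime_two hrp).2 (Ne.symm hr2), pow_one] at this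
      exact hx1 (Units.ext (by rw [hc, this, one_smul, Units.val_one]))
    have htransv : p = r → False := by
      intro hpr
      set t := Cfsg.Geo.glReindex e4 (blockEl (1 : F) 1 0 1 (by ring)) with ht
      set u : Matrix ι4 ι4 F := Matrix.single (Sum.inl 0) (Sum.inr 0) 1 with hu
      have htu : (t : Matrix ι4 ι4 F) = 1 + u := by
        rw [ht, glReindex_coe, hu]
        ext a b
        rcases a with a | a <;> rcases b with b | b <;> fin_cases a <;> fin_cases b <;>
          simp [e4, blockEl, Matrix.single, Matrix.one_apply]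
      have huu : u * u = 0 := by simp [hu]
      have hpow : ∀ k : ℕ, ((t ^ k : GL ι4 F) : Matrix ι4 ι4 F) = 1 + (k : F) • u := by
        intro k
        induction k with
        | zero => simp
        | succ k ih =>
          rw [pow_succ, Units.val_mul, ih, htu, Nat.cast_succ, add_smul, one_smul]
          simp only [add_mul, mul_add, mul_one, one_mul, Matrix.smul_mul, huu, smul_zero, add_zero]
          abel
      have htp : t ^ r = 1 := Units.ext (by
        rw [hpow, ← hpr, CharP.cast_eq_zero F p, zero_smul, add_zero, Units.val_one])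
      have hmem : t ∈ spGL 2 F := blockEl_mem _ _ _ _ _
      have ht1 : t ≠ 1 := fun e => by
        have := congrFun (congrFun (congrArg (fun t : GL ι4 F => (t : Matrix ι4 ι4 F)) e) (Sum.inl 0)) (Sum.inr 0)
        rw [htu] at this
        simp [hu, Matrix.single] at this
      refine fin t hmem ⟨1, by rw [htp, Units.val_one, one_smul]⟩ (hnscal t hmem htp ht1) fun h hN _ hns g hg => ?_
      refine transvection_not_mem hp hp2 D (by simpa using h4F) (by rw [hZ, hR]; norm_num)
        (u := ((g⁻¹ : GL ι4 F) : Matrix ι4 ι4 F) * u * (g : Matrix ι4 ι4 F)) ?_ ?_ (fun X => ?_) hns hN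
      · rw [hg, Units.val_mul, Units.val_mul, htu, mul_add, add_mul, mul_one, Units.inv_mul]
      · simp only [mul_assoc, Units.mul_inv_cancel_left]
        rw [← mul_assoc u u, huu, zero_mul, mul_zero]
      · refine ⟨((g : Matrix ι4 ι4 F) * X * ((g⁻¹ : GL ι4 F) : Matrix ι4 ι4 F)) (Sum.inr 0) (Sum.inl 0), ?_⟩
        set Y := (g : Matrix ι4 ι4 F) * X * ((g⁻¹ : GL ι4 F) : Matrix ι4 ι4 F) with hY
        have huYu : u * Y * u = Y (Sum.inr 0) (Sum.inl 0) • u := by
          rw [hu, Matrix.smul_single]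
          ext a b
          simp [Matrix.single, Matrix.mul_apply, ite_and]
          split_ifs <;> rfl
        calc _ = ((g⁻¹ : GL ι4 F) : Matrix ι4 ι4 F) * (u * Y * u) * (g : Matrix ι4 ι4 F) := by
              simp only [hY, mul_assoc]
          _ = _ := by rw [huYu, Matrix.mul_smul, Matrix.smul_mul]
    by_cases h3 : r = 3
    · subst h3
      by_cases hp3 : p = 3
      · exact htransv hp3
      have h3F : (3 : F) ≠ 0 := by exact_mod_cast hcast 3 Nat.prime_three hp3
      set b := blockEl (0 : F) (-1) 1 (-1) (by ring) with hb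
      have hb2 : ((b ^ 2 : GL (Fin 4) F) : Matrix (Fin 4) (Fin 4) F) =
          !![-1, 1, 0, 0; -1, 0, 0, 0; 0, 0, 1, 0; 0, 0, 0, 1] := by
        rw [pow_two, Units.val_mul, hb]
        ext i j
        fin_cases i <;> fin_cases j <;> simp [blockEl, Matrix.mul_apply, Fin.sum_univ_four]
      have hb3 : b ^ 3 = 1 := by
        refine Units.ext ?_
        rw [pow_succ, Units.val_mul, hb2, Units.val_one, hb]
        ext i j
        fin_cases i <;> fin_cases j <;> simp [blockEl, Matrix.mul_apply, Fin.sum_univ_four]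
      set x := Cfsg.Geo.glReindex e4 b with hx
      have hxm : x ∈ spGL 2 F := blockEl_mem _ _ _ _ _
      have hx3 : x ^ 3 = 1 := by rw [hx, ← map_pow, hb3, map_one]
      have e1 : Matrix.trace (x : Matrix ι4 ι4 F) = 1 := by
        rw [hx, trace_glReindex, hb]; simp [blockEl, Matrix.trace, Fin.sum_univ_four]
      have e2 : Matrix.trace ((x⁻¹ : GL ι4 F) : Matrix ι4 ι4 F) = 1 := by
        rw [hx, ← map_inv, trace_glReindex, hb]
        show Matrix.trace (blockEl (0 : F) (-1) 1 (-1) (by ring)).inv = 1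
        simp [blockEl, Matrix.trace, Fin.sum_univ_four]
      have hx1 : x ≠ 1 := fun e => by
        rw [e, Units.val_one, Matrix.trace_one] at e1
        simp at e1
        exact h3F (by linear_combination e1)
      refine fin x hxm ⟨1, by rw [hx3, Units.val_one, one_smul]⟩ (hnscal x hxm hx3 hx1) fun h hN hz hns g hg => ?_
      have ht := trace_mul_trace D h2 hrodd hz hN
      rw [hg, htr, htri, e1, e2, hR, ← hg, Fintype.card_sum, Fintype.card_fin] at ht
      rcases fix_cases32 D hR hZ hr2 hz hns hN with ⟨-, hc | hc⟩ | ⟨h, -⟩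
      · exact fix_ne_two D h2 hn hRm hx₀ (Units.ext G.xx)
          ⟨fun e => hone 1 (by rw [e, Units.val_one, one_smul]),
            fun e => hone (-1) (by rw [e, Units.val_neg, Units.val_one, neg_one_smul])⟩ hz hN hc
      · rw [hc] at ht
        push_cast at ht
        exact mul_ne_zero (mul_ne_zero (mul_ne_zero h4F h4F) h2) h3F (by linear_combination -ht)
      · omega
    by_cases h5 : r = 5
    · subst h5
      by_cases hp5 : p = 5
      · exact htransv hp5
      have h5F : (5 : F) ≠ 0 := by exact_mod_cast hcast 5 (by norm_num) hp5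
      have hord := hr5 rfl
      haveI : Fact (Nat.Prime 5) := ⟨by norm_num⟩
      have hne : (p : ZMod 5) ≠ 0 := fun h => hp5
        ((Nat.prime_dvd_prime_iff_eq (by norm_num) hp).1 ((ZMod.natCast_eq_zero_iff _ _).1 h)).symm
      rw [Ne, orderOf_eq_four_iff] at hord
      have hpm : (p : ZMod 5) = 1 ∨ (p : ZMod 5) = 4 := by
        rcases five_split (p : ZMod 5) with h | h | h | h | h
        · exact absurd h hne
        · exact absurd (Or.inl h) hord
        · exact absurd (Or.inr h) hord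
        · exact Or.inl h
        · exact Or.inr h
      obtain ⟨ζ, hζ⟩ := exists_zeta F (r := 5) (by exact_mod_cast h5F)
      set z : AlgebraicClosure F := (ζ : AlgebraicClosure F) with hz
      have hz5 : z ^ 5 = 1 := (IsPrimitiveRoot.coe_units_iff.2 hζ).pow_eq_one
      have hzp : (z + z ^ 4) ^ p = z + z ^ 4 := by
        haveI : CharP (AlgebraicClosure F) p :=
          charP_of_injective_algebraMap (algebraMap F _).injective p
        rw [add_pow_char]
        have hmod : ∀ m : ℕ, z ^ m = z ^ (m % 5) := fun m => pow_eq_pow_mod m hz5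
        rcases hpm with h | h
        · have h' : p % 5 = 1 := by rw [← ZMod.val_natCast, h]; rfl
          rw [hmod p, h', pow_one, ← pow_mul, hmod (4 * p), show 4 * p % 5 = 4 by omega]
        · have h' : p % 5 = 4 := by rw [← ZMod.val_natCast, h]; rfl
          rw [hmod p, h', ← pow_mul, hmod (4 * p), show 4 * p % 5 = 1 by omega, pow_one, add_comm]
      obtain ⟨s, hs⟩ := exists_preimage_of_frob (p := p) hzp
      have hs2 : s ^ 2 + s = 1 := by
        refine (algebraMap F (AlgebraicClosure F)).injective ?_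
        rw [map_add, map_pow, hs, map_one]
        have hne : z ≠ 1 := (IsPrimitiveRoot.coe_units_iff.2 hζ).ne_one (by norm_num)
        have hsum : z ^ 4 + z ^ 3 + z ^ 2 + z + 1 = 0 :=
          (mul_eq_zero.1 (show (z - 1) * (z ^ 4 + z ^ 3 + z ^ 2 + z + 1) = 0 by linear_combination hz5)).resolve_left
            (sub_ne_zero.2 hne)
        linear_combination hsum + (2 + z ^ 3) * hz5
      have hbdet : (0 : F) * s - -1 * 1 = 1 := by ring
      obtain ⟨-, b5, b1, b2⟩ := blockEl_props hbdet (zero_add s) hs2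
      set x := Cfsg.Geo.glReindex e4 (blockEl 0 (-1) 1 s hbdet) with hx
      have hxm : x ∈ spGL 2 F := blockEl_mem _ _ _ _ _
      have hx5 : x ^ 5 = 1 := by rw [hx, ← map_pow, b5, map_one]
      have e1 : Matrix.trace (x : Matrix ι4 ι4 F) = s + 2 := by rw [hx, trace_glReindex, b1]
      have e2 : Matrix.trace ((x⁻¹ : GL ι4 F) : Matrix ι4 ι4 F) = s + 2 := by
        rw [hx, ← map_inv, trace_glReindex, b2]
      have hx1 : x ≠ 1 := fun e => by
        rw [e, Units.val_one, Matrix.trace_one] at e1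
        simp at e1
        have : s = 2 := by linear_combination -e1
        rw [this] at hs2
        exact h5F (by linear_combination hs2)
      refine fin x hxm ⟨1, by rw [hx5, Units.val_one, one_smul]⟩ (hnscal x hxm hx5 hx1) fun h hN hz' hns g hg => ?_
      have ht := trace_mul_trace D h2 hrodd hz' hN
      rw [hg, htr, htri, e1, e2, hR, ← hg, Fintype.card_sum, Fintype.card_fin] at ht
      rcases fix_cases32 D hR hZ hr2 hz' hns hN with ⟨h, -⟩ | ⟨-, hc⟩
      · omega
      rw [hc] at ht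
      push_cast at ht
      have h' : (s + 1) * (s + 3) = 0 := by
        refine (mul_eq_zero.1 (show ((4 : F) * 4 * 2) * ((s + 1) * (s + 3)) = 0 by linear_combination ht)).resolve_left ?_
        exact mul_ne_zero (mul_ne_zero h4F h4F) h2
      rcases mul_eq_zero.1 h' with e | e
      · have : s = -1 := by linear_combination e
        rw [this] at hs2
        exact one_ne_zero (by linear_combination -hs2 : (1 : F) = 0)
      · have : s = -3 := by linear_combination e
        rw [this] at hs2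
        exact h5F (by linear_combination hs2)
    · have h7 : 7 ≤ r := by
        have := hrp.two_le
        by_contra h
        interval_cases r <;> first | omega | exact absurd hrp (by norm_num)
      obtain ⟨⟨x, hxH⟩, hxo⟩ := exists_prime_orderOf_dvd_card' (G := spGL 2 F) r
        (hΩ.trans (Subgroup.relIndex_dvd_card _ _))
      rw [Subgroup.orderOf_mk] at hxo
      have hxr : x ^ r = 1 := hxo ▸ pow_orderOf_eq_one x
      have hx1 : x ≠ 1 := fun e => hrp.ne_one (hxo.symm.trans (orderOf_eq_one_iff.2 e))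
      refine fin x hxH ⟨1, by rw [hxr, Units.val_one, one_smul]⟩ (hnscal x hxH hxr hx1) fun h hN hz hns g hg => ?_
      rcases fix_cases32 D hR hZ hr2 hz hns hN with ⟨h, -⟩ | ⟨h, -⟩ <;> omega
  · rintro (rfl | ⟨rfl, hord⟩) x hx ⟨z, hz⟩ hns <;>
      have hzz := sp_scalar (pow_mem hx _) hz
    · -- both involutions have model conjugates in `R`
      have conjto : ∀ {t : GL ι4 F} {P Q : GL ι4 F} {M : Matrix ι4 ι4 F}, P ∈ spGL 2 F → Q ∈ spGL 2 F → t ∈ R →
          (x : Matrix ι4 ι4 F) * (P : Matrix ι4 ι4 F) = (P : Matrix ι4 ι4 F) * M →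
          (t : Matrix ι4 ι4 F) * (Q : Matrix ι4 ι4 F) = (Q : Matrix ι4 ι4 F) * M →
          ∃ g ∈ spGL 2 F, g⁻¹ * x * g ∈ Cfsg.Geo.subgroupNormalizer R := by
        intro t P Q M hP hQ ht e1 e2
        refine ⟨P * Q⁻¹, mul_mem hP (inv_mem hQ), ?_⟩
        have : (P * Q⁻¹)⁻¹ * x * (P * Q⁻¹) = t := by
          have e : x * (P * Q⁻¹) = (P * Q⁻¹) * t := by
            refine Units.ext ?_
            rw [Units.val_mul, Units.val_mul, Units.val_mul, ← mul_assoc, e1]
            have : M * ((Q⁻¹ : GL ι4 F) : Matrix ι4 ι4 F) = ((Q⁻¹ : GL ι4 F) : Matrix ι4 ι4 F) * t := by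
              calc M * ((Q⁻¹ : GL ι4 F) : Matrix ι4 ι4 F)
                  = ((Q⁻¹ : GL ι4 F) : Matrix ι4 ι4 F) * ((Q : Matrix ι4 ι4 F) * M) * ((Q⁻¹ : GL ι4 F) : Matrix ι4 ι4 F) := by
                    rw [← mul_assoc, Units.inv_mul, one_mul]
                _ = _ := by rw [← e2, mul_assoc, mul_assoc, Units.mul_inv, mul_one]
            rw [mul_assoc, this, ← mul_assoc, Units.val_mul]
          rw [mul_assoc, e]; group
        rw [this]
        exact Subgroup.le_normalizer ht
      have hx2' : (x : Matrix ι4 ι4 F) * x = z • 1 := by rw [← Units.val_mul, ← pow_two, hz]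
      rcases sq_eq_one_iff.1 hzz with rfl | rfl
      · rw [one_smul] at hx2'
        obtain ⟨P, hP, e1⟩ := involution_form hx hx2' h2
          (fun e => hns 1 (by rw [e, one_smul])) (fun e => hns (-1) (by rw [e, neg_one_smul]))
        obtain ⟨Q, hQ, e2⟩ := involution_form (hRf hx₀) G.xx h2
          (fun e => hone 1 (by rw [e, one_smul])) (fun e => hone (-1) (by rw [e, neg_one_smul]))
        exact conjto hP hQ hx₀ e1 e2
      · rw [neg_one_smul] at hx2'
        obtain ⟨P, hP, e1⟩ := anti_involution_form hx hx2' h2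
        obtain ⟨Q, hQ, e2⟩ := anti_involution_form (hRf hu₀) G.uu h2
        exact conjto hP hQ hu₀ e1 e2
    · haveI : Fact (Nat.Prime 5) := ⟨by norm_num⟩
      have hc0 := (orderOf_eq_four_iff _).1 hord
      have hc : ((1 : ℤ) : ZMod 5) * p = 2 ∨ ((1 : ℤ) : ZMod 5) * p = 3 := by simpa using hc0
      have hp5 : p ≠ 5 := by
        rintro rfl
        rw [ZMod.natCast_self] at hord
        simp at hord
      have h5 : (5 : F) ≠ 0 := by exact_mod_cast hcast 5 (by norm_num) hp5
      obtain ⟨h, hhm, hhN, hh5, hh1⟩ := exists_five D h2 h5 hRf hx₀ hy₀ hu₀ hv₀ G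
      have hz0 : z ≠ 0 := fun h => by rw [h] at hzz; simp at hzz
      obtain ⟨c, hcval⟩ : ∃ c : GL ι4 F, (c : Matrix ι4 ι4 F) = z • 1 := ⟨x ^ 5, hz⟩
      have hcx : c * x = x * c := Units.ext (by
        rw [Units.val_mul, Units.val_mul, hcval, Matrix.smul_mul, one_mul, Matrix.mul_smul, mul_one])
      have hx0 : (x * c) ^ 5 = 1 := by
        refine Units.ext ?_
        rw [(show Commute x c from hcx.symm).mul_pow, Units.val_mul, hz, Units.val_pow_eq_pow_val, hcval, smul_pow,
          one_pow, Matrix.smul_mul, one_mul, smul_smul, Units.val_one,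
          show z * z ^ 5 = (z ^ 2) ^ 3 by ring, hzz, one_pow, one_smul]
      have hcm : c ∈ spGL 2 F := by
        have e : c = x ^ 5 := Units.ext (by rw [hcval, hz])
        exact e ▸ pow_mem hx 5
      let Φ : GL ι4 F ≃* GL (Fin 4) F := Cfsg.Geo.glReindex e4.symm
      obtain ⟨g, hg⟩ := conj_into_zpowers (H := spGL 2 F) (q := 5)
        (fun a b ha ha1 hb hab => by
          obtain ⟨k, hk⟩ := commute_five (twist_top (n := 4) hF) (Or.inl rfl) h5 hc
            (x := Φ a.1) (z := Φ b.1) (Subgroup.mem_top _) (Subgroup.mem_top _)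
            (by rw [← map_pow, ← map_one Φ]; exact congrArg Φ (congrArg Subtype.val ha))
            (by rw [← map_pow, ← map_one Φ]; exact congrArg Φ (congrArg Subtype.val hb))
            (fun e => ha1 (Subtype.ext (Φ.injective (e.trans (map_one Φ).symm))))
            (by rw [← map_mul, ← map_mul]; exact congrArg Φ (congrArg Subtype.val hab))
          exact Subgroup.mem_zpowers_iff.2 ⟨k, Subtype.ext (Φ.injective (by
            rw [zpow_natCast, Subgroup.coe_pow, map_pow, hk]))⟩)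
        (h := ⟨h, hhm⟩) (Subtype.ext hh5) (fun e => hh1 (congrArg Subtype.val e)) (x := ⟨x * c, mul_mem hx hcm⟩)
        (Subtype.ext hx0)
      refine ⟨g.1, g.2, ?_⟩
      obtain ⟨k, hk⟩ := Subgroup.mem_zpowers_iff.1 hg
      have e : g.1⁻¹ * (x * c) * g.1 = h ^ k := by simpa using (congrArg Subtype.val hk).symm
      have e' : g.1⁻¹ * x * g.1 = g.1⁻¹ * (x * c) * g.1 * c⁻¹ := by
        have hcg : g.1 * c = c * g.1 := Units.ext (by
          rw [Units.val_mul, Units.val_mul, hcval, Matrix.mul_smul, mul_one, Matrix.smul_mul, one_mul])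
        calc g.1⁻¹ * x * g.1 = g.1⁻¹ * x * (g.1 * c) * c⁻¹ := by group
          _ = _ := by rw [hcg]; group
      rw [e', e]
      refine mul_mem (zpow_mem hhN k) (inv_mem (Subgroup.mem_normalizer_iff.2 fun t => ?_))
      have : c * t * c⁻¹ = t := by
        rw [mul_inv_eq_iff_eq_mul]
        exact Units.ext (by rw [Units.val_mul, Units.val_mul, hcval, Matrix.mul_smul, mul_one, Matrix.smul_mul, one_mul])
      rw [this]

end

end CfsgLib.Classical.PrimeDerangement.Sympl
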