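import Cfsg.Agent.Classical.PrimeDerangement.Sympl.Twist
import Cfsg.Agent.Classical.PrimeDerangement.Sympl.Models

/-!
The four-dimensional ambient groups `GL 4 p` and `GU 4 p` with the data used for symplectic type subgroups.
-/

set_option autoImplicit false

namespace CfsgLib.Classical.PrimeDerangement.Sympl

open Matrix CfsgLib.Classical.PrimeDerangement

variable {F : Type*} [Field F]

/-- A linear or unitary group in dimension four over a finite field of odd characteristic `p`. -/
structure Sys (F : Type*) [Field F] [Fintype F] where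
  /-- the ambient group -/
  A : Ambient F 4
  /-- the characteristic -/
  p : ℕ
  prime : p.Prime
  char : CharP F p
  p_ne_two : p ≠ 2
  /-- the sign -/
  e : ℤ
  he : e = 1 ∨ e = -1
  twist : Twist A.G p e
  /-- the order of the norms -/
  m : ℕ
  hm : (m : ℤ) = p - e
  m_dvd : m ∣ Fintype.card F - 1
  norms_iff : ∀ c : Fˣ, c ∈ A.norms ↔ c ^ m = 1
  frame4 : ∀ f : Fin 4 → Fin 4 → F, LinearIndependent F f →
    (∀ i j, i ≠ j → ∃ a ∈ A.G, ∃ s t : Fˣ, s ≠ t ∧ t ∈ A.norms ∧
      (a : Matrix (Fin 4) (Fin 4) F).mulVec (f i) = (s : F) • f i ∧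
      (a : Matrix (Fin 4) (Fin 4) F).mulVec (f j) = (t : F) • f j) →
    (∀ i, ∃ g ∈ A.G, (g : Matrix (Fin 4) (Fin 4) F).mulVec (f 0) = f i) →
    ∃ P ∈ A.G, ∃ c : F, ∀ i j, (P : Matrix (Fin 4) (Fin 4) F) i j = c * f j i
  model_mem : ∀ (i : F) (g : GL (Fin 4) F), i ^ p = (e : F) * i →
    (∃ re im : Fin 4 → Fin 4 → ℤ, ∀ a b,
      (g : Matrix (Fin 4) (Fin 4) F) a b = (2 : F)⁻¹ * ((re a b : F) + (im a b : F) * i) ∧
      ((g⁻¹ : GL (Fin 4) F) : Matrix (Fin 4) (Fin 4) F) a b = (2 : F)⁻¹ * ((re b a : F) - (im b a : F) * i)) →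
    g ∈ A.G
  block : ∀ s : F, s ^ p = s → s ^ 2 + s = 1 → ∃ g ∈ A.G, Matrix.GeneralLinearGroup.det g = 1 ∧ g ^ 5 = 1 ∧
    Matrix.trace (g : Matrix (Fin 4) (Fin 4) F) = s + 2 ∧
    Matrix.trace ((g⁻¹ : GL (Fin 4) F) : Matrix (Fin 4) (Fin 4) F) = s + 2
  transv : ∃ g ∈ A.G, ∃ u : Matrix (Fin 4) (Fin 4) F, (g : Matrix (Fin 4) (Fin 4) F) = 1 + u ∧ u * u = 0 ∧
    Matrix.GeneralLinearGroup.det g = 1 ∧ (∀ X, ∃ l : F, u * X * u = l • u) ∧
    ∀ c : F, (g : Matrix (Fin 4) (Fin 4) F) ≠ c • 1

/-- A block element from a `2 × 2` matrix of determinant one. -/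
def blockEl (a b c d : F) (h : a * d - b * c = 1) : GL (Fin 4) F where
  val := !![a, b, 0, 0; c, d, 0, 0; 0, 0, 1, 0; 0, 0, 0, 1]
  inv := !![d, -b, 0, 0; -c, a, 0, 0; 0, 0, 1, 0; 0, 0, 0, 1]
  val_inv := by
    ext i j
    fin_cases i <;> fin_cases j <;> simp [Matrix.mul_apply, Fin.sum_univ_four] <;>
      first | ring1 | linear_combination h
  inv_val := by
    ext i j
    fin_cases i <;> fin_cases j <;> simp [Matrix.mul_apply, Fin.sum_univ_four] <;>
      first | ring1 | linear_combination h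

theorem blockEl_props {a b c d : F} (h : a * d - b * c = 1) {s : F} (hs : a + d = s) (hs2 : s ^ 2 + s = 1) :
    Matrix.GeneralLinearGroup.det (blockEl a b c d h) = 1 ∧ blockEl a b c d h ^ 5 = 1 ∧
      Matrix.trace ((blockEl a b c d h : GL (Fin 4) F) : Matrix (Fin 4) (Fin 4) F) = s + 2 ∧
      Matrix.trace (((blockEl a b c d h)⁻¹ : GL (Fin 4) F) : Matrix (Fin 4) (Fin 4) F) = s + 2 := by
  set B := blockEl a b c d h with hB
  have e2 : ((B ^ 2 : GL (Fin 4) F) : Matrix (Fin 4) (Fin 4) F) =
      !![s * a - 1, s * b, 0, 0; s * c, s * d - 1, 0, 0; 0, 0, 1, 0; 0, 0, 0, 1] := by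
    rw [pow_two, Units.val_mul, hB]
    ext i j
    fin_cases i <;> fin_cases j <;> simp [blockEl, Matrix.mul_apply, Fin.sum_univ_four] <;>
      first | ring1 | linear_combination -h + a * hs | linear_combination b * hs | linear_combination c * hs |
        linear_combination -h + d * hs
  have e4 : ((B ^ 4 : GL (Fin 4) F) : Matrix (Fin 4) (Fin 4) F) =
      !![d, -b, 0, 0; -c, a, 0, 0; 0, 0, 1, 0; 0, 0, 0, 1] := by
    rw [show B ^ 4 = B ^ 2 * B ^ 2 from pow_add B 2 2, Units.val_mul, e2]
    obtain rfl : d = s - a := by linear_combination hs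
    ext i j
    fin_cases i <;> fin_cases j <;> simp [Matrix.mul_apply, Fin.sum_univ_four] <;>
      first
        | ring1
        | linear_combination -s ^ 2 * h + ((s - 1) * a - 1) * hs2
        | linear_combination ((s - 1) * b) * hs2
        | linear_combination ((s - 1) * c) * hs2
        | linear_combination -s ^ 2 * h + ((s - 1) * (s - a) - 1) * hs2
  refine ⟨Units.ext ?_, ?_, ?_, ?_⟩
  · rw [Matrix.GeneralLinearGroup.val_det_apply, hB, Units.val_one]
    simp [blockEl, Matrix.det_succ_row_zero, Fin.sum_univ_succ, Fin.succAbove]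
    linear_combination h
  · refine Units.ext ?_
    rw [pow_succ, Units.val_mul, e4, hB, Units.val_one]
    exact (blockEl a b c d h).inv_val
  · subst hs; simp [hB, blockEl, Matrix.trace, Fin.sum_univ_four]; ring
  · subst hs
    show Matrix.trace (blockEl a b c d h).inv = _
    simp [blockEl, Matrix.trace, Fin.sum_univ_four]; ring

section

variable [Fintype F] {p : ℕ} [Fact p.Prime] [CharP F p]

/-- The linear group. -/
noncomputable def linearSys (hF : Fintype.card F = p) (hp : p ≠ 2) : Sys F where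
  A := linearAmbient F 4
  p := p
  prime := Fact.out
  char := inferInstance
  p_ne_two := hp
  e := 1
  he := Or.inl rfl
  twist := twist_top hF
  m := p - 1
  hm := by have := (Fact.out : p.Prime).two_le; omega
  m_dvd := by rw [hF]
  norms_iff c := iff_of_true (Subgroup.mem_top _) (by
    classical
    rw [← hF, ← Fintype.card_units]; exact pow_card_eq_one)
  frame4 f hli _ _ := ⟨Matrix.GeneralLinearGroup.mk'' (Matrix.of fun i j => f j i)
    ((Matrix.isUnit_iff_isUnit_det _).1 (Matrix.linearIndependent_cols_iff_isUnit.1 hli)), Subgroup.mem_top _, 1,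
    fun i j => (one_mul _).symm⟩
  model_mem _ _ _ _ := Subgroup.mem_top _
  block s _ hs := ⟨blockEl 0 (-1) 1 s (by ring), Subgroup.mem_top _, blockEl_props _ (zero_add s) hs⟩
  transv := by
    refine ⟨Matrix.GeneralLinearGroup.mk'' !![1, 1, 0, 0; 0, 1, 0, 0; 0, 0, 1, 0; 0, 0, 0, 1]
      (by simp [Matrix.det_succ_row_zero, Fin.sum_univ_succ]), Subgroup.mem_top _, Matrix.single 0 1 1,
      ?_, ?_, ?_, fun X => ⟨X 1 0, ?_⟩, fun c hc => ?_⟩
    · ext i j
      show (!![1, 1, 0, 0; 0, 1, 0, 0; 0, 0, 1, 0; 0, 0, 0, 1] : Matrix (Fin 4) (Fin 4) F) i j = _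
      fin_cases i <;> fin_cases j <;> simp [Matrix.single, Matrix.one_apply]
    · simp
    · refine Units.ext ?_
      rw [Matrix.GeneralLinearGroup.val_det_apply, Units.val_one]
      show (!![1, 1, 0, 0; 0, 1, 0, 0; 0, 0, 1, 0; 0, 0, 0, 1] : Matrix (Fin 4) (Fin 4) F).det = 1
      simp [Matrix.det_succ_row_zero, Fin.sum_univ_succ]
    · ext i j
      fin_cases i <;> fin_cases j <;> simp [Matrix.single, Matrix.mul_apply, Fin.sum_univ_four]
    · have : (!![1, 1, 0, 0; 0, 1, 0, 0; 0, 0, 1, 0; 0, 0, 0, 1] : Matrix (Fin 4) (Fin 4) F) 0 1 =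
        (c • (1 : Matrix (Fin 4) (Fin 4) F)) 0 1 := congrFun (congrFun hc 0) 1
      simp at this

open CfsgLib.Unitary Cfsg in
/-- The unitary group. -/
noncomputable def unitarySys (hF : Fintype.card F = p ^ 2) (hp : p ≠ 2) : Sys F where
  A := unitaryAmbient hF 4
  p := p
  prime := Fact.out
  char := inferInstance
  p_ne_two := hp
  e := -1
  he := Or.inr rfl
  twist := twist_GU hF
  m := p + 1
  hm := by push_cast; ring
  m_dvd := by rw [hF]; exact ⟨p - 1, by rw [show p ^ 2 - 1 = p ^ 2 - 1 ^ 2 by rw [one_pow], Nat.sq_sub_sq]⟩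
  norms_iff c := MonoidHom.mem_ker
  frame4 f hli hsep htr := by
    have horth : ∀ i j, i ≠ j → hermForm 4 F p (f i) (f j) = 0 := fun i j hij => by
      obtain ⟨a, ha, s, t, hst, ht, hai, haj⟩ := hsep i j hij
      exact herm_eq_zero_of_eigen ha (by simpa using congrArg Units.val (MonoidHom.mem_ker.1 ht))
        (fun h => hst (Units.ext h)) hai haj
    have heq : ∀ j, hermForm 4 F p (f j) (f j) = hermForm 4 F p (f 0) (f 0) := fun j => by
      obtain ⟨g, hg, hgj⟩ := htr j
      rw [← hgj, mem_GU.1 hg]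
    have hnz : hermForm 4 F p (f 0) (f 0) ≠ 0 := by
      intro h0
      refine hli.ne_zero 0 (herm_nondeg hF _ fun v => ?_)
      let B := basisOfLinearIndependentOfCardEqFinrank hli (Module.finrank_fintype_fun_eq_card F).symm
      rw [← B.sum_repr v, herm_sum_right hF]
      refine Finset.sum_eq_zero fun j _ => ?_
      rw [herm_smul_right, coe_basisOfLinearIndependentOfCardEqFinrank]
      rcases eq_or_ne 0 j with h | h
      · rw [← h, h0, mul_zero]
      · rw [horth _ _ h, mul_zero]
    obtain ⟨c, hc⟩ := exists_norm_eq hF (a := (hermForm 4 F p (f 0) (f 0))⁻¹)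
      (by rw [inv_pow, herm_self_fixed hF])
    have hf : Orthonorm p fun i => c • f i := by
      intro i j
      rw [herm_smul_left, herm_smul_right, ← mul_assoc, ← pow_succ', hc]
      rcases eq_or_ne i j with rfl | h
      · rw [heq i, inv_mul_cancel₀ hnz, if_pos rfl]
      · rw [horth i j h, mul_zero, if_neg h]
    exact ⟨((guEquivOrthonorm hF).symm ⟨_, hf⟩).1, ((guEquivOrthonorm hF).symm ⟨_, hf⟩).2, c, fun i j => rfl⟩
  model_mem i g hi := by
    rintro ⟨re, im, h⟩
    refine mem_GU.2 ((preserves_iff_orthonorm_cols hF _).2 fun a b => ?_)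
    have h2 : (2 : F) ^ p = 2 := by
      simpa [frobenius_def] using map_natCast (frobenius F p) 2
    have hconj : ∀ a b, (g : Matrix (Fin 4) (Fin 4) F) a b ^ p =
        ((g⁻¹ : GL (Fin 4) F) : Matrix (Fin 4) (Fin 4) F) b a := by
      intro a b
      rw [(h a b).1, (h b a).2, mul_pow, inv_pow, h2, add_pow_q hF, mul_pow, hi]
      have hint : ∀ z : ℤ, (z : F) ^ p = z := fun z => (frobenius_def (p := p) (z : F)).symm.trans (map_intCast (frobenius F p) z)
      rw [hint, hint]
      push_cast
      ring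
    have e := congrFun (congrFun g.inv_mul b) a
    rw [Matrix.mul_apply, Matrix.one_apply] at e
    simp only [hermForm, cols, hconj]
    rw [Finset.sum_congr rfl fun k _ => mul_comm _ _, e]
    exact if_congr eq_comm rfl rfl
  block s hsp hs := by
    have h2 : (2 : F) ≠ 0 := fun h => hp ((Nat.prime_dvd_prime_iff_eq Fact.out Nat.prime_two).1
      ((CharP.cast_eq_zero_iff F p 2).1 (by exact_mod_cast h)))
    have h2p : (2 : F) ^ p = 2 := by simpa [frobenius_def] using map_natCast (frobenius F p) 2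
    set a := s / 2 with ha
    have hap : a ^ p = a := by rw [ha, div_pow, hsp, h2p]
    obtain ⟨b, hb⟩ := exists_norm_eq hF (a := 1 - a * a) (by rw [sub_pow_q hF, one_pow, mul_pow, hap])
    have hdet : a * a - b * (-b ^ p) = 1 := by rw [pow_succ] at hb; linear_combination hb
    refine ⟨blockEl a b (-b ^ p) a hdet, ?_, blockEl_props _ (by rw [ha]; field_simp; ring) hs⟩
    refine mem_GU.2 ((preserves_iff_orthonorm_cols hF _).2 fun i j => ?_)
    have hbb : (b ^ p) ^ p = b := pow_q_q hF b
    fin_cases i <;> fin_cases j <;>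
      simp [hermForm, cols, blockEl, Fin.sum_univ_four, hap, zero_pow_q hF, neg_pow_q hF, hbb] <;>
      first | ring1 | linear_combination hdet
  transv := by
    obtain ⟨b, hb⟩ := exists_norm_eq hF (a := (-1 : F)) (by rw [neg_pow_q hF, one_pow])
    obtain ⟨c, hc0, hc⟩ : ∃ c : F, c ≠ 0 ∧ c + c ^ p = 0 := by
      by_contra h
      push Not at h
      have h1 := card_trace_zero hF
      have : Nat.card {x : F // x + x ^ p = 0} ≤ 1 := by
        rw [Finite.card_le_one_iff_subsingleton]
        exact ⟨fun x y => Subtype.ext ((by_contra fun hx => h x.1 hx x.2 : x.1 = 0).trans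
          (by_contra fun hy => h y.1 hy y.2 : y.1 = 0).symm)⟩
      have := (Fact.out : p.Prime).two_le
      omega
    set u : Matrix (Fin 4) (Fin 4) F := !![c, c * b ^ p, 0, 0; c * b, c * (b * b ^ p), 0, 0; 0, 0, 0, 0; 0, 0, 0, 0] with hu
    have hb' : b * b ^ p = -1 := by rw [← pow_succ', hb]
    have hdet : (1 + c) * (1 + c * (b * b ^ p)) - c * b ^ p * (c * b) = 1 := by linear_combination c * hb'
    refine ⟨blockEl (1 + c) (c * b ^ p) (c * b) (1 + c * (b * b ^ p)) hdet, ?_, u, ?_, ?_, ?_, fun X => ?_,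
      fun l hl => ?_⟩
    · refine mem_GU.2 ((preserves_iff_orthonorm_cols hF _).2 fun i j => ?_)
      have hbb : (b ^ p) ^ p = b := pow_q_q hF b
      have hcp : c ^ p = -c := by linear_combination hc
      fin_cases i <;> fin_cases j <;>
        simp [hermForm, cols, blockEl, Fin.sum_univ_four, zero_pow_q hF, add_pow_q hF, mul_pow, hbb, hcp] <;>
        first | ring1 | linear_combination -c ^ 2 * hb' | linear_combination -c ^ 2 * b ^ p * hb' |
          linear_combination -c ^ 2 * b * hb' | linear_combination (-c ^ 2 * (b * b ^ p)) * hb'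
    · ext i j
      fin_cases i <;> fin_cases j <;> simp [blockEl, hu, Matrix.one_apply]
    · ext i j
      fin_cases i <;> fin_cases j <;> simp [hu, Matrix.mul_apply, Fin.sum_univ_four] <;>
        first | ring1 | linear_combination c ^ 2 * hb' | linear_combination c ^ 2 * b ^ p * hb' |
          linear_combination c ^ 2 * b * hb' | linear_combination c ^ 2 * (b * b ^ p) * hb'
    · refine Units.ext ?_
      rw [Matrix.GeneralLinearGroup.val_det_apply, Units.val_one]
      simp [blockEl, Matrix.det_succ_row_zero, Fin.sum_univ_succ, Fin.succAbove]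
      linear_combination hdet
    · refine ⟨c * (X 0 0 + b * X 0 1 + b ^ p * X 1 0 + b * b ^ p * X 1 1), ?_⟩
      ext i j
      fin_cases i <;> fin_cases j <;> simp [hu, Matrix.mul_apply, Matrix.vecMul, dotProduct, Fin.sum_univ_four] <;> ring
    · have e00 := congrFun (congrFun hl 0) 0
      have e22 := congrFun (congrFun hl 2) 2
      simp [blockEl] at e00 e22
      exact hc0 (by linear_combination e00 - e22)

end

end CfsgLib.Classical.PrimeDerangement.Sympl
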