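import Cfsg.Agent.Classical.PrimeDerangement.Diag
import Mathlib.FieldTheory.IsAlgClosed.AlgebraicClosure
import Mathlib.FieldTheory.Finite.Basic
import Mathlib.RingTheory.RootsOfUnity.EnoughRootsOfUnity
import Mathlib.LinearAlgebra.Matrix.Charpoly.Coeff

/-!
The eigenvalues of an element of `GL n p` are invariant under `λ ↦ λ ^ p`, those of an element of `GU n p`
under `λ ↦ λ ^ -p`: consequences for elements of order 2, 3 and 5.
-/

set_option autoImplicit false

namespace CfsgLib.Classical.PrimeDerangement.Sympl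

open Matrix CfsgLib.Classical.PrimeDerangement

variable {F : Type*} [Field F] {n : ℕ}

/-- The element over the algebraic closure. -/
noncomputable def toClosure : GL (Fin n) F →* GL (Fin n) (AlgebraicClosure F) :=
  Matrix.GeneralLinearGroup.map (algebraMap F (AlgebraicClosure F))

theorem toClosure_injective : Function.Injective (toClosure : GL (Fin n) F → GL (Fin n) (AlgebraicClosure F)) :=
  fun a b h => Units.ext (Matrix.map_injective (algebraMap F (AlgebraicClosure F)).injective
    (congrArg (fun t : GL (Fin n) (AlgebraicClosure F) => (t : Matrix (Fin n) (Fin n) (AlgebraicClosure F))) h))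

theorem coe_toClosure (g : GL (Fin n) F) : ((toClosure g : GL (Fin n) (AlgebraicClosure F)) :
    Matrix (Fin n) (Fin n) (AlgebraicClosure F)) = (g : Matrix (Fin n) (Fin n) F).map (algebraMap F _) := rfl

/-- The eigenvalue condition: raising to the `p`-th power agrees with raising to the power `e`. -/
def Twist (G : Subgroup (GL (Fin n) F)) (p : ℕ) (e : ℤ) : Prop :=
  ∀ g ∈ G, ∀ (P : GL (Fin n) (AlgebraicClosure F)) (d : Fin n → (AlgebraicClosure F)ˣ),
    toClosure g * P = P * diagU d →
      (Finset.univ.val.map fun i => ((d i ^ p : (AlgebraicClosure F)ˣ) : AlgebraicClosure F)) =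
        Finset.univ.val.map fun i => ((d i ^ e : (AlgebraicClosure F)ˣ) : AlgebraicClosure F)

theorem charpoly_eq_of_conj {K : Type*} [Field K] {g P : GL (Fin n) K} {d : Fin n → Kˣ}
    (h : g * P = P * diagU d) :
    (g : Matrix (Fin n) (Fin n) K).charpoly = ∏ i, (Polynomial.X - Polynomial.C (d i : K)) := by
  have e : g = P * diagU d * P⁻¹ := by rw [← h, mul_inv_cancel_right]
  rw [e, Units.val_mul, Units.val_mul, Matrix.coe_units_inv, Matrix.charpoly_units_conj, coe_diagU, Matrix.charpoly_diagonal]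

theorem map_eq_of_charpoly {K : Type*} [Field K] {a b : Fin n → K}
    (h : ∏ i, (Polynomial.X - Polynomial.C (a i)) = ∏ i, (Polynomial.X - Polynomial.C (b i))) :
    Finset.univ.val.map a = Finset.univ.val.map b := by
  have := congrArg Polynomial.roots h
  rwa [Polynomial.roots_prod _ _ (Finset.prod_ne_zero_iff.2 fun i _ => Polynomial.X_sub_C_ne_zero _),
    Polynomial.roots_prod _ _ (Finset.prod_ne_zero_iff.2 fun i _ => Polynomial.X_sub_C_ne_zero _),
    Multiset.bind_congr (fun i _ => Polynomial.roots_X_sub_C _),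
    Multiset.bind_congr (fun i _ => Polynomial.roots_X_sub_C _),
    Multiset.bind_singleton, Multiset.bind_singleton] at this

section

variable [Fintype F] {p : ℕ} [Fact p.Prime] [CharP F p]

theorem twist_top (hF : Fintype.card F = p) : Twist (⊤ : Subgroup (GL (Fin n) F)) p 1 := by
  intro g _ P d h
  haveI : CharP (AlgebraicClosure F) p := charP_of_injective_algebraMap (algebraMap F _).injective p
  refine map_eq_of_charpoly ?_
  have h1 := congrArg (Polynomial.map (frobenius (AlgebraicClosure F) p)) (charpoly_eq_of_conj h)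
  rw [← Matrix.charpoly_map, coe_toClosure, Matrix.map_map, Polynomial.map_prod] at h1
  simp only [Polynomial.map_sub, Polynomial.map_X, Polynomial.map_C, frobenius_def, ← Units.val_pow_eq_pow_val]
    at h1
  simp only [zpow_one]
  rw [← h1, ← charpoly_eq_of_conj h, coe_toClosure]
  congr 2
  funext x
  simp only [Function.comp_apply, frobenius_def, ← map_pow]
  rw [show x ^ p = x by rw [← hF]; exact FiniteField.pow_card x]

theorem twist_GU (hF : Fintype.card F = p ^ 2) : Twist (Cfsg.GU n F p) p (-1) := by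
  intro g hg P d h
  haveI : CharP (AlgebraicClosure F) p := charP_of_injective_algebraMap (algebraMap F _).injective p
  refine map_eq_of_charpoly ?_
  have h1 := congrArg (Polynomial.map (frobenius (AlgebraicClosure F) p)) (charpoly_eq_of_conj h)
  rw [← Matrix.charpoly_map, Polynomial.map_prod] at h1
  simp only [Polynomial.map_sub, Polynomial.map_X, Polynomial.map_C, frobenius_def, ← Units.val_pow_eq_pow_val]
    at h1
  have hi : toClosure g⁻¹ * P = P * diagU d⁻¹ := by
    have e : toClosure g = P * diagU d * P⁻¹ := by rw [← h, mul_inv_cancel_right]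
    have e2 : (diagU d)⁻¹ = diagU d⁻¹ := Units.ext rfl
    rw [map_inv, e, ← e2]; group
  simp only [_root_.zpow_neg_one]
  rw [← h1]
  refine Eq.trans ?_ (charpoly_eq_of_conj hi)
  have hM : (g : Matrix (Fin n) (Fin n) F).map (fun x => x ^ p) =
      ((g⁻¹ : GL (Fin n) F) : Matrix (Fin n) (Fin n) F).transpose := by
    have ho := CfsgLib.Unitary.conjTranspose_mul_self hF (q := p) (M := (g : Matrix (Fin n) (Fin n) F))
      ((CfsgLib.Unitary.preserves_iff_orthonorm_cols hF _).1 (CfsgLib.Unitary.mem_GU.1 hg))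
    rw [Units.inv_eq_of_mul_eq_one_left (u := g) ho]
    exact (Matrix.transpose_transpose _).symm
  rw [coe_toClosure, coe_toClosure, Matrix.map_map]
  rw [← Matrix.charpoly_transpose ((((g⁻¹ : GL (Fin n) F) : Matrix (Fin n) (Fin n) F)).map _),
    ← Matrix.transpose_map, ← hM, Matrix.map_map]
  congr 2
  funext x
  simp [frobenius_def]

end

variable {G : Subgroup (GL (Fin n) F)} {p : ℕ} {e : ℤ}

/-- The exponents of a diagonal form are invariant. -/
theorem count_invariant (hT : Twist G p e) (he : e = 1 ∨ e = -1) {r : ℕ} [Fact r.Prime]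
    {ζ : (AlgebraicClosure F)ˣ} (hζ : IsPrimitiveRoot ζ r) {g : GL (Fin n) F} (hg : g ∈ G)
    {P : GL (Fin n) (AlgebraicClosure F)} {f : Fin n → ZMod r}
    (hP : toClosure g * P = P * diagU (fun i => ζ ^ (f i).val)) :
    ∀ k : ZMod r, (Finset.univ.filter fun i => (e : ZMod r) * p * f i = k).card =
      (Finset.univ.filter fun i => f i = k).card := by
  classical
  have hm := hT g hg P _ hP
  let ψ : ZMod r → AlgebraicClosure F := fun k => ((ζ ^ k.val : (AlgebraicClosure F)ˣ) : AlgebraicClosure F)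
  have hψ : Function.Injective ψ := fun a b h =>
    ZMod.val_injective r (hζ.pow_inj (ZMod.val_lt a) (ZMod.val_lt b) (Units.ext h))
  have hψn : ∀ m : ℕ, ψ (m : ZMod r) = ((ζ ^ m : (AlgebraicClosure F)ˣ) : AlgebraicClosure F) := fun m => by
    show ((ζ ^ (m : ZMod r).val : (AlgebraicClosure F)ˣ) : AlgebraicClosure F) = _
    rw [ZMod.val_natCast, hζ.eq_orderOf, pow_mod_orderOf]
  have hψe : ∀ m : ℕ, ψ ((e : ZMod r) * m) = (((ζ ^ m) ^ e : (AlgebraicClosure F)ˣ) : AlgebraicClosure F) := fun m => by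
    rcases he with rfl | rfl
    · rw [Int.cast_one, one_mul, hψn, zpow_one]
    · show ((ζ ^ _ : (AlgebraicClosure F)ˣ) : AlgebraicClosure F) = _
      congr 1
      rw [_root_.zpow_neg_one, eq_inv_iff_mul_eq_one, ← pow_add, hζ.pow_eq_one_iff_dvd, ← ZMod.natCast_eq_zero_iff,
        Nat.cast_add, ZMod.natCast_zmod_val, Int.cast_neg, Int.cast_one, neg_one_mul, neg_add_cancel]
  have hm' : (Finset.univ.val.map fun i => (p : ZMod r) * f i) =
      Finset.univ.val.map fun i => (e : ZMod r) * f i := by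
    refine Multiset.map_injective hψ ?_
    rw [Multiset.map_map, Multiset.map_map]
    simp only [Function.comp_def]
    conv_rhs => arg 1; ext i; rw [← ZMod.natCast_zmod_val (f i), hψe]
    rw [← hm]
    refine Multiset.map_congr rfl fun i _ => ?_
    show ψ ((p : ZMod r) * f i) = _
    rw [← ZMod.natCast_zmod_val (f i), ← Nat.cast_mul, hψn, mul_comm, pow_mul, ZMod.natCast_zmod_val]
  intro k
  have hee : (e : ZMod r) * e = 1 := by rcases he with rfl | rfl <;> simp
  have hm2 := congrArg (Multiset.map fun x => (e : ZMod r) * x) hm'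
  simp only [Multiset.map_map, Function.comp_def, ← mul_assoc, hee, one_mul] at hm2
  have := congrArg (Multiset.count k) hm2
  simp only [Multiset.count_map, eq_comm (a := k)] at this
  exact this

/-- Diagonal form over the closure of an element with `g ^ r = 1`, with the exponents as a multiset. -/
theorem exps_of_pow (hT : Twist G p e) (he : e = 1 ∨ e = -1) {r : ℕ} [Fact r.Prime] (hr : (r : F) ≠ 0)
    {ζ : (AlgebraicClosure F)ˣ} (hζ : IsPrimitiveRoot ζ r) {g : GL (Fin n) F} (hg : g ∈ G) (hgr : g ^ r = 1) :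
    ∃ (P : GL (Fin n) (AlgebraicClosure F)) (f : Fin n → ZMod r),
      toClosure g * P = P * diagU (fun i => ζ ^ (f i).val) ∧
      ∀ k : ZMod r, (Finset.univ.filter fun i => (e : ZMod r) * p * f i = k).card =
        (Finset.univ.filter fun i => f i = k).card := by
  classical
  have hrL : (r : AlgebraicClosure F) ≠ 0 := by
    rw [← map_natCast (algebraMap F (AlgebraicClosure F))]
    exact fun h => hr ((algebraMap F (AlgebraicClosure F)).injective (h.trans (map_zero _).symm))
  obtain ⟨P, -, ex, hP⟩ := (linearAmbient (AlgebraicClosure F) n).eigen r ζ 1 hζ (Fact.out : r.Prime).one_lt hrL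
    (Subgroup.mem_top _) (Subgroup.mem_top _) (toClosure g) (Subgroup.mem_top _) (by
      rw [← Units.val_pow_eq_pow_val, ← map_pow, hgr, map_one, Units.val_one, Units.val_one, one_pow, one_smul])
  refine ⟨P, fun i => (ex i : ZMod r), ?_, ?_⟩
  · rw [hP]
    congr 2
    funext i
    rw [one_mul, ZMod.val_natCast, hζ.eq_orderOf, pow_mod_orderOf]
  · refine count_invariant hT he hζ hg (P := P) ?_
    rw [hP]
    congr 2
    funext i
    rw [one_mul, ZMod.val_natCast, hζ.eq_orderOf, pow_mod_orderOf]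

theorem exists_zeta (F : Type*) [Field F] {r : ℕ} (hr : (r : F) ≠ 0) :
    ∃ ζ : (AlgebraicClosure F)ˣ, IsPrimitiveRoot ζ r := by
  have hrL : (r : AlgebraicClosure F) ≠ 0 := by
    rw [← map_natCast (algebraMap F (AlgebraicClosure F))]
    exact fun h => hr ((algebraMap F (AlgebraicClosure F)).injective (h.trans (map_zero _).symm))
  haveI : NeZero (r : AlgebraicClosure F) := ⟨hrL⟩
  haveI : NeZero r := ⟨fun h => hrL (by simp [h])⟩
  obtain ⟨z, hz⟩ := HasEnoughRootsOfUnity.exists_primitiveRoot (AlgebraicClosure F) r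
  exact ⟨(hz.isUnit (NeZero.ne r)).unit, hz.isUnit_unit (NeZero.ne r)⟩

theorem det_toClosure_eq {g : GL (Fin n) F} {P : GL (Fin n) (AlgebraicClosure F)}
    {d : Fin n → (AlgebraicClosure F)ˣ} (h : toClosure g * P = P * diagU d) :
    algebraMap F (AlgebraicClosure F) (g : Matrix (Fin n) (Fin n) F).det = ∏ i, (d i : AlgebraicClosure F) := by
  have e : toClosure g = P * diagU d * P⁻¹ := by rw [← h, mul_inv_cancel_right]
  rw [RingHom.map_det]
  show ((toClosure g : GL (Fin n) (AlgebraicClosure F)) : Matrix (Fin n) (Fin n) (AlgebraicClosure F)).det = _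
  rw [e, Units.val_mul, Units.val_mul, Matrix.det_units_conj, coe_diagU, Matrix.det_diagonal]

theorem trace_toClosure_eq {g : GL (Fin n) F} {P : GL (Fin n) (AlgebraicClosure F)}
    {d : Fin n → (AlgebraicClosure F)ˣ} (h : toClosure g * P = P * diagU d) :
    algebraMap F (AlgebraicClosure F) (Matrix.trace (g : Matrix (Fin n) (Fin n) F)) =
      ∑ i, (d i : AlgebraicClosure F) := by
  have e : toClosure g = P * diagU d * P⁻¹ := by rw [← h, mul_inv_cancel_right]
  refine Eq.trans (AddMonoidHom.map_trace (algebraMap F (AlgebraicClosure F)).toAddMonoidHom _) ?_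
  show Matrix.trace ((toClosure g : GL (Fin n) (AlgebraicClosure F)) : Matrix (Fin n) (Fin n) (AlgebraicClosure F)) = _
  rw [e, Units.val_mul, Units.val_mul, Matrix.trace_units_conj, coe_diagU, Matrix.trace_diagonal]

theorem five_exps : ∀ c : ZMod 5, (c = 2 ∨ c = 3) → ∀ f : Fin 4 → ZMod 5,
    (∀ k, (Finset.univ.filter fun i => c * f i = k).card = (Finset.univ.filter fun i => f i = k).card) →
    (∀ i, f i = 0) ∨ ((∀ i, f i ≠ 0) ∧ Function.Injective f) := by
  decide +kernel

variable {G₄ : Subgroup (GL (Fin 4) F)}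

theorem eq_one_of_fixed_five (hT : Twist G₄ p e) (he : e = 1 ∨ e = -1) (h5 : (5 : F) ≠ 0)
    (hc : (e : ZMod 5) * p = 2 ∨ (e : ZMod 5) * p = 3) {y : GL (Fin 4) F} (hy : y ∈ G₄) (hy5 : y ^ 5 = 1)
    {ζ : (AlgebraicClosure F)ˣ} (hζ : IsPrimitiveRoot ζ 5) :
    y = 1 ∨ ∃ (P : GL (Fin 4) (AlgebraicClosure F)) (f : Fin 4 → ZMod 5),
      toClosure y * P = P * diagU (fun i => ζ ^ (f i).val) ∧ (∀ i, f i ≠ 0) ∧ Function.Injective f := by
  haveI : Fact (Nat.Prime 5) := ⟨by norm_num⟩
  obtain ⟨P, f, hP, hf⟩ := exps_of_pow hT he (r := 5) (by exact_mod_cast h5) hζ hy hy5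
  rcases five_exps _ hc f hf with h0 | h1
  · left
    refine toClosure_injective ?_
    rw [map_one]
    have e1 : diagU (fun i => ζ ^ (f i).val) = (1 : GL (Fin 4) (AlgebraicClosure F)) := Units.ext (by
      rw [coe_diagU, Units.val_one, ← Matrix.diagonal_one]
      congr 1; funext i; simp [h0 i])
    rw [e1, mul_one] at hP
    exact mul_right_cancel (hP.trans (one_mul P).symm)
  · exact Or.inr ⟨P, f, hP, h1⟩

/-- Commuting elements of order 5 generate the same group. -/
theorem commute_five (hT : Twist G₄ p e) (he : e = 1 ∨ e = -1) (h5 : (5 : F) ≠ 0)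
    (hc : (e : ZMod 5) * p = 2 ∨ (e : ZMod 5) * p = 3) {x z : GL (Fin 4) F} (hx : x ∈ G₄) (hz : z ∈ G₄)
    (hx5 : x ^ 5 = 1) (hz5 : z ^ 5 = 1) (hx1 : x ≠ 1) (hxz : x * z = z * x) : ∃ k : ℕ, z = x ^ k := by
  haveI : Fact (Nat.Prime 5) := ⟨by norm_num⟩
  obtain ⟨ζ, hζ⟩ := exists_zeta F (r := 5) (by exact_mod_cast h5)
  obtain ⟨P, f, hP, hf0, hfi⟩ := (eq_one_of_fixed_five hT he h5 hc hx hx5 hζ).resolve_left hx1
  set d := fun i => ζ ^ (f i).val with hd
  set Z := P⁻¹ * toClosure z * P with hZ
  have hex : toClosure x = P * diagU d * P⁻¹ := by rw [← hP, mul_inv_cancel_right]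
  have hZd : diagU d * Z = Z * diagU d := by
    have := congrArg toClosure hxz
    rw [map_mul, map_mul, hex] at this
    calc diagU d * Z = P⁻¹ * ((P * diagU d * P⁻¹) * toClosure z) * P := by rw [hZ]; group
      _ = P⁻¹ * (toClosure z * (P * diagU d * P⁻¹)) * P := by rw [this]
      _ = Z * diagU d := by rw [hZ]; group
  have hdinj : ∀ i j, (d i : AlgebraicClosure F) = d j → i = j := fun i j h =>
    hfi (ZMod.val_injective 5 (hζ.pow_inj (ZMod.val_lt _) (ZMod.val_lt _) (Units.ext h)))
  have hoff : ∀ i j, i ≠ j → (Z : Matrix (Fin 4) (Fin 4) (AlgebraicClosure F)) i j = 0 := by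
    intro i j hij
    have := congrFun (congrFun (congrArg (fun t : GL (Fin 4) (AlgebraicClosure F) => (t : Matrix (Fin 4) (Fin 4) (AlgebraicClosure F))) hZd) i) j
    simp only [Units.val_mul, coe_diagU, Matrix.diagonal_mul, Matrix.mul_diagonal] at this
    by_contra h0
    refine hij (hdinj i j ?_)
    exact mul_right_cancel₀ h0 (this.trans (mul_comm _ _))
  have hdiag : (Z : Matrix (Fin 4) (Fin 4) (AlgebraicClosure F)) =
      Matrix.diagonal fun i => (Z : Matrix (Fin 4) (Fin 4) (AlgebraicClosure F)) i i := by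
    ext i j
    rcases eq_or_ne i j with rfl | h
    · rw [Matrix.diagonal_apply_eq]
    · rw [Matrix.diagonal_apply_ne _ h, hoff i j h]
  set b := (Z : Matrix (Fin 4) (Fin 4) (AlgebraicClosure F)) 0 0 with hb
  have hb5 : b ^ 5 = 1 := by
    have h1 : Z ^ 5 = 1 := by
      have hh : Z = P⁻¹ * toClosure z * P⁻¹⁻¹ := by rw [inv_inv]
      rw [hh, conj_pow, ← map_pow, hz5, map_one, mul_one, mul_inv_cancel]
    have h2 := congrFun (congrFun (congrArg (fun t : GL (Fin 4) (AlgebraicClosure F) => (t : Matrix (Fin 4) (Fin 4) (AlgebraicClosure F))) h1) 0) 0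
    rwa [Units.val_pow_eq_pow_val, hdiag, Matrix.diagonal_pow, Matrix.diagonal_apply_eq, Pi.pow_apply,
      Units.val_one, Matrix.one_apply_eq] at h2
  obtain ⟨j, hj5, hj⟩ := (IsPrimitiveRoot.coe_units_iff.2 hζ).eq_pow_of_pow_eq_one hb5
  set k := ((j : ZMod 5) * (f 0)⁻¹).val with hk
  refine ⟨k, ?_⟩
  set y := z * (x ^ k)⁻¹ with hy
  have hy5 : y ^ 5 = 1 := by
    have hcm : Commute z ((x ^ k)⁻¹) := ((show Commute z x from hxz.symm).pow_right k).inv_right
    rw [hy, hcm.mul_pow, hz5, one_mul, inv_pow, ← pow_mul, mul_comm, pow_mul, hx5, one_pow, inv_one]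
  rcases eq_one_of_fixed_five hT he h5 hc (mul_mem hz (inv_mem (pow_mem hx k))) hy5 hζ with h1 | ⟨Q, g, hQ, hg0, -⟩
  · exact mul_inv_eq_one.1 h1
  exfalso
  -- `y` fixes the first column of `P`
  have hyP : ((P⁻¹ * toClosure y * P : GL (Fin 4) (AlgebraicClosure F)) :
      Matrix (Fin 4) (Fin 4) (AlgebraicClosure F)) 0 0 = 1 ∧ ∀ i, i ≠ 0 →
      ((P⁻¹ * toClosure y * P : GL (Fin 4) (AlgebraicClosure F)) :
        Matrix (Fin 4) (Fin 4) (AlgebraicClosure F)) i 0 = 0 := by
    have e1 : P⁻¹ * toClosure y * P = Z * (diagU d ^ k)⁻¹ := by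
      rw [hy, map_mul, map_inv, map_pow, hex, conj_pow, hZ]; group
    have e2 : (diagU d ^ k)⁻¹ = diagU (d ^ k)⁻¹ := by
      rw [inv_eq_iff_eq_inv]
      refine Units.ext ?_
      rw [Units.val_pow_eq_pow_val, coe_diagU, Matrix.diagonal_pow]
      show _ = Matrix.diagonal _
      congr 1
    rw [e1, e2]
    refine ⟨?_, fun i hi => ?_⟩
    · rw [Units.val_mul, coe_diagU, Matrix.mul_diagonal, ← hb, ← hj, ← Units.val_pow_eq_pow_val, ← Units.val_mul,
        Units.val_eq_one, Pi.inv_apply, Pi.pow_apply, mul_inv_eq_one, hd]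
      show ζ ^ j = (ζ ^ (f 0).val) ^ k
      rw [← pow_mul, pow_eq_pow_iff_modEq, ← hζ.eq_orderOf]
      have : (((f 0).val * k : ℕ) : ZMod 5) = (j : ZMod 5) := by
        rw [Nat.cast_mul, hk, ZMod.natCast_zmod_val, ZMod.natCast_zmod_val, mul_left_comm,
          mul_inv_cancel₀ (hf0 0), mul_one]
      exact ((ZMod.natCast_eq_natCast_iff _ _ 5).1 this).symm
    · rw [Units.val_mul, coe_diagU, Matrix.mul_diagonal, hoff i 0 hi, zero_mul]
  have hdet : ((toClosure y : GL (Fin 4) (AlgebraicClosure F)) : Matrix (Fin 4) (Fin 4) (AlgebraicClosure F)) - 1 =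
      (P : Matrix (Fin 4) (Fin 4) (AlgebraicClosure F)) *
        (((P⁻¹ * toClosure y * P : GL (Fin 4) (AlgebraicClosure F)) : Matrix (Fin 4) (Fin 4) (AlgebraicClosure F)) - 1) *
        ((P⁻¹ : GL (Fin 4) (AlgebraicClosure F)) : Matrix (Fin 4) (Fin 4) (AlgebraicClosure F)) := by
    rw [mul_sub, sub_mul, ← Units.val_mul, ← Units.val_mul, mul_one, ← Units.val_mul, mul_inv_cancel, Units.val_one]
    congr 2
    group
  have h0 : (((toClosure y : GL (Fin 4) (AlgebraicClosure F)) :
      Matrix (Fin 4) (Fin 4) (AlgebraicClosure F)) - 1).det = 0 := by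
    rw [hdet, Matrix.det_units_conj]
    refine Matrix.det_eq_zero_of_column_eq_zero 0 fun i => ?_
    rcases eq_or_ne i 0 with rfl | hi
    · rw [Matrix.sub_apply, hyP.1, Matrix.one_apply_eq, sub_self]
    · rw [Matrix.sub_apply, hyP.2 i hi, Matrix.one_apply_ne hi, sub_self]
  have e3 : ((toClosure y : GL (Fin 4) (AlgebraicClosure F)) : Matrix (Fin 4) (Fin 4) (AlgebraicClosure F)) - 1 =
      (Q : Matrix (Fin 4) (Fin 4) (AlgebraicClosure F)) *
        (Matrix.diagonal fun i => ((ζ ^ (g i).val : (AlgebraicClosure F)ˣ) : AlgebraicClosure F) - 1) *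
        ((Q⁻¹ : GL (Fin 4) (AlgebraicClosure F)) : Matrix (Fin 4) (Fin 4) (AlgebraicClosure F)) := by
    rw [show (Matrix.diagonal fun i => ((ζ ^ (g i).val : (AlgebraicClosure F)ˣ) : AlgebraicClosure F) - 1) =
        ((diagU fun i => ζ ^ (g i).val : GL (Fin 4) (AlgebraicClosure F)) :
          Matrix (Fin 4) (Fin 4) (AlgebraicClosure F)) - 1 by
      rw [coe_diagU, ← Matrix.diagonal_one, Matrix.diagonal_sub], mul_sub, sub_mul, ← Units.val_mul, ← Units.val_mul,
      mul_one, ← Units.val_mul, mul_inv_cancel, Units.val_one]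
    congr 2
    rw [← hQ, mul_inv_cancel_right]
  rw [e3, Matrix.det_units_conj, Matrix.det_diagonal, Finset.prod_eq_zero_iff] at h0
  obtain ⟨i, -, hi⟩ := h0
  have := hζ.pow_inj (ZMod.val_lt (g i)) (by norm_num : (0 : ℕ) < 5)
    (Units.ext (by rw [pow_zero, Units.val_one]; exact sub_eq_zero.1 hi))
  exact hg0 i ((ZMod.val_eq_zero _).1 this)

/-- A scaled involution of determinant one with eigenvalues outside the norms does not exist. -/
theorem no_root_involution (hT : Twist G₄ p e) (h2 : (2 : F) ≠ 0) {g : GL (Fin 4) F} (hg : g ∈ G₄) {z : F}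
    (hgz : (g : Matrix (Fin 4) (Fin 4) F) * g = z • 1) (hz2 : z ^ 2 = -1)
    (hdet : (g : Matrix (Fin 4) (Fin 4) F).det = 1) {y : (AlgebraicClosure F)ˣ}
    (hy : (y : AlgebraicClosure F) ^ 2 = algebraMap F _ z) (hyp : y ^ p = -(y ^ e)) (hpodd : Odd p)
    (he : Odd e) : False := by
  classical
  have h2L : (2 : AlgebraicClosure F) ≠ 0 := by
    intro h
    refine h2 ((algebraMap F (AlgebraicClosure F)).injective ?_)
    rw [map_zero, map_ofNat]; exact h
  have hm1 : IsPrimitiveRoot (-1 : (AlgebraicClosure F)ˣ) 2 := by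
    refine IsPrimitiveRoot.mk_of_lt _ two_pos (by rw [neg_one_sq]) fun l hl hl2 => ?_
    interval_cases l
    rw [pow_one]
    intro h
    refine h2L ?_
    have : (-1 : AlgebraicClosure F) = 1 := by rw [← Units.val_one, ← Units.val_neg, h]
    linear_combination -this
  obtain ⟨P, -, ex, hP⟩ := (linearAmbient (AlgebraicClosure F) 4).eigen 2 (-1) y hm1 (by norm_num)
    (by exact_mod_cast h2L) (Subgroup.mem_top _) (Subgroup.mem_top _) (toClosure g) (Subgroup.mem_top _) (by
      rw [hy, coe_toClosure, pow_two, ← Matrix.map_mul, hgz, Matrix.map_smul' _ _ _ (map_mul _),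
        Matrix.map_one _ (map_zero _) (map_one _)])
  have hm := hT g hg P _ hP
  -- the count of the two signs
  set s : Fin 4 → Bool := fun i => decide (Even (ex i)) with hs
  have hval : ∀ i, y * (-1 : (AlgebraicClosure F)ˣ) ^ ex i = if s i then y else -y := by
    intro i
    rcases Nat.even_or_odd (ex i) with h | h
    · rw [h.neg_one_pow, mul_one, if_pos (by simp [hs, h])]
    · rw [h.neg_one_pow, mul_neg, mul_one, if_neg (by simp [hs, Nat.not_even_iff_odd.2 h])]
  simp only [hval] at hm hP
  let ψ : Bool → AlgebraicClosure F := fun b => if b then ((y ^ e : (AlgebraicClosure F)ˣ) : AlgebraicClosure F)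
    else -((y ^ e : (AlgebraicClosure F)ˣ) : AlgebraicClosure F)
  have hψ : Function.Injective ψ := by
    have key : ((y ^ e : (AlgebraicClosure F)ˣ) : AlgebraicClosure F) ≠ -((y ^ e : (AlgebraicClosure F)ˣ) : AlgebraicClosure F) :=
      fun h => (y ^ e).ne_zero ((mul_eq_zero.1 (show (2 : AlgebraicClosure F) * ((y ^ e : (AlgebraicClosure F)ˣ) : AlgebraicClosure F) = 0
        by linear_combination h)).resolve_left h2L)
    intro a b h
    cases a <;> cases b <;> simp [ψ] at h ⊢
    · exact key (by rw [Units.val_zpow_eq_zpow_val]; exact h.symm)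
    · exact key (by rw [Units.val_zpow_eq_zpow_val]; exact h)
  have hm' : (Finset.univ.val.map fun i => !s i) = Finset.univ.val.map s := by
    refine Multiset.map_injective hψ ?_
    rw [Multiset.map_map, Multiset.map_map]
    have l : ∀ i, ψ (!s i) = (((if s i then y else -y) ^ p : (AlgebraicClosure F)ˣ) : AlgebraicClosure F) := by
      intro i; cases s i <;> simp [ψ, hpodd.neg_pow, hyp]
    have r' : ∀ i, ψ (s i) = (((if s i then y else -y) ^ e : (AlgebraicClosure F)ˣ) : AlgebraicClosure F) := by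
      intro i; cases s i <;> simp [ψ, he.neg_zpow]
    simp only [Function.comp_def, l, r']
    exact hm
  have hcnt := congrArg (Multiset.count true) hm'
  simp only [Multiset.count_map] at hcnt
  have hd := det_toClosure_eq hP
  rw [hdet, map_one] at hd
  have hz : (algebraMap F (AlgebraicClosure F) z) ^ 2 = -1 := by rw [← map_pow, hz2, map_neg, map_one]
  have key : ∀ s : Fin 4 → Bool, (Finset.univ.filter fun i => true = !s i).card =
      (Finset.univ.filter fun i => true = s i).card → (Finset.univ.filter fun i => s i = false).card = 2 := by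
    decide
  have h2c := key s hcnt
  have : ∏ i, ((if s i then y else -y : (AlgebraicClosure F)ˣ) : AlgebraicClosure F) = -1 := by
    have e1 : ∀ i, ((if s i then y else -y : (AlgebraicClosure F)ˣ) : AlgebraicClosure F) =
        (y : AlgebraicClosure F) * if s i = false then -1 else 1 := by intro i; cases s i <;> simp
    rw [Finset.prod_congr rfl fun i _ => e1 i, Finset.prod_mul_distrib, Finset.prod_const, Finset.card_univ,
      Fintype.card_fin, Finset.prod_ite, Finset.prod_const, Finset.prod_const_one, h2c,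
      show (y : AlgebraicClosure F) ^ 4 = ((y : AlgebraicClosure F) ^ 2) ^ 2 by rw [← pow_mul], hy, hz]
    ring
  rw [this] at hd
  exact h2L (by linear_combination hd)

end CfsgLib.Classical.PrimeDerangement.Sympl
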